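import Mathlib
import Cfsg.Agent.R20.Defs

/-!
More notation for `R20`: checks for masks, modules, and named elements.
-/

set_option autoImplicit false

namespace Cfsg.Agent.R20

open Cfsg.Agent.Spor Cfsg.Agent.Inv.Fz Subgroup

noncomputable section

/-- The bits not in `k` form a preorder on the five indices. -/
def patOK (k : ℕ) : Bool := blt k 33554432 && allLt 5 fun i => !k.testBit (6 * i) && allLt 5 fun j => allLt 5 fun l =>
  !k.testBit (5 * j + i) || k.testBit (5 * l + i) || k.testBit (5 * j + l)

/-- Moreover the matrices of the pattern `k` fix the space of bivectors with zero coordinates at the bits of `j`. -/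
def sbOK (j k : ℕ) : Bool := patOK k && blt j 1024 && allLt 5 fun q => allLt q fun p => allLt 5 fun s => allLt s fun r =>
  !j.testBit (q * (q - 1) / 2 + p) || j.testBit (s * (s - 1) / 2 + r) ||
    (k.testBit (5 * r + p) || k.testBit (5 * s + q)) && (k.testBit (5 * s + p) || k.testBit (5 * r + q))

/-- The order of `pat k`: the number of choices of column `j` once the earlier columns are those of `1`. -/
def cp (k : ℕ) : ℕ := ∏ j ∈ Finset.range 5, ((Finset.range 32).filter fun v => (Nat.beq (v &&& col k j) 0 &&
  !allLt 5 fun l => blt l j || k.testBit (5 * l + j) || !v.testBit l) = true).card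

/-- An element of order 15 on `U`. -/
def rho : L5 := el 16883842
/-- An element of order 7 on `⟨e_2, e_3, e_4⟩`. -/
def s7 : L5 := el 13115457
/-- The centraliser in `T` of `x3` modulo `Q`. -/
def T0 : Subgroup M := sb 0 549822
/-- The union of the orbits of lengths 35 and 120 in `Ai i`. -/
def Om (i : Fin 3) : Set M := {x | x ∈ Ai i ∧ (ty x = 1 ∨ ty x = 3)}

variable {V : Type*} [AddCommGroup V] [Module (ZMod 2) V]

/-- An irreducible module of order `2 ^ 10`. -/
structure Md (ρ : Representation (ZMod 2) L5 V) : Prop where
  card : Nat.card V = 1024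
  irr : ∀ W : Submodule (ZMod 2) V, (∀ g, ∀ v ∈ W, ρ g v ∈ W) → W = ⊥ ∨ W = ⊤

/-- A non-zero vector fixed by the unitriangular group. -/
structure Hw (ρ : Representation (ZMod 2) L5 V) (u : V) : Prop where
  ne : u ≠ 0
  fix : ∀ g ∈ pat kT, ρ g u = u

/-- The negative simple root element `i` fixes `u`; `1 ≤ i ≤ 4`. -/
def Fx (ρ : Representation (ZMod 2) L5 V) (i : ℕ) (u : V) : Prop := ρ (E i (i - 1)) u = u

/-- The sum over the three cosets of the Borel subgroup in the minimal parabolic subgroup `i`. -/
def sm (ρ : Representation (ZMod 2) L5 V) (i : ℕ) (u : V) : V := u + ρ (E i (i - 1)) u + ρ (E (i - 1) i * E i (i - 1)) u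

end

end Cfsg.Agent.R20
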