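import Mathlib
import Cfsg.Agent.R20.Defs2
import Cfsg.Agent.Ch.StA

/-!
The basic calculus in the group `M`.
-/

set_option autoImplicit false

namespace Cfsg.Agent.R20

open Cfsg.Agent.Spor Cfsg.Agent.Inv.Fz Subgroup

theorem ea_eq (c : ℕ) : ea c = c % 1024 := Nat.and_two_pow_sub_one_eq_mod c 10

theorem em_eq (c : ℕ) : em c = c / 1024 := Nat.shiftRight_eq_div_pow c 10

theorem pr_eq (a m : ℕ) : pr a m = a + 1024 * m := rfl

theorem ea_c (x : M) : ea x.c = x.a := by have := x.lt; rw [ea_eq, M.c]; omega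

theorem em_c (x : M) : em x.c = cd x.g := by have := x.lt; rw [em_eq, M.c]; omega

theorem c_eq (x : M) : x.c = pr x.a (cd x.g) := rfl

theorem c_inj {x y : M} (h : x.c = y.c) : x = y :=
  M.ext (by rw [← ea_c, h, ea_c]) (cd_inj (by rw [← em_c, h, em_c]))

theorem c_mul (x y : M) : (x * y).c = mu x.c y.c := by
  simp only [mu, Spor.force_eq, ea_c, em_c, c_eq (x * y), mul_a, mul_g, cd_mul, Nat.xor_eq]

theorem c_inv (x : M) : x⁻¹.c = iv x.c := by
  simp only [iv, Spor.force_eq, ea_c, em_c, c_eq x⁻¹, inv_a, inv_g, cd_inv]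

theorem c_one : (1 : M).c = pr 0 idm := by rw [c_eq, one_g, cd_one, one_a]

theorem c_ofc {c : ℕ} (h : ok (em c) = true) : (ofc c).c = c := by
  rw [em_eq] at h
  change c % 1024 + 1024 * cd (el (c / 1024)) = c
  rw [cd_el h]; omega

theorem ofc_c (x : M) : ofc x.c = x := c_inj (c_ofc (by rw [em_c]; exact ok_cd _))

theorem e_a {a : ℕ} (ha : a < 1024) : (e a).a = a := Nat.mod_eq_of_lt ha

theorem e_g (a : ℕ) : (e a).g = 1 := rfl

theorem ι_a (g : L5) : (ι g).a = 0 := rfl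

theorem ι_g (g : L5) : (ι g).g = g := rfl

theorem π_apply (x : M) : π x = x.g := rfl

theorem c_e {a : ℕ} (ha : a < 1024) : (e a).c = pr a idm := by rw [c_eq, e_a ha, e_g, cd_one]

theorem c_ι (g : L5) : (ι g).c = pr 0 (cd g) := rfl

theorem e_zero : e 0 = 1 := rfl

theorem mul_a_of {x : M} (h : x.g = 1) (y : M) : (x * y).a = x.a ^^^ y.a := by rw [mul_a, h, ac_one y.lt]

theorem e_xor {a b : ℕ} (ha : a < 1024) (hb : b < 1024) : e (a ^^^ b) = e a * e b :=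
  M.ext (by rw [mul_a_of (e_g a), e_a ha, e_a hb, e_a (Nat.xor_lt_two_pow (n := 10) ha hb)]) (by rw [mul_g, e_g, e_g, e_g, one_mul])

theorem e_sq (a : ℕ) : e a * e a = 1 :=
  M.ext (by rw [mul_a_of (e_g a), Nat.xor_self, one_a]) (by rw [mul_g, e_g, one_mul, one_g])

theorem e_inv (a : ℕ) : (e a)⁻¹ = e a := inv_eq_of_mul_eq_one_right (e_sq a)

theorem e_comm (a b : ℕ) : e a * e b = e b * e a :=
  M.ext (by rw [mul_a_of (e_g a), mul_a_of (e_g b), Nat.xor_comm]) (by rw [mul_g, mul_g, e_g, e_g])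

theorem e_inj {a b : ℕ} (ha : a < 1024) (hb : b < 1024) (h : e a = e b) : a = b := by rw [← e_a ha, h, e_a hb]

theorem conj_e (x : M) {a : ℕ} (ha : a < 1024) : x * e a * x⁻¹ = e (ac (cd x.g) a) := by
  rw [mul_inv_eq_iff_eq_mul]
  exact M.ext (by rw [mul_a, mul_a_of (e_g _), e_a ha, e_a (ac_lt _ _), Nat.xor_comm])
    (by rw [mul_g, mul_g, e_g, e_g, one_mul, mul_one])

theorem e_mul_ι (x : M) : e x.a * ι x.g = x :=
  M.ext (by rw [mul_a_of (e_g _), e_a x.lt, ι_a, Nat.xor_zero]) (by rw [mul_g, e_g, ι_g, one_mul])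

theorem z_sq : z * z = 1 := e_sq 1

theorem z_ne : z ≠ 1 := fun h => absurd (congrArg M.a h) (by decide)

theorem cd_E {i j : ℕ} (hi : i < 5) (hj : j < 5) (h : i ≠ j) : cd (E i j) = idm + 2 ^ (5 * j + i) :=
  cd_el ((by decide +kernel : ∀ i < 5, ∀ j < 5, i ≠ j → ok (idm + 2 ^ (5 * j + i)) = true) i hi j hj h)

theorem E_eq_xA (r : Ch.RtA 5) : E r.1.1 r.1.2 = Ch.xA (ZMod 2) r 1 := by
  refine Subtype.ext ?_
  rw [← mat_cd, cd_E r.1.1.2 r.1.2.2 (fun e => r.2 (Fin.ext e)), Ch.coe_xA]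
  revert r
  decide +kernel

theorem E_sq {i j : ℕ} (hi : i < 5) (hj : j < 5) (h : i ≠ j) : E i j * E i j = 1 := cd_inj (by
  rw [cd_mul, cd_E hi hj h, cd_one]
  exact (by decide +kernel : ∀ i < 5, ∀ j < 5, i ≠ j →
    mm (idm + 2 ^ (5 * j + i)) (idm + 2 ^ (5 * j + i)) = idm) i hi j hj h)

theorem E_comm : ∀ i < 5, ∀ j < 5, ∀ k < 5, ∀ l < 5, i ≠ j → k ≠ l → j ≠ k → i ≠ l → E i j * E k l = E k l * E i j :=
  fun i hi j hj k hk l hl h1 h2 h3 h4 => cd_inj (by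
    have : allLt 5 (fun i => allLt 5 fun j => allLt 5 fun k => allLt 5 fun l => Nat.beq j k || Nat.beq i l || Nat.beq i j ||
      Nat.beq k l || Nat.beq (mm (idm + 2 ^ (5 * j + i)) (idm + 2 ^ (5 * l + k)))
        (mm (idm + 2 ^ (5 * l + k)) (idm + 2 ^ (5 * j + i)))) = true := by decide +kernel
    simp only [allLt_iff, Bool.or_eq_true, nbeq_iff] at this
    rw [cd_mul, cd_mul, cd_E hi hj h1, cd_E hk hl h2]
    exact (this i hi j hj k hk l hl).resolve_left (by simp [*]))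

theorem E_rel : ∀ i < 5, ∀ j < 5, ∀ k < 5, i ≠ j → j ≠ k → i ≠ k → E i j * E j k * E i j * E j k = E i k :=
  fun i hi j hj k hk h1 h2 h3 => cd_inj (by
    have : allLt 5 (fun i => allLt 5 fun j => allLt 5 fun k => Nat.beq j k || Nat.beq i k || Nat.beq i j ||
      Nat.beq (mm (mm (mm (idm + 2 ^ (5 * j + i)) (idm + 2 ^ (5 * k + j))) (idm + 2 ^ (5 * j + i))) (idm + 2 ^ (5 * k + j)))
        (idm + 2 ^ (5 * k + i))) = true := by decide +kernel
    simp only [allLt_iff, Bool.or_eq_true, nbeq_iff] at this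
    rw [cd_mul, cd_mul, cd_mul, cd_E hi hj h1, cd_E hj hk h2, cd_E hi hk h3]
    exact (this i hi j hj k hk).resolve_left (by simp [*]))

theorem cd_tu {u : ℕ} (hu : u < 16) : cd (tu u) = idm + 1048576 * u :=
  cd_el ((by decide +kernel : ∀ u < 16, ok (idm + 1048576 * u) = true) u hu)

theorem cd_rho : cd rho = 16883842 := cd_el (by decide +kernel)

theorem cd_s7 : cd s7 = 13115457 := cd_el (by decide +kernel)

theorem rr_a {ζ w : ℕ} (hζ : ζ < 64) (hw : w < 16) (u : ℕ) : (rr ζ w u).a = ζ + 64 * w := by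
  rw [rr, mul_a_of (e_g _), e_a (by omega), ι_a, Nat.xor_zero]

theorem rr_g (ζ w u : ℕ) : (rr ζ w u).g = tu u := by rw [rr, mul_g, e_g, ι_g, one_mul]

theorem c_rr {ζ w u : ℕ} (hζ : ζ < 64) (hw : w < 16) (hu : u < 16) : (rr ζ w u).c = pr (ζ + 64 * w) (idm + 1048576 * u) := by
  rw [c_eq, rr_a hζ hw, rr_g, cd_tu hu]

theorem tu_zero : tu 0 = 1 := cd_inj (by rw [cd_tu (by norm_num), cd_one]; rfl)

theorem eq_one_of_ac {g : L5} (h : ∀ a < 1024, ac (cd g) a = a) : g = 1 := by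
  have k := fun i j (hij : i < j) (hj : j < 5) => (ac_basis (cd g) hij hj).symm.trans
    (h _ (Nat.pow_lt_pow_right (n := 10) one_lt_two (by interval_cases j <;> omega)))
  have : allLt 32 (fun a => allLt 32 fun b => !Nat.beq (wg a b) 1 || allLt 32 fun c => !Nat.beq (wg a c) 2 || !Nat.beq (wg b c) 4 ||
      allLt 32 fun d => !Nat.beq (wg a d) 8 || !Nat.beq (wg b d) 16 || allLt 32 fun e => !Nat.beq (wg a e) 64 ||
        !Nat.beq (wg b e) 128 || Nat.beq (pk a b c d e) idm) = true := by decide +kernel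
  simp only [allLt_iff, Bool.or_eq_true, nbeq_iff, Bool.not_eq_true', ← Bool.not_eq_true, or_assoc] at this
  simp only [← imp_iff_not_or] at this
  have e := this _ (col_lt (cd g) 0) _ (col_lt (cd g) 1) (k 0 1 (by norm_num) (by norm_num)) _ (col_lt (cd g) 2)
    (k 0 2 (by norm_num) (by norm_num)) (k 1 2 (by norm_num) (by norm_num)) _ (col_lt (cd g) 3)
    (k 0 3 (by norm_num) (by norm_num)) (k 1 3 (by norm_num) (by norm_num)) _ (col_lt (cd g) 4)
    (k 0 4 (by norm_num) (by norm_num)) (k 1 4 (by norm_num) (by norm_num))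
  have p := col_pk (col_lt (cd g) 0) (col_lt (cd g) 1) (col_lt (cd g) 2) (col_lt (cd g) 3) (col_lt (cd g) 4)
  refine cd_inj (by
    rw [cd_one, ← e]
    exact eq_of_col (cd_lt _) p.2.2.2.2.2 fun j hj => by
      interval_cases j
      exacts [p.1.symm, p.2.1.symm, p.2.2.1.symm, p.2.2.2.1.symm, p.2.2.2.2.1.symm])

theorem eq_of_ac {g h : L5} (e : ∀ a < 1024, ac (cd g) a = ac (cd h) a) : g = h :=
  (inv_mul_eq_one.1 (eq_one_of_ac fun a ha => by rw [ac_mul _ _ ha, ← e a ha, ac_inv_ac _ ha]))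

theorem rk2_iff {a : ℕ} : rk2 a = true ↔ a ≠ 0 ∧ ∃ u < 32, ∃ v < 32, a = wg u v := by
  have h1 : allLt 32 (fun u => allLt 32 fun v => Nat.beq (wg u v) 0 || rk2 (wg u v)) = true := by decide +kernel
  have h2 : allLt 1024 (fun a => !rk2 a || (!Nat.beq a 0 && !allLt 32 fun u => allLt 32 fun v => !Nat.beq a (wg u v))) = true := by
    decide +kernel
  simp only [allLt_iff, Bool.or_eq_true, nbeq_iff, Bool.not_eq_true', ← Bool.not_eq_true, ← imp_iff_not_or,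
    Bool.and_eq_true, not_forall, not_not] at h1 h2
  refine ⟨fun h => ?_, fun ⟨h, u, hu, v, hv, e⟩ => e ▸ (h1 u hu v hv).resolve_left (e ▸ h)⟩
  have ha : a < 1024 := by
    by_contra c
    rw [rk2, Nat.testBit_lt_two_pow (lt_of_lt_of_le (by decide +kernel : _ < Nat.pow 2 1024)
      (Nat.pow_le_pow_right two_pos (not_lt.1 c)))] at h
    exact absurd h (by decide)
  obtain ⟨h3, u, hu, v, hv, e⟩ := h2 a ha h
  exact ⟨h3, u, hu, v, hv, e⟩

theorem rk2_ac (g : L5) {a : ℕ} (ha : a < 1024) : rk2 (ac (cd g) a) = rk2 a := by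
  have k : ∀ (g : L5), ∀ a < 1024, rk2 a = true → rk2 (ac (cd g) a) = true := fun g a ha h => by
    obtain ⟨h0, u, hu, v, hv, e⟩ := rk2_iff.1 h
    refine rk2_iff.2 ⟨fun c => h0 ?_, _, ap_lt _ _, _, ap_lt _ _, by rw [e, ac_wg _ _ hu _ hv]⟩
    rw [← ac_inv_ac g ha, c, ac_zero]
  exact Bool.eq_iff_iff.2 ⟨fun h => ac_inv_ac g ha ▸ k g⁻¹ _ (ac_lt _ _) h, k g a ha⟩

/-! ### Patterns -/

theorem mem_closure_of_mul {G : Type*} [Group G] [Finite G] {s : Set G} (h1 : 1 ∈ s) (h : ∀ a ∈ s, ∀ b ∈ s, a * b ∈ s) {x : G} :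
    x ∈ closure s ↔ x ∈ s := by
  refine ⟨fun hx => ?_, fun hx => subset_closure hx⟩
  induction hx using closure_induction with
  | mem x hx => exact hx
  | one => exact h1
  | mul a b _ _ ha hb => exact h a ha b hb
  | inv a _ ha =>
    have k : ∀ n : ℕ, a ^ n ∈ s := fun n => by
      induction n with
      | zero => rwa [pow_zero]
      | succ n ih => rw [pow_succ]; exact h _ ih _ ha
    rw [← zpow_neg_one, ← zpow_mod_orderOf, ← Int.toNat_of_nonneg (Int.emod_nonneg _ (by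
      exact_mod_cast (orderOf_pos a).ne')), zpow_natCast]
    exact k _

theorem land_eq_zero {a k : ℕ} : a &&& k = 0 ↔ ∀ i, k.testBit i = true → a.testBit i = false :=
  ⟨fun h i hi => by simpa [hi] using congrArg (·.testBit i) h, fun h => Nat.eq_of_testBit_eq fun i => by
    rw [Nat.testBit_and, Nat.zero_testBit]
    cases hk : k.testBit i
    · simp
    · simp [h i hk]⟩

theorem cd_land {g : L5} {k : ℕ} : cd g &&& k = 0 ↔ ∀ i j : Fin 5, k.testBit (5 * j + i) = true → g.1 i j = 0 := by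
  have z2 : ∀ x : ZMod 2, decide (x = 1) = false ↔ x = 0 := by decide
  rw [land_eq_zero]
  refine ⟨fun h i j hk => (z2 _).1 (testBit_cd g i j ▸ h _ hk), fun h n hn => ?_⟩
  by_cases c : n < 25
  · have := testBit_cd g ⟨n % 5, Nat.mod_lt _ (by norm_num)⟩ ⟨n / 5, by omega⟩
    rw [Nat.div_add_mod] at this
    exact this ▸ (z2 _).2 (h _ _ (by simpa only [Nat.div_add_mod] using hn))
  · exact Nat.testBit_lt_two_pow ((cd_lt g).trans_le (Nat.pow_le_pow_right two_pos (not_lt.1 c) : 2 ^ 25 ≤ _))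

theorem patOK_spec {k : ℕ} (h : patOK k = true) : k < 33554432 ∧ ∀ i < 5, k.testBit (6 * i) = false ∧ ∀ j < 5, ∀ l < 5,
    k.testBit (5 * j + i) = true → k.testBit (5 * l + i) = true ∨ k.testBit (5 * j + l) = true := by
  simp only [patOK, Bool.and_eq_true, blt_iff, allLt_iff, Bool.or_eq_true, Bool.not_eq_true', or_assoc] at h
  exact ⟨h.1, fun i hi => ⟨(h.2 i hi).1, fun j hj l hl c => ((h.2 i hi).2 j hj l hl).resolve_left (by simp [c])⟩⟩

theorem pat_mul {k : ℕ} (h : patOK k = true) {a b : L5} (ha : cd a &&& k = 0) (hb : cd b &&& k = 0) : cd (a * b) &&& k = 0 := by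
  rw [cd_land] at ha hb ⊢
  intro i j hk
  rw [Matrix.SpecialLinearGroup.coe_mul, Matrix.mul_apply]
  refine Finset.sum_eq_zero fun l _ => ?_
  rcases ((patOK_spec h).2 i i.2).2 j j.2 l l.2 hk with c | c
  · rw [ha i l c, zero_mul]
  · rw [hb l j c, mul_zero]

theorem pat_one {k : ℕ} (h : patOK k = true) : cd 1 &&& k = 0 := cd_land.2 fun i j hk => by
  refine Matrix.one_apply_ne fun e => ?_
  rw [e, show 5 * j.val + j.val = 6 * j.val by ring, ((patOK_spec h).2 j j.2).1] at hk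
  exact absurd hk (by decide)

theorem mem_pat {k : ℕ} (h : patOK k = true) {g : L5} : g ∈ pat k ↔ cd g &&& k = 0 :=
  mem_closure_of_mul (s := {g | cd g &&& k = 0}) (pat_one h) fun _ ha _ hb => pat_mul h ha hb

theorem testBit_wg : ∀ q < 5, ∀ p < q, ∀ u < 32, ∀ v < 32, (wg u v).testBit (q * (q - 1) / 2 + p) =
    ((u.testBit p && v.testBit q) ^^ (u.testBit q && v.testBit p)) := by
  have : allLt 32 (fun u => allLt 32 fun v => Spor.force (wg u v) fun c => allLt 5 fun q => allLt q fun p =>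
    c.testBit (q * (q - 1) / 2 + p) == ((u.testBit p && v.testBit q) ^^ (u.testBit q && v.testBit p))) = true := by
    decide +kernel
  simp only [allLt_iff, Spor.force_eq, beq_iff_eq] at this
  exact fun q hq p hp u hu v hv => this u hu v hv q hq p hp

theorem exists_pair : ∀ k < 10, ∃ j < 5, ∃ i < j, k = j * (j - 1) / 2 + i := by decide

theorem xor_land {a b k : ℕ} (ha : a &&& k = 0) (hb : b &&& k = 0) : (a ^^^ b) &&& k = 0 := by
  rw [Nat.and_xor_distrib_right, ha, hb, Nat.xor_self]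

theorem sb_ac {j k : ℕ} (h : sbOK j k = true) {m : ℕ} (hm : m &&& k = 0) {a : ℕ} (ha : a < 1024) (hj : a &&& j = 0) :
    ac m a &&& j = 0 := by
  simp only [sbOK, Bool.and_eq_true, blt_iff, allLt_iff, Bool.or_eq_true, Bool.not_eq_true'] at h
  have key : ∀ a < 1024, ac m (a &&& (1023 - j)) &&& j = 0 := by
    refine xor_ind (n := 10) (by simp [ac_zero]) (fun n hn => ?_) fun a _ b _ h1 h2 => by
      rw [Nat.and_xor_distrib_right, ac_xor]; exact xor_land h1 h2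
    have e : (1023 - j).testBit n = !j.testBit n := by
      rw [show 1023 - j = 2 ^ 10 - (j + 1) by omega, Nat.testBit_two_pow_sub_succ h.1.2]; simp [hn]
    rw [Nat.two_pow_and, e]
    cases c : j.testBit n
    · obtain ⟨s, hs, r, hr, rfl⟩ := exists_pair n hn
      simp only [Bool.not_false, Bool.toNat_true, mul_one]
      rw [ac_basis _ hr hs, land_eq_zero]
      intro n' hn'
      obtain ⟨q, hq, p, hp, rfl⟩ := exists_pair n' (by
        by_contra c'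
        rw [Nat.testBit_lt_two_pow (h.1.2.trans_le (Nat.pow_le_pow_right two_pos (not_lt.1 c') : 2 ^ 10 ≤ _))] at hn'
        exact absurd hn' (by decide))
      rw [testBit_wg q hq p hp _ (col_lt _ _) _ (col_lt _ _), testBit_col _ _ _ hq, testBit_col _ _ _ hq,
        testBit_col _ _ _ (hp.trans hq), testBit_col _ _ _ (hp.trans hq)]
      have hm' := land_eq_zero.1 hm
      rcases h.2 q hq p hp s hs r hr with (c' | c') | ⟨c1 | c1, c2 | c2⟩
      · rw [hn'] at c'; exact absurd c' (by decide)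
      · rw [c] at c'; exact absurd c' (by decide)
      all_goals simp [hm' _ c1, hm' _ c2]
    · simp [ac_zero]
  have e : a &&& (1023 - j) = a := Nat.eq_of_testBit_eq fun n => by
    rw [Nat.testBit_and, show 1023 - j = 2 ^ 10 - (j + 1) by omega, Nat.testBit_two_pow_sub_succ h.1.2]
    cases c : a.testBit n
    · rfl
    · have : n < 10 := by
        by_contra c'
        rw [Nat.testBit_lt_two_pow (ha.trans_le (Nat.pow_le_pow_right two_pos (not_lt.1 c') : 2 ^ 10 ≤ _))] at c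
        exact absurd c (by decide)
      cases c' : j.testBit n
      · simp [this]
      · rw [land_eq_zero.1 hj n c'] at c; exact absurd c (by decide)
  exact e ▸ key a ha

theorem sbOK_pat {j k : ℕ} (h : sbOK j k = true) : patOK k = true := by
  simp only [sbOK, Bool.and_eq_true] at h; exact h.1.1

theorem mem_sb {j k : ℕ} (h : sbOK j k = true) {x : M} : x ∈ sb j k ↔ x.a &&& j = 0 ∧ cd x.g &&& k = 0 :=
  mem_closure_of_mul (s := {x : M | x.a &&& j = 0 ∧ cd x.g &&& k = 0}) ⟨Nat.zero_and _, pat_one (sbOK_pat h)⟩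
    fun _ ha b hb => ⟨xor_land ha.1 (sb_ac h ha.2 b.lt hb.1), pat_mul (sbOK_pat h) ha.2 hb.2⟩

theorem mem_sb_zero {k : ℕ} (h : sbOK 0 k = true) {x : M} : x ∈ sb 0 k ↔ x.g ∈ pat k := by
  rw [mem_sb h, mem_pat (sbOK_pat h), and_iff_right (Nat.and_zero _)]

theorem ut_spec : ∀ n < 1024, ok (ut n) = true ∧ ut n &&& kT = 0 := by
  have : allLt 1024 (fun n => ok (ut n) && Nat.beq (ut n &&& kT) 0) = true := by decide +kernel
  simpa only [allLt_iff, Bool.and_eq_true, nbeq_iff] using this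

theorem ok_ut : ∀ n < 1024, ok (ut n) = true := fun n hn => (ut_spec n hn).1

theorem mem_UT {g : L5} : g ∈ pat kT ↔ ∃ n < 1024, cd g = ut n := by
  rw [mem_pat (by decide +kernel)]
  refine ⟨fun h => ?_, fun ⟨n, hn, e⟩ => e ▸ (ut_spec n hn).2⟩
  have h' := cd_land.1 h
  have d : ∏ i, g.1 i i = 1 := (Matrix.det_of_isUpperTriangular fun i j hij => h' i j (by revert i j; decide)).symm.trans g.2
  have d' : ∀ i : Fin 5, (cd g).testBit (5 * i + i) = true := fun i => by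
    rw [testBit_cd, decide_eq_true_eq]
    by_contra c
    exact zero_ne_one ((Finset.prod_eq_zero (f := fun i => g.1 i i) (Finset.mem_univ i)
      ((by decide : ∀ x : ZMod 2, x ≠ 1 → x = 0) _ c)).symm.trans d)
  have k : ∀ j < 5, ∀ v < 32, v.testBit j = true → (∀ i < 5, j < i → v.testBit i = false) → v / 2 ^ j = 1 := by decide +kernel
  have c : ∀ j < 5, col (cd g) j / 2 ^ j = 1 := fun j hj => k j hj _ (col_lt _ _)
    (by rw [testBit_col _ _ _ hj]; exact d' ⟨j, hj⟩) fun i hi hij => by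
      rw [testBit_col _ _ _ hi]
      exact land_eq_zero.1 h _ ((by decide : ∀ j < 5, ∀ i < 5, j < i → kT.testBit (5 * j + i) = true) j hj i hi hij)
  have p := col_pk (col_lt (cd g) 0) (col_lt (cd g) 1) (col_lt (cd g) 2) (col_lt (cd g) 3) (col_lt (cd g) 4)
  have e : cd g = pk (col (cd g) 0) (col (cd g) 1) (col (cd g) 2) (col (cd g) 3) (col (cd g) 4) :=
    eq_of_col (cd_lt _) p.2.2.2.2.2 fun j hj => by
      interval_cases j
      exacts [p.1.symm, p.2.1.symm, p.2.2.1.symm, p.2.2.2.1.symm, p.2.2.2.2.1.symm]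
  have c0 := c 0 (by norm_num); have c1 := c 1 (by norm_num); have c2 := c 2 (by norm_num)
  have c3 := c 3 (by norm_num); have c4 := c 4 (by norm_num)
  have : allLt 2 (fun a => allLt 4 fun b => allLt 8 fun c => allLt 16 fun d =>
    Nat.beq (pk 1 (a + 2) (b + 4) (c + 8) (d + 16)) (ut (a + 2 * b + 8 * c + 64 * d))) = true := by decide +kernel
  simp only [allLt_iff, nbeq_iff] at this
  refine ⟨_, ?_, e.trans (Eq.trans ?_ (this (col (cd g) 1 - 2) (by omega) (col (cd g) 2 - 4) (by omega) (col (cd g) 3 - 8)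
    (by omega) (col (cd g) 4 - 16) (by omega)))⟩
  · omega
  · congr 1 <;> omega

theorem land_mono {a k k' : ℕ} (h : a &&& k = 0) (hk : k &&& k' = k') : a &&& k' = 0 := by
  rw [← hk, ← Nat.and_assoc, h, Nat.zero_and]

theorem pat_mono {k k' : ℕ} (hk : k &&& k' = k') : pat k ≤ pat k' := closure_mono fun _ h => land_mono h hk

theorem sb_mono {j j' k k' : ℕ} (hj : j &&& j' = j') (hk : k &&& k' = k') : sb j k ≤ sb j' k' :=
  closure_mono fun _ h => ⟨land_mono h.1 hj, land_mono h.2 hk⟩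

theorem mem_EU {g : L5} : g ∈ pat kE ↔ ∃ u < 16, g = tu u := by
  refine ⟨fun h => ?_, fun ⟨u, hu, e⟩ => (mem_pat (by decide +kernel)).2 (by
    rw [e, cd_tu hu]; exact (by decide +kernel : ∀ u < 16, (idm + 1048576 * u) &&& kE = 0) u hu)⟩
  obtain ⟨n, hn, e⟩ := mem_UT.1 (pat_mono (by decide) h)
  have : allLt 1024 (fun n => !Nat.beq (ut n &&& kE) 0 || Nat.beq (ut n) (idm + 1048576 * (n / 64))) = true := by decide +kernel
  simp only [allLt_iff, Bool.or_eq_true, nbeq_iff, Bool.not_eq_true', ← Bool.not_eq_true, ← imp_iff_not_or] at this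
  exact ⟨n / 64, by omega, cd_inj (by
    rw [cd_tu (by omega), e, ← this n hn (e ▸ (mem_pat (by decide +kernel)).1 h)])⟩

theorem land_kI {g : L5} : cd g &&& kI = 0 ↔ g = 1 := by
  refine ⟨fun h => ?_, fun h => by rw [h, cd_one]; decide⟩
  obtain ⟨u, hu, rfl⟩ := mem_EU.1 ((mem_pat (by decide +kernel)).2 (land_mono h (by decide)))
  rw [cd_tu hu] at h
  rw [(by revert u; decide +kernel : u = 0), tu_zero]

theorem land_960 {a : ℕ} (ha : a < 1024) : a &&& 960 = 0 ↔ a < 64 := by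
  have : allLt 1024 (fun a => Nat.beq (a &&& 960) 0 == blt a 64) = true := by decide +kernel
  simp only [allLt_iff, beq_iff_eq] at this
  rw [← nbeq_iff, this a ha, blt_iff]

theorem mem_A {x : M} : x ∈ A ↔ x.g = 1 := by rw [A, mem_sb (by decide +kernel), land_kI, and_iff_right (Nat.and_zero _)]

theorem eq_e {x : M} (h : x.g = 1) : x = e x.a := M.ext (e_a x.lt).symm h

theorem mem_A' {x : M} : x ∈ A ↔ ∃ a < 1024, x = e a :=
  mem_A.trans ⟨fun h => ⟨_, x.lt, eq_e h⟩, fun ⟨_, _, h⟩ => h ▸ rfl⟩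

theorem e_mem_A (a : ℕ) : e a ∈ A := mem_A.2 rfl

theorem mem_Z {x : M} : x ∈ Z ↔ ∃ a < 64, x = e a := by
  rw [Z, mem_sb (by decide +kernel), land_kI, land_960 x.lt]
  exact ⟨fun h => ⟨_, h.1, eq_e h.2⟩, fun ⟨a, ha, h⟩ => h ▸ ⟨(e_a (by omega : a < 1024)).symm ▸ ha, rfl⟩⟩

theorem mem_R' {x : M} : x ∈ R ↔ x.g ∈ pat kE := mem_sb_zero (by decide +kernel)

theorem eq_rr {x : M} {u : ℕ} (h : x.g = tu u) : x = rr (x.a % 64) (x.a / 64) u :=
  have := x.lt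
  M.ext (by rw [rr_a (by omega) (by omega)]; omega) (h.trans (rr_g _ _ _).symm)

theorem mem_R {x : M} : x ∈ R ↔ ∃ ζ < 64, ∃ w < 16, ∃ u < 16, x = rr ζ w u :=
  have := x.lt
  mem_R'.trans (mem_EU.trans ⟨fun ⟨u, hu, h⟩ => ⟨_, by omega, _, by omega, u, hu, eq_rr h⟩,
    fun ⟨_, _, _, _, u, hu, h⟩ => ⟨u, hu, h ▸ rr_g _ _ _⟩⟩)

theorem mem_A'' {x : M} : x ∈ A ↔ ∃ ζ < 64, ∃ w < 16, x = rr ζ w 0 :=
  have := x.lt
  mem_A.trans ⟨fun h => ⟨_, by omega, _, by omega, eq_rr (h.trans tu_zero.symm)⟩,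
    fun ⟨_, _, _, _, h⟩ => h ▸ (rr_g _ _ _).trans tu_zero⟩

theorem mem_A1 {x : M} : x ∈ A1 ↔ ∃ ζ < 64, ∃ u < 16, x = rr ζ 0 u := by
  rw [A1, mem_sb (by decide +kernel), land_960 x.lt, ← mem_pat (by decide +kernel), mem_EU]
  refine ⟨fun ⟨h, u, hu, e⟩ => ⟨x.a, h, u, hu, ?_⟩, fun ⟨ζ, h, u, hu, e⟩ =>
    ⟨by rw [e, rr_a h (by norm_num)]; omega, u, hu, e ▸ rr_g _ _ _⟩⟩
  have := eq_rr e
  rwa [Nat.mod_eq_of_lt h, Nat.div_eq_of_lt h] at this

theorem wg_lt64 : ∀ u < 16, ∀ v < 16, wg u v < 64 := by decide +kernel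

theorem add_eq_xor : ∀ ζ < 64, ∀ w < 16, ζ + 64 * w = ζ ^^^ 64 * w := by decide +kernel

theorem mul_xor64 : ∀ w < 16, ∀ w' < 16, 64 * (w ^^^ w') = 64 * w ^^^ 64 * w' := by decide +kernel

theorem ac_tu {u ζ w : ℕ} (hu : u < 16) (hζ : ζ < 64) (hw : w < 16) : ac (cd (tu u)) (ζ + 64 * w) = ζ ^^^ wg w u ^^^ 64 * w := by
  have : allLt 16 (fun u => Spor.force (mx (idm + 1048576 * u)) fun M => allLt 64 (fun ζ => Nat.beq (apm M ζ) ζ) &&
    allLt 16 fun w => Nat.beq (apm M (64 * w)) (wg w u ^^^ 64 * w)) = true := by decide +kernel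
  simp only [allLt_iff, Spor.force_eq, Bool.and_eq_true, nbeq_iff] at this
  rw [add_eq_xor _ hζ _ hw, ac_xor, cd_tu hu, ac, ac, (this u hu).1 ζ hζ, (this u hu).2 w hw, Nat.xor_assoc]

theorem tu_mul {u u' : ℕ} (hu : u < 16) (hu' : u' < 16) : tu u * tu u' = tu (u ^^^ u') := cd_inj (by
  rw [cd_mul, cd_tu hu, cd_tu hu', cd_tu (Nat.xor_lt_two_pow (n := 4) hu hu')]
  exact (by decide +kernel : ∀ u < 16, ∀ u' < 16, mm (idm + 1048576 * u) (idm + 1048576 * u') = idm + 1048576 * (u ^^^ u'))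
    u hu u' hu')

theorem rr_mul {ζ w u ζ' w' u' : ℕ} (hζ : ζ < 64) (hw : w < 16) (hu : u < 16) (hζ' : ζ' < 64) (hw' : w' < 16) (hu' : u' < 16) :
    rr ζ w u * rr ζ' w' u' = rr (ζ ^^^ ζ' ^^^ wg w' u) (w ^^^ w') (u ^^^ u') := by
  have h1 : ζ ^^^ ζ' ^^^ wg w' u < 64 :=
    Nat.xor_lt_two_pow (n := 6) (Nat.xor_lt_two_pow (n := 6) hζ hζ') (wg_lt64 _ hw' _ hu)
  have h2 : w ^^^ w' < 16 := Nat.xor_lt_two_pow (n := 4) hw hw'
  refine M.ext ?_ (by rw [mul_g, rr_g, rr_g, rr_g, tu_mul hu hu'])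
  rw [mul_a, rr_g, rr_a hζ hw, rr_a hζ' hw', rr_a h1 h2, ac_tu hu hζ' hw', add_eq_xor _ hζ _ hw, add_eq_xor _ h1 _ h2,
    mul_xor64 _ hw _ hw']
  ac_rfl

theorem uu_tu {u : ℕ} (hu : u < 16) : uu (cd (tu u)) = u := by rw [cd_tu hu]; revert u; decide +kernel

theorem mem_A2 {x : M} : x ∈ A2 ↔ ∃ ζ < 64, ∃ u < 16, x = rr ζ u u := by
  have k : ∀ x : M, (cd x.g &&& kE = 0 ∧ x.a / 64 = uu (cd x.g)) ↔ ∃ ζ < 64, ∃ u < 16, x = rr ζ u u := fun x => by
    rw [← mem_pat (by decide +kernel), mem_EU]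
    refine ⟨fun ⟨⟨u, hu, e⟩, h⟩ => ⟨x.a % 64, Nat.mod_lt _ (by norm_num), u, hu, ?_⟩, fun ⟨ζ, h, u, hu, e⟩ =>
      ⟨⟨u, hu, e ▸ rr_g _ _ _⟩, by rw [e, rr_a h hu, rr_g, uu_tu hu]; omega⟩⟩
    have := eq_rr e
    rwa [h, e, uu_tu hu] at this
  refine (mem_closure_of_mul (s := {x : M | cd x.g &&& kE = 0 ∧ x.a / 64 = uu (cd x.g)})
    ⟨pat_one (by decide +kernel), by rw [one_g, cd_one]; rfl⟩ fun a ha b hb => ?_).trans (k x)
  obtain ⟨ζ, hζ, u, hu, rfl⟩ := (k a).1 ha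
  obtain ⟨ζ', hζ', u', hu', rfl⟩ := (k b).1 hb
  exact (k _).2 ⟨_, Nat.xor_lt_two_pow (n := 6) (Nat.xor_lt_two_pow (n := 6) hζ hζ') (wg_lt64 _ hu' _ hu), _,
    Nat.xor_lt_two_pow (n := 4) hu hu', rr_mul hζ hu hu hζ' hu' hu'⟩

theorem mem_T {x : M} : x ∈ T ↔ x.g ∈ pat kT := mem_sb_zero (by decide +kernel)

theorem mem_P {x : M} : x ∈ P ↔ x.g ∈ pat kP := mem_sb_zero (by decide +kernel)

theorem mem_Y {x : M} : x ∈ Y ↔ x.g ∈ pat kY := mem_sb_zero (by decide +kernel)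

theorem mem_K {x : M} : x ∈ K ↔ x.a = 0 ∧ x.g ∈ pat kK := by
  rw [K, mem_sb (by decide +kernel), mem_pat (by decide +kernel), Nat.and_two_pow_sub_one_eq_mod x.a 10, Nat.mod_eq_of_lt x.lt]

theorem mem_Q {x : M} : x ∈ Q ↔ x.a &&& 800 = 0 ∧ cd x.g &&& kQ = 0 := mem_sb (by decide +kernel)

theorem mem_T0 {x : M} : x ∈ T0 ↔ cd x.g &&& 549822 = 0 := by
  rw [T0, mem_sb (by decide +kernel), and_iff_right (Nat.and_zero _)]

theorem rr_inj {ζ w u ζ' w' u' : ℕ} (hζ : ζ < 64) (hw : w < 16) (hu : u < 16) (hζ' : ζ' < 64) (hw' : w' < 16) (hu' : u' < 16)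
    (h : rr ζ w u = rr ζ' w' u') : ζ = ζ' ∧ w = w' ∧ u = u' := by
  have := congrArg M.c h
  rw [c_rr hζ hw hu, c_rr hζ' hw' hu', pr_eq, pr_eq] at this
  omega

theorem P_lt {g : L5} (hg : g ∈ pat kP) : (∀ ζ < 64, ac (cd g) ζ < 64) ∧ ∀ u < 16, ap (cd g) u < 16 := by
  have h := (mem_pat (by decide +kernel)).1 hg
  refine ⟨fun ζ hζ => (land_960 (ac_lt _ _)).1 (sb_ac (j := 960) (k := kP) (by decide +kernel) h (by omega)
    ((land_960 (by omega)).2 hζ)), xor_ind (n := 4) (by simp [ap_zero]) (fun k hk => ?_) fun a _ b _ h1 h2 => by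
      rw [ap_xor]; exact Nat.xor_lt_two_pow (n := 4) h1 h2⟩
  rw [ap_pow _ (by omega)]
  refine (by decide +kernel : ∀ v < 32, v.testBit 4 = false → v < 16) _ (col_lt _ _) ?_
  rw [testBit_col _ _ _ (by norm_num)]
  exact land_eq_zero.1 h _ (by revert k; decide)

theorem K_lt {k : M} (hk : k ∈ K) : (∀ ζ < 64, ac (cd k.g) ζ < 64) ∧ ∀ u < 16, ap (cd k.g) u < 16 :=
  P_lt (pat_mono (by decide) (mem_K.1 hk).2)

theorem col_four {g : L5} (hg : g ∈ pat kP) : ∃ u < 16, ap (cd g) 16 = u + 16 := by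
  have h := ap_lt (cd g) 16
  by_cases c : ap (cd g) 16 < 16
  · have := (P_lt (inv_mem hg)).2 _ c
    rw [ap_cd_inv _ (by norm_num)] at this
    omega
  · exact ⟨ap (cd g) 16 - 16, by omega, by omega⟩

theorem land_kK {g : L5} (hg : g ∈ pat kP) : g ∈ pat kK ↔ ap (cd g) 16 = 16 := by
  obtain ⟨u, hu, e⟩ := col_four hg
  have e' : col (cd g) 4 = u + 16 := (ap_pow (k := 4) _ (by norm_num)).symm.trans e
  have b : ∀ i < 5, (cd g).testBit (20 + i) = (u + 16).testBit i := fun i hi => by rw [← e', testBit_col _ _ _ hi]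
  rw [mem_pat (by decide +kernel), land_eq_zero, e]
  refine ⟨fun h => (by decide +kernel : ∀ u < 16, (∀ i < 4, (u + 16).testBit i = false) → u + 16 = 16) u hu fun i hi =>
    (b i (by omega)).symm.trans (h _ (by revert i; decide)), fun h n hn => ?_⟩
  have hn' : n < 25 := by
    by_contra c
    rw [Nat.testBit_lt_two_pow (lt_of_lt_of_le (by norm_num) (Nat.pow_le_pow_right two_pos (not_lt.1 c) : 2 ^ 25 ≤ _))] at hn
    exact absurd hn (by decide)
  rcases (by decide : ∀ n < 25, kK.testBit n = true → kP.testBit n = true ∨ ∃ i < 4, n = 20 + i) n hn' hn with c | ⟨i, hi, rfl⟩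
  · exact land_eq_zero.1 ((mem_pat (by decide +kernel)).1 hg) n c
  · rw [b i (by omega), h]; revert i; decide

theorem eq_of_ap {g h : L5} (e : ∀ j < 5, ap (cd g) (2 ^ j) = ap (cd h) (2 ^ j)) : g = h :=
  cd_inj (eq_of_col (cd_lt _) (cd_lt _) fun j hj => by rw [← ap_pow _ hj, e j hj, ap_pow _ hj])

theorem ap_tu : ∀ u < 16, (∀ v < 16, ap (cd (tu u)) v = v) ∧ ap (cd (tu u)) 16 = u ^^^ 16 ∧
    ap (cd (tu u)) (u + 16) = 16 := fun u hu => by
  rw [cd_tu hu]; revert u; decide +kernel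

theorem conj_tu {g : L5} (hg : g ∈ pat kK) {u : ℕ} (hu : u < 16) : g * tu u = tu (ap (cd g) u) * g := by
  have hP : g ∈ pat kP := pat_mono (by decide) hg
  have h := (P_lt hP).2
  have h4 := (land_kK hP).1 hg
  refine eq_of_ap fun j hj => ?_
  have hj' : 2 ^ j < 32 := Nat.pow_lt_pow_right (m := j) (n := 5) one_lt_two hj
  rw [ap_mul _ _ hj', ap_mul _ _ hj']
  rcases Nat.lt_succ_iff_lt_or_eq.1 hj with c | rfl
  · have c' : 2 ^ j < 16 := Nat.pow_lt_pow_right (m := j) (n := 4) one_lt_two c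
    rw [(ap_tu u hu).1 _ c', (ap_tu _ (h u hu)).1 _ (h _ c')]
  · rw [show 2 ^ 4 = 16 from rfl, (ap_tu u hu).2.1, ap_xor, h4, (ap_tu _ (h u hu)).2.1]

theorem wg_16 : ∀ w < 16, wg w 16 = 64 * w := by decide +kernel

theorem conj_rr {k : M} (hk : k ∈ K) {ζ w u : ℕ} (hζ : ζ < 64) (hw : w < 16) (hu : u < 16) :
    k * rr ζ w u * k⁻¹ = rr (ac (cd k.g) ζ) (ap (cd k.g) w) (ap (cd k.g) u) := by
  obtain ⟨h1, h2⟩ := K_lt hk
  obtain ⟨a0, hg⟩ := mem_K.1 hk
  rw [mul_inv_eq_iff_eq_mul]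
  refine M.ext ?_ (by rw [mul_g, mul_g, rr_g, rr_g, conj_tu hg hu])
  rw [mul_a, mul_a, a0, ac_zero, rr_a hζ hw, rr_a (h1 _ hζ) (h2 _ hw), add_eq_xor _ hζ _ hw, add_eq_xor _ (h1 _ hζ) _ (h2 _ hw),
    ac_xor, ← wg_16 _ hw, ac_wg _ _ (by omega) _ (by norm_num), (land_kK (pat_mono (by decide) hg)).1 hg, wg_16 _ (h2 _ hw),
    Nat.zero_xor, Nat.xor_zero]

theorem exists_R_K {x : M} (hx : x ∈ P) : ∃ y ∈ R, ∃ k ∈ K, x = y * k := by
  have hg := mem_P.1 hx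
  obtain ⟨u, hu, e⟩ := col_four hg
  have ht : tu u ∈ pat kE := mem_EU.2 ⟨u, hu, rfl⟩
  have t2 : tu u * tu u = 1 := by rw [tu_mul hu hu, Nat.xor_self, tu_zero]
  refine ⟨R20.e x.a * ι (tu u), mem_R'.2 (by rwa [mul_g, e_g, ι_g, one_mul]), ι (tu u * x.g), mem_K.2 ⟨rfl,
    (land_kK (mul_mem (pat_mono (by decide) ht) hg)).2 (by rw [ap_mul _ _ (by norm_num), e, (ap_tu u hu).2.2])⟩, ?_⟩
  rw [mul_assoc, ← map_mul, ← mul_assoc, t2, one_mul, e_mul_ι]

theorem normal_A : A.Normal := ⟨fun n hn g => mem_A.2 (by rw [mul_g, mul_g, mem_A.1 hn, inv_g, mul_one, mul_inv_cancel])⟩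

/-- The vector parts `(w, u)` in `Ai i`. -/
def wu (i : Fin 3) (v : ℕ) : ℕ × ℕ := ![(v, 0), (0, v), (v, v)] i

theorem mem_Ai {i : Fin 3} {x : M} : x ∈ Ai i ↔ ∃ ζ < 64, ∃ v < 16, x = rr ζ (wu i v).1 (wu i v).2 := by
  fin_cases i
  exacts [mem_A'', mem_A1, mem_A2]

theorem wu_lt (i : Fin 3) {v : ℕ} (hv : v < 16) : (wu i v).1 < 16 ∧ (wu i v).2 < 16 := by
  fin_cases i <;> simp [wu, hv]

theorem rr_zero (ζ : ℕ) : rr ζ 0 0 = e ζ := by rw [rr, tu_zero, map_one, mul_one]; rfl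

theorem Ai_sq (i : Fin 3) : ∀ x ∈ Ai i, x * x = 1 := fun x hx => by
  obtain ⟨ζ, hζ, v, hv, rfl⟩ := mem_Ai.1 hx
  obtain ⟨h1, h2⟩ := wu_lt i hv
  rw [rr_mul hζ h1 h2 hζ h1 h2, (by decide +kernel : ∀ i, ∀ v < 16, wg (wu i v).1 (wu i v).2 = 0) i v hv]
  simp only [Nat.xor_self, rr_zero, e_zero]

theorem Z_le_Ai (i : Fin 3) : Z ≤ Ai i := fun x hx => by
  obtain ⟨a, ha, rfl⟩ := mem_Z.1 hx
  exact mem_Ai.2 ⟨a, ha, 0, by norm_num, by fin_cases i <;> exact (rr_zero a).symm⟩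

theorem Ai_le_R (i : Fin 3) : Ai i ≤ R := fun x hx => by
  obtain ⟨ζ, hζ, v, hv, rfl⟩ := mem_Ai.1 hx
  exact mem_R.2 ⟨ζ, hζ, _, (wu_lt i hv).1, _, (wu_lt i hv).2, rfl⟩

theorem Ai_inf {i j : Fin 3} (h : i ≠ j) : Ai i ⊓ Ai j = Z := by
  refine le_antisymm (fun x hx => ?_) (le_inf (Z_le_Ai i) (Z_le_Ai j))
  obtain ⟨ζ, hζ, v, hv, rfl⟩ := mem_Ai.1 hx.1
  obtain ⟨ζ', hζ', v', hv', e⟩ := mem_Ai.1 hx.2
  have := (rr_inj hζ (wu_lt i hv).1 (wu_lt i hv).2 hζ' (wu_lt j hv').1 (wu_lt j hv').2 e).2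
  rw [(by decide +kernel : ∀ i j, ∀ v < 16, ∀ v' < 16, i ≠ j → (wu i v).1 = (wu j v').1 ∧ (wu i v).2 = (wu j v').2 →
    wu i v = (0, 0)) i j v hv v' hv' h this, rr_zero]
  exact mem_Z.2 ⟨ζ, hζ, rfl⟩

theorem Ai_sup {i j : Fin 3} (h : i ≠ j) : Ai i ⊔ Ai j = R := by
  refine le_antisymm (sup_le (Ai_le_R i) (Ai_le_R j)) fun x hx => ?_
  obtain ⟨ζ, hζ, w, hw, u, hu, rfl⟩ := mem_R.1 hx
  obtain ⟨v, hv, v', hv', e1, e2⟩ : ∃ v < 16, ∃ v' < 16, (wu i v).1 ^^^ (wu j v').1 = w ∧ (wu i v).2 ^^^ (wu j v').2 = u := by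
    have x := Nat.xor_lt_two_pow (n := 4) hw hu
    fin_cases i <;> fin_cases j <;> first | exact absurd rfl h | skip
    exacts [⟨w, hw, u, hu, by simp [wu]⟩, ⟨_, x, u, hu, by simp [wu]⟩, ⟨u, hu, w, hw, by simp [wu]⟩,
      ⟨_, x, w, hw, by simp [wu, Nat.xor_comm w]⟩, ⟨u, hu, _, x, by simp [wu, Nat.xor_comm w]⟩, ⟨w, hw, _, x, by simp [wu]⟩]
  have l := Nat.xor_lt_two_pow (n := 6) hζ (wg_lt64 _ (wu_lt j hv').1 _ (wu_lt i hv).2)
  have := mul_mem (mem_sup_left (mem_Ai.2 ⟨_, l, v, hv, rfl⟩) : _ ∈ Ai i ⊔ Ai j)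
    (mem_sup_right (mem_Ai.2 ⟨0, by norm_num, v', hv', rfl⟩))
  rwa [rr_mul l (wu_lt i hv).1 (wu_lt i hv).2 (by norm_num) (wu_lt j hv').1 (wu_lt j hv').2, e1, e2, Nat.xor_zero,
    Nat.xor_assoc, Nat.xor_self, Nat.xor_zero] at this

theorem R_le_T : R ≤ T := sb_mono rfl (by decide)

theorem T_le_P : T ≤ P := sb_mono rfl (by decide)

theorem K_le_P : K ≤ P := sb_mono (by decide) (by decide)

theorem T_le_Y : T ≤ Y := sb_mono rfl (by decide)

theorem Q_le_T0 : Q ≤ T0 := sb_mono (by decide) (by decide)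

theorem T0_le_T : T0 ≤ T := sb_mono rfl (by decide)

theorem z_mem_Z : z ∈ Z := mem_Z.2 ⟨1, by norm_num, rfl⟩

theorem z_mem_Q : z ∈ Q := mem_Q.2 ⟨by decide, by rw [z, e_g, cd_one]; decide⟩

theorem R_le_cZ : R ≤ centralizer (Z : Set M) := fun x hx y hy => by
  obtain ⟨ζ, hζ, w, hw, u, hu, rfl⟩ := mem_R.1 hx
  obtain ⟨a, ha, rfl⟩ := mem_Z.1 hy
  rw [← rr_zero, rr_mul ha (by norm_num) (by norm_num) hζ hw hu, rr_mul hζ hw hu ha (by norm_num) (by norm_num),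
    wg_zero (by omega), zero_wg (by omega), Nat.xor_comm a, Nat.xor_comm w, Nat.xor_comm u]

theorem comm_R {x y : M} (hx : x ∈ R) (hy : y ∈ R) : ∃ c ∈ Z, x * y = c * (y * x) := by
  obtain ⟨ζ, hζ, w, hw, u, hu, rfl⟩ := mem_R.1 hx
  obtain ⟨ζ', hζ', w', hw', u', hu', rfl⟩ := mem_R.1 hy
  have l := Nat.xor_lt_two_pow (n := 6) (wg_lt64 _ hw' _ hu) (wg_lt64 _ hw _ hu')
  have h1 := Nat.xor_lt_two_pow (n := 4) hw' hw
  refine ⟨_, mem_Z.2 ⟨_, l, rfl⟩, ?_⟩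
  rw [← rr_zero, rr_mul hζ hw hu hζ' hw' hu', rr_mul hζ' hw' hu' hζ hw hu, rr_mul l (by norm_num) (by norm_num)
    (Nat.xor_lt_two_pow (n := 6) (Nat.xor_lt_two_pow (n := 6) hζ' hζ) (wg_lt64 _ hw _ hu')) h1
    (Nat.xor_lt_two_pow (n := 4) hu' hu), wg_zero (by omega)]
  congr 1
  · simp [Nat.xor_assoc, Nat.xor_comm, Nat.xor_left_comm]
  · simp [Nat.xor_comm]
  · simp [Nat.xor_comm]

theorem P_le_nAi (i : Fin 3) : P ≤ normalizer (Ai i : Set M) := fun x hx => by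
  obtain ⟨y, hy, k, hk, rfl⟩ := exists_R_K hx
  refine mul_mem (mem_normalizer_of_conj_mem fun a ha => ?_) (mem_normalizer_of_conj_mem fun a ha => ?_)
  · obtain ⟨c, hc, e⟩ := comm_R hy (Ai_le_R i ha)
    rw [e, mul_assoc, mul_inv_cancel_right]
    exact mul_mem (Z_le_Ai i hc) ha
  · obtain ⟨ζ, hζ, v, hv, rfl⟩ := mem_Ai.1 ha
    rw [conj_rr hk hζ (wu_lt i hv).1 (wu_lt i hv).2]
    exact mem_Ai.2 ⟨_, (K_lt hk).1 _ hζ, _, (K_lt hk).2 _ hv, by fin_cases i <;> simp [wu, ap_zero]⟩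

theorem P_le_nR : P ≤ normalizer (R : Set M) := fun x hx => cj_eq_iff.1 (by
  rw [← Ai_sup (i := 0) (j := 1) (by decide), cj_sup, cj_eq_iff.2 (P_le_nAi 0 hx), cj_eq_iff.2 (P_le_nAi 1 hx)])

theorem P_le_nZ : P ≤ normalizer (Z : Set M) := fun x hx => cj_eq_iff.1 (by
  rw [← Ai_inf (i := 0) (j := 1) (by decide), cj_inf, cj_eq_iff.2 (P_le_nAi 0 hx), cj_eq_iff.2 (P_le_nAi 1 hx)])

theorem cent_A : centralizer (A : Set M) ≤ A := fun x hx => mem_A.2 (eq_one_of_ac fun a ha =>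
  e_inj (ac_lt _ _) ha (by rw [← conj_e x ha, ← hx _ (e_mem_A a), mul_inv_cancel_right]))

end Cfsg.Agent.R20
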