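import Mathlib
import Cfsg.Agent.R20.Bas

/-! Generation and orders of the pattern groups. -/

set_option autoImplicit false
set_option synthInstance.maxSize 100000
set_option synthInstance.maxHeartbeats 400000

namespace Cfsg.Agent.R20

open Cfsg.Agent.Spor Cfsg.Agent.Inv.Fz Subgroup MulAction

namespace Gen

/-- The action on the codes of vectors. -/
@[reducible] noncomputable def actV : MulAction L5 (Fin 32) where
  smul g v := ⟨ap (cd g) v, ap_lt _ _⟩
  one_smul v := Fin.ext (by show ap (cd 1) v = v; rw [cd_one, ap_idm _ v.2])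
  mul_smul g h v := Fin.ext (ap_mul g h v.2)

attribute [local instance] actV

theorem smul_val (g : L5) (v : Fin 32) : (g • v).1 = ap (cd g) v := rfl

/-- The basis vectors. -/
def vec (j : ℕ) : Fin 32 := ⟨2 ^ j % 32, Nat.mod_lt _ (by norm_num)⟩

theorem vec_val : ∀ j < 5, (vec j).1 = 2 ^ j := by decide

/-- The matrices of the pattern whose first `j` columns are those of `1`. -/
noncomputable def Gj (k : ℕ) : ℕ → Subgroup L5
  | 0 => pat k
  | j + 1 => Gj k j ⊓ stabilizer L5 (vec j)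

/-- The possible columns. -/
noncomputable def Oj (k j : ℕ) : Finset ℕ := (Finset.range 32).filter fun v => (Nat.beq (v &&& col k j) 0 &&
  !allLt 5 fun l => blt l j || k.testBit (5 * l + j) || !v.testBit l) = true

theorem mem_Oj {k j v : ℕ} : v ∈ Oj k j ↔ v < 32 ∧ v &&& col k j = 0 ∧
    ∃ l < 5, j ≤ l ∧ k.testBit (5 * l + j) = false ∧ v.testBit l = true := by
  simp only [Oj, Finset.mem_filter, Finset.mem_range, Bool.and_eq_true, nbeq_iff, Bool.not_eq_true', ← Bool.not_eq_true,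
    allLt_iff, Bool.or_eq_true, blt_iff]
  push Not
  simp only [and_assoc, ne_eq]

theorem mem_Gj {k j : ℕ} (hj : j ≤ 5) {g : L5} : g ∈ Gj k j ↔ g ∈ pat k ∧ ∀ i < j, col (cd g) i = 2 ^ i := by
  induction j with
  | zero => simp [Gj]
  | succ j ih =>
    rw [Gj, mem_inf, ih (by omega), mem_stabilizer_iff, Fin.ext_iff, smul_val, vec_val j hj, ap_pow _ hj,
      Nat.forall_lt_succ_right, and_assoc]

theorem Gj_five (k : ℕ) : Gj k 5 = ⊥ := eq_bot_iff.2 fun g hg => cd_inj (eq_of_col (cd_lt _) (cd_lt _) fun j hj => by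
  rw [((mem_Gj le_rfl).1 hg).2 j hj, cd_one]
  revert j; decide)

theorem testBit_lin (m j v n : ℕ) :
    (lin 5 m v n).testBit j = true → ∃ l < n, v.testBit l = true ∧ (col m l).testBit j = true := by
  induction n with
  | zero => simp [lin]
  | succ n ih =>
    intro h
    rw [lin, Nat.testBit_xor] at h
    by_cases h1 : (lin 5 m v n).testBit j = true
    · obtain ⟨l, hl, h2⟩ := ih h1
      exact ⟨l, by omega, h2⟩
    · rw [Bool.not_eq_true] at h1
      rw [h1, Bool.false_xor, bt_eq] at h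
      by_cases h2 : v.testBit n = true
      · rw [if_pos h2, one_mul] at h
        exact ⟨n, n.lt_succ_self, h2, h⟩
      · rw [if_neg h2, zero_mul, Nat.zero_testBit] at h
        exact absurd h (by simp)

theorem testBit_ap (m j v : ℕ) (h : (ap m v).testBit j = true) :
    ∃ l < 5, v.testBit l = true ∧ (col m l).testBit j = true :=
  testBit_lin m j v 5 (ap_eq m v ▸ h)

theorem col_and (a b j : ℕ) : col (a &&& b) j = col a j &&& col b j := by
  change (a &&& b) >>> (5 * j) &&& 31 = (a >>> (5 * j) &&& 31) &&& (b >>> (5 * j) &&& 31)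
  rw [Nat.shiftRight_and_distrib, Nat.and_assoc, Nat.and_assoc, Nat.and_left_comm 31, Nat.and_self]

theorem false_of_and {a b i : ℕ} (h : a &&& b = 0) (ha : a.testBit i = true) : b.testBit i = false := by
  have := congrArg (Nat.testBit · i) h
  simpa [ha] using this

theorem col_mem {k j : ℕ} (h : patOK k = true) (hj : j < 5) {g : L5} (hg : g ∈ Gj k j) : col (cd g) j ∈ Oj k j := by
  obtain ⟨h1, h2⟩ := (mem_Gj hj.le).1 (inv_mem hg)
  refine mem_Oj.2 ⟨col_lt _ _, by
    rw [← col_and, (mem_pat h).1 ((mem_Gj hj.le).1 hg).1]; simp [col_eq], ?_⟩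
  obtain ⟨l, hl, h3, h4⟩ := testBit_ap (cd g⁻¹) j (col (cd g) j) (by
    rw [← ap_pow _ hj, ap_cd_inv _ (Nat.pow_lt_pow_right (m := j) (n := 5) one_lt_two hj), Nat.testBit_two_pow_self])
  refine ⟨l, hl, not_lt.1 fun e => ?_, false_of_and ((mem_pat h).1 h1) (testBit_col _ _ _ hj ▸ h4), h3⟩
  rw [h2 l e, Nat.testBit_two_pow_of_ne e.ne] at h4
  exact absurd h4 (by simp)

theorem step : ∀ j < 5, ∀ v < 32, v.testBit j = true → v = 2 ^ j ∨ ∃ i < 5, i ≠ j ∧ v.testBit i = true ∧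
    ap (idm + 2 ^ (5 * j + i)) v < v ∧ (ap (idm + 2 ^ (5 * j + i)) v).testBit j = true ∧
    ap (idm + 2 ^ (5 * j + i)) v &&& v = ap (idm + 2 ^ (5 * j + i)) v := by decide +kernel

theorem first : ∀ j < 5, ∀ l < 5, ∀ v < 32, v.testBit l = true → v.testBit j = false →
    l ≠ j ∧ ap (idm + 2 ^ (5 * l + j)) v = v ^^^ 2 ^ j ∧ (v ^^^ 2 ^ j).testBit j = true ∧ v ^^^ 2 ^ j < 32 := by
  decide +kernel

theorem colE : ∀ a < 5, ∀ b < 5, ∀ i < b, col (idm + 2 ^ (5 * b + a)) i = 2 ^ i := by decide +kernel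

theorem clear {S : Subgroup L5} {j c : ℕ} (hj : j < 5) (hS : ∀ i < 5, i ≠ j → c.testBit i = false → E i j ∈ S) (v : ℕ) :
    v < 32 → v &&& c = 0 → v.testBit j = true → ∃ h ∈ S, ap (cd h) v = 2 ^ j := by
  induction v using Nat.strong_induction_on with
  | _ v ih =>
    intro h1 h2 h3
    rcases step j hj v h1 h3 with e | ⟨i, hi, n, h4, h5, h6, h7⟩
    · exact ⟨1, one_mem _, by rw [cd_one, ap_idm _ h1, e]⟩
    · obtain ⟨h, hh, e⟩ := ih _ h5 (ap_lt _ _) (by rw [← h7, Nat.and_assoc, h2, Nat.and_zero]) h6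
      exact ⟨h * E i j, mul_mem hh (hS i hi n (false_of_and h2 h4)), by rw [ap_mul _ _ h1, cd_E hi hj n, e]⟩

theorem E_mem {k : ℕ} (h : patOK k = true) {a b : ℕ} (ha : a < 5) (hb : b < 5) (n : a ≠ b)
    (hk : k.testBit (5 * b + a) = false) : E a b ∈ pat k := by
  have h1 : ∀ i < 5, k.testBit (6 * i) = false := by
    simp only [patOK, Bool.and_eq_true, allLt_iff, Bool.not_eq_true'] at h
    exact fun i hi => (h.2 i hi).1
  rw [mem_pat h, cd_E ha hb n]
  refine Nat.eq_of_testBit_eq fun t => ?_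
  have h2 : ∀ a < 5, ∀ b < 5, a ≠ b → idm + 2 ^ (5 * b + a) = 2 ^ 0 ||| 2 ^ 6 ||| 2 ^ 12 ||| 2 ^ 18 ||| 2 ^ 24 ||| 2 ^ (5 * b + a) := by
    decide +kernel
  rw [h2 a ha b hb n]
  simp only [Nat.testBit_and, Nat.testBit_or, Nat.testBit_two_pow, Nat.zero_testBit, Bool.and_eq_false_imp,
    Bool.or_eq_true, decide_eq_true_eq]
  rintro (((((rfl | rfl) | rfl) | rfl) | rfl) | rfl)
  exacts [h1 0 (by omega), h1 1 (by omega), h1 2 (by omega), h1 3 (by omega), h1 4 (by omega), hk]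

theorem reduce {k j : ℕ} (h : patOK k = true) (hj : j < 5) {H : Subgroup L5}
    (hH : ∀ i < 5, ∀ j < 5, i ≠ j → k.testBit (5 * j + i) = false → E i j ∈ H) {v : ℕ} (hv : v ∈ Oj k j) :
    ∃ g ∈ H ⊓ Gj k j, ap (cd g) v = 2 ^ j := by
  have hE : ∀ a < 5, ∀ b < 5, a ≠ b → j ≤ b → k.testBit (5 * b + a) = false → E a b ∈ H ⊓ Gj k j :=
    fun a ha b hb n le hk => ⟨hH a ha b hb n hk, (mem_Gj hj.le).2 ⟨E_mem h ha hb n hk, fun i hi => by
      rw [cd_E ha hb n, colE a ha b hb i (by omega)]⟩⟩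
  have hc := clear (S := H ⊓ Gj k j) (c := col k j) hj fun i hi n hk =>
    hE i hi j hj n le_rfl (testBit_col _ _ _ hi ▸ hk)
  obtain ⟨h1, h2, l, hl, h3, h4, h5⟩ := mem_Oj.1 hv
  by_cases h6 : v.testBit j = true
  · exact hc v h1 h2 h6
  obtain ⟨n, e, h7, h8⟩ := first j hj l hl v h1 h5 (by simpa using h6)
  have h9 : (col k j).testBit j = false := by
    simp only [patOK, Bool.and_eq_true, allLt_iff, Bool.not_eq_true'] at h
    rw [testBit_col _ _ _ hj, show 5 * j + j = 6 * j by ring]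
    exact (h.2 j hj).1
  obtain ⟨g, hg, e'⟩ := hc _ h8 (by rw [Nat.and_xor_distrib_right, h2, Nat.two_pow_and, h9]; simp) h7
  exact ⟨g * E j l, mul_mem hg (hE j hj l hl n.symm h3 h4), by rw [ap_mul _ _ h1, cd_E hj hl n.symm, e, e']⟩

theorem card_step {k j : ℕ} (h : patOK k = true) (hj : j < 5) :
    Nat.card (Gj k j) = (Oj k j).card * Nat.card (Gj k (j + 1)) := by
  have h1 : Fin.val '' orbit (Gj k j) (vec j) = Oj k j := by
    ext v
    refine ⟨?_, fun hv => ?_⟩
    · rintro ⟨_, ⟨g, rfl⟩, rfl⟩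
      show ap (cd g.1) (vec j).1 ∈ Oj k j
      rw [vec_val j hj, ap_pow _ hj]
      exact col_mem h hj g.2
    · obtain ⟨g, hg, e⟩ := reduce h hj (H := ⊤) (fun _ _ _ _ _ _ => trivial) hv
      refine ⟨_, ⟨⟨g⁻¹, inv_mem hg.2⟩, rfl⟩, ?_⟩
      show ap (cd g⁻¹) (vec j).1 = v
      rw [vec_val j hj, ← e, ap_cd_inv _ (mem_Oj.1 hv).1]
  rw [← Set.ncard_coe_finset, ← h1, Set.ncard_image_of_injective _ Fin.val_injective, ← index_stabilizer,
    ← (stabilizer (Gj k j) (vec j)).index_mul_card]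
  congr 1
  have : stabilizer (Gj k j) (vec j) = (Gj k (j + 1)).subgroupOf (Gj k j) := by
    ext x
    exact ⟨fun hx => ⟨x.2, hx⟩, fun hx => hx.2⟩
  rw [this]
  exact Nat.card_congr (subgroupOfEquivOfLe inf_le_left).toEquiv

/-- Transposition at the second diagonal. -/
def tr (g : L5) : L5 := ⟨g.1.transpose.submatrix Fin.revPerm Fin.revPerm, by
  rw [Matrix.det_submatrix_equiv_self, Matrix.det_transpose, g.2]⟩

theorem tr_mul (g h : L5) : tr (g * h) = tr h * tr g := Subtype.ext (by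
  show (g.1 * h.1).transpose.submatrix _ _ = h.1.transpose.submatrix _ _ * g.1.transpose.submatrix _ _
  rw [Matrix.submatrix_mul_equiv, Matrix.transpose_mul])

theorem tr_tr (g : L5) : tr (tr g) = g := Subtype.ext (by
  ext i j
  simp [tr])

theorem tr_inv (g : L5) : tr g⁻¹ = (tr g)⁻¹ := by
  have h : tr 1 = 1 := mul_left_cancel (a := tr 1) (by rw [← tr_mul, mul_one, mul_one])
  exact eq_inv_of_mul_eq_one_left (by rw [← tr_mul, mul_inv_cancel, h])

end Gen

open Gen

theorem pat_le {k : ℕ} (h : patOK k = true) {H : Subgroup L5}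
    (hH : ∀ i < 5, ∀ j < 5, i ≠ j → k.testBit (5 * j + i) = false → E i j ∈ H) : pat k ≤ H := by
  have key : ∀ j ≤ 5, ∀ g ∈ pat k, ∃ x ∈ H, x * g ∈ Gj k j := fun j hj g hg => by
    induction j with
    | zero => exact ⟨1, one_mem _, by rwa [one_mul]⟩
    | succ j ih =>
      obtain ⟨x, hx, h1⟩ := ih (by omega)
      obtain ⟨y, hy, e⟩ := reduce h hj hH (col_mem h hj h1)
      refine ⟨y * x, mul_mem hy.1 hx, by rw [mul_assoc]; exact mul_mem hy.2 h1, Fin.ext ?_⟩
      show ap (cd (y * x * g)) (vec j).1 = (vec j).1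
      rw [mul_assoc, ap_mul _ _ (vec j).2, vec_val j hj, ap_pow _ hj, e]
  intro g hg
  obtain ⟨x, hx, h1⟩ := key 5 le_rfl g hg
  rw [Gj_five, mem_bot] at h1
  exact (mul_mem_cancel_left hx).1 (h1 ▸ one_mem _)

theorem sb_le {j k : ℕ} (h : sbOK j k = true) {H : Subgroup M} (h1 : ∀ b < 10, j.testBit b = false → e (2 ^ b) ∈ H)
    (h2 : ∀ i < 5, ∀ l < 5, i ≠ l → k.testBit (5 * l + i) = false → ι (E i l) ∈ H) : sb j k ≤ H := fun x hx => by
  have hk : patOK k = true := by
    simp only [sbOK, Bool.and_eq_true] at h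
    exact h.1.1
  obtain ⟨h3, h4⟩ := (mem_sb h).1 hx
  have lt : ∀ a < 2 ^ 10, a ^^^ a &&& j < 1024 := fun a ha =>
    Nat.xor_lt_two_pow (n := 10) ha (Nat.and_le_left.trans_lt ha)
  have key := xor_ind (n := 10) (P := fun a => e (a ^^^ a &&& j) ∈ H) (by simp [e_zero]) (fun b hb => by
    cases hj : j.testBit b
    · simpa [Nat.two_pow_and, hj] using h1 b hb hj
    · simp [Nat.two_pow_and, hj, e_zero]) (fun a ha b hb h5 h6 => by
      have := mul_mem h5 h6
      rw [← e_xor (lt a ha) (lt b hb)] at this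
      simpa only [Nat.and_xor_distrib_right, Nat.xor_assoc, Nat.xor_left_comm] using this) x.a x.lt
  rw [← e_mul_ι x]
  exact mul_mem (by simpa [h3] using key) (pat_le hk (H := H.comap ι) h2 ((mem_pat hk).2 h4))

theorem pat_zero : pat 0 = ⊤ := eq_top_iff.2 fun _ _ => subset_closure (Nat.and_zero _)

theorem top_le_of_E {H : Subgroup L5} (hH : ∀ i < 4, E i (i + 1) ∈ H ∧ E (i + 1) i ∈ H) : H = ⊤ := by
  have r : ∀ i < 5, ∀ j < 5, ∀ k < 5, i ≠ j → j ≠ k → i ≠ k → E i j ∈ H → E j k ∈ H → E i k ∈ H :=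
    fun i hi j hj k hk h1 h2 h3 a b => E_rel i hi j hj k hk h1 h2 h3 ▸ mul_mem (mul_mem (mul_mem a b) a) b
  obtain ⟨a01, a10⟩ := hH 0 (by omega)
  obtain ⟨a12, a21⟩ := hH 1 (by omega)
  obtain ⟨a23, a32⟩ := hH 2 (by omega)
  obtain ⟨a34, a43⟩ := hH 3 (by omega)
  have s : ∀ {i j k : Fin 5}, [i, j, k].Nodup → E i j ∈ H → E j k ∈ H → E i k ∈ H := fun {i j k} n =>
    r i i.2 j j.2 k k.2 (fun e => by simp [Fin.ext e] at n) (fun e => by simp [Fin.ext e] at n)
      fun e => by simp [Fin.ext e] at n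
  have a02 := s (i := 0) (j := 1) (k := 2) (by decide) a01 a12
  have a13 := s (i := 1) (j := 2) (k := 3) (by decide) a12 a23
  have a24 := s (i := 2) (j := 3) (k := 4) (by decide) a23 a34
  have a03 := s (i := 0) (j := 2) (k := 3) (by decide) a02 a23
  have a14 := s (i := 1) (j := 3) (k := 4) (by decide) a13 a34
  have a04 := s (i := 0) (j := 3) (k := 4) (by decide) a03 a34
  have a20 := s (i := 2) (j := 1) (k := 0) (by decide) a21 a10
  have a31 := s (i := 3) (j := 2) (k := 1) (by decide) a32 a21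
  have a42 := s (i := 4) (j := 3) (k := 2) (by decide) a43 a32
  have a30 := s (i := 3) (j := 2) (k := 0) (by decide) a32 a20
  have a41 := s (i := 4) (j := 3) (k := 1) (by decide) a43 a31
  have a40 := s (i := 4) (j := 3) (k := 0) (by decide) a43 a30
  refine eq_top_iff.2 (pat_zero ▸ pat_le (by decide +kernel) fun i hi j hj n _ => ?_)
  interval_cases i <;> interval_cases j <;> first | assumption | exact absurd rfl n

theorem card_pat {k : ℕ} (h : patOK k = true) : Nat.card (pat k) = cp k := by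
  have key : ∀ j ≤ 5, Nat.card (pat k) = (∏ i ∈ Finset.range j, (Oj k i).card) * Nat.card (Gj k j) := fun j hj => by
    induction j with
    | zero => simp [Gj]
    | succ j ih => rw [ih (by omega), card_step h hj, Finset.prod_range_succ, mul_assoc]
  rw [key 5 le_rfl, Gj_five, card_bot, mul_one]
  rfl

theorem card_sb {j k : ℕ} (h : sbOK j k = true) :
    Nat.card (sb j k) = ((Finset.range 1024).filter fun a => a &&& j = 0).card * cp k := by
  have hk : patOK k = true := by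
    simp only [sbOK, Bool.and_eq_true] at h
    exact h.1.1
  rw [← card_pat hk, ← Nat.card_eq_finsetCard, ← Nat.card_prod]
  refine Nat.card_eq_of_bijective (fun x => (⟨x.1.a, Finset.mem_filter.2 ⟨Finset.mem_range.2 x.1.lt, ((mem_sb h).1 x.2).1⟩⟩,
    ⟨x.1.g, (mem_pat hk).2 ((mem_sb h).1 x.2).2⟩)) ⟨fun x y e => Subtype.ext (M.ext (congrArg (·.1.1) e)
      (congrArg (·.2.1) e)), fun ⟨a, g⟩ => ?_⟩
  obtain ⟨h1, h2⟩ := Finset.mem_filter.1 a.2
  exact ⟨⟨⟨a.1, Finset.mem_range.1 h1, g.1⟩, (mem_sb h).2 ⟨h2, (mem_pat hk).1 g.2⟩⟩, rfl⟩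

theorem card_L5 : Nat.card L5 = 9999360 := by
  rw [← card_top, ← pat_zero, card_pat (by decide +kernel)]; decide +kernel

theorem card_M : Nat.card M = 1024 * 9999360 := by
  rw [← card_top, ← show sb 0 0 = ⊤ from eq_top_iff.2 fun _ _ => subset_closure ⟨Nat.and_zero _, Nat.and_zero _⟩,
    card_sb (by decide +kernel)]
  decide +kernel

theorem card_Ai (i : Fin 3) : Nat.card (Ai i) = 1024 := by
  fin_cases i
  · exact (card_sb (j := 0) (k := kI) (by decide +kernel)).trans (by decide +kernel)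
  · exact (card_sb (j := 960) (k := kE) (by decide +kernel)).trans (by decide +kernel)
  · refine (Nat.card_eq_of_bijective (fun p : Fin 64 × Fin 16 => (⟨rr p.1 p.2 p.2,
      mem_A2.2 ⟨_, p.1.2, _, p.2.2, rfl⟩⟩ : A2)) ⟨fun p q h => ?_, fun x => ?_⟩).symm.trans (by simp)
    · obtain ⟨h1, h2, -⟩ := rr_inj p.1.2 p.2.2 p.2.2 q.1.2 q.2.2 q.2.2 (congrArg Subtype.val h)
      exact Prod.ext (Fin.ext h1) (Fin.ext h2)
    · obtain ⟨ζ, h1, u, h2, h3⟩ := mem_A2.1 x.2
      exact ⟨(⟨ζ, h1⟩, ⟨u, h2⟩), Subtype.ext h3.symm⟩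

theorem card_Z : Nat.card Z = 64 := (card_sb (by decide +kernel)).trans (by decide +kernel)

theorem card_R : Nat.card R = 2 ^ 14 := (card_sb (by decide +kernel)).trans (by decide +kernel)

theorem card_T : Nat.card T = 2 ^ 20 := (card_sb (by decide +kernel)).trans (by decide +kernel)

theorem card_T0 : Nat.card T0 = 2 ^ 19 := (card_sb (by decide +kernel)).trans (by decide +kernel)

theorem card_Q : Nat.card Q = 2 ^ 13 := (card_sb (by decide +kernel)).trans (by decide +kernel)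

theorem card_P : Nat.card P = 2 ^ 20 * 315 := (card_sb (by decide +kernel)).trans (by decide +kernel)

theorem syl_T : IsSylIn 2 T ⊤ := by
  refine isSylIn_of_not_dvd le_top (IsPGroup.of_card card_T) ?_
  have h := card_mul_relIndex (le_top : T ≤ ⊤)
  rw [card_T, card_top, card_M] at h
  omega

theorem syl_UT : IsSylIn 2 (pat kT) ⊤ := by
  have h1 : Nat.card (pat kT) = 2 ^ 10 := (card_pat (by decide +kernel)).trans (by decide +kernel)
  refine isSylIn_of_not_dvd le_top (IsPGroup.of_card h1) ?_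
  have h := card_mul_relIndex (le_top : pat kT ≤ ⊤)
  rw [h1, card_top, card_L5] at h
  omega

theorem simple_L5 : IsSimpleGroup L5 := by
  have : Nontrivial L5 := Finite.one_lt_card_iff_nontrivial.1 (by rw [card_L5]; norm_num)
  refine ⟨fun H hH => (Cl.sl_normal_le_center_or_eq_top (Or.inl (by simp)) H).imp_left fun h => ?_⟩
  rwa [Cl.center_sl_eq_bot_of_card_two (by simp), le_bot_iff] at h

theorem exists_tau : ∃ τ : L5 ≃* L5, ∀ i < 5, ∀ j < 5, i ≠ j → τ (E i j) = E (4 - j) (4 - i) := by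
  refine ⟨⟨⟨fun g => tr g⁻¹, fun g => tr g⁻¹, fun g => by simp only [tr_inv, inv_inv, tr_tr],
    fun g => by simp only [tr_inv, inv_inv, tr_tr]⟩, fun g h => by simp only [mul_inv_rev, tr_mul]⟩,
    fun i hi j hj n => Subtype.ext ?_⟩
  show (E i j)⁻¹.1.transpose.submatrix Fin.revPerm Fin.revPerm = _
  rw [inv_eq_of_mul_eq_one_right (E_sq hi hj n), ← mat_cd, ← mat_cd, cd_E hi hj n, cd_E (by omega) (by omega) (by omega)]
  revert i j
  decide +kernel

end Cfsg.Agent.R20
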