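import Mathlib
import Cfsg.Agent.R20.Gen

set_option autoImplicit false

namespace Cfsg.Agent.R20

open Cfsg.Agent.Spor Cfsg.Agent.Inv.Fz Subgroup

namespace Aln

/-- The word in `x`, `y` given by the lowest `k` bits of `n`. -/
noncomputable def wm (x y : M) (n : ℕ) : ℕ → M
  | 0 => 1
  | k + 1 => cond (n.testBit k) x y * wm x y n k

/-- The same for codes. -/
noncomputable def wk (a b n k : ℕ) : ℕ :=
  Nat.rec (motive := fun _ => ℕ) (pr 0 idm) (fun i c => mu (cond (n.testBit i) a b) c) k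

/-- The word given by the bits of `n` below the leading one. -/
noncomputable def wd (a b n : ℕ) : ℕ := Spor.force a fun a => Spor.force b fun b => wk a b n (Nat.log2 n)

theorem c_wm (x y : M) (n k : ℕ) : (wm x y n k).c = wk x.c y.c n k := by
  induction k with
  | zero => exact c_one
  | succ k ih =>
    change (cond (n.testBit k) x y * wm x y n k).c = mu (cond (n.testBit k) x.c y.c) (wk x.c y.c n k)
    rw [c_mul, ih]
    cases n.testBit k <;> rfl

theorem c_wd (x y : M) (n : ℕ) : (wm x y n (Nat.log2 n)).c = wd x.c y.c n := by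
  simp only [wd, Spor.force_eq, c_wm]

theorem wm_mem {H : Subgroup M} {x y : M} (hx : x ∈ H) (hy : y ∈ H) (n k : ℕ) : wm x y n k ∈ H := by
  induction k with
  | zero => exact one_mem H
  | succ k ih =>
    refine mul_mem ?_ ih
    cases n.testBit k
    exacts [hy, hx]

theorem mem_of_wd {H : Subgroup M} {x y w : M} (hx : x ∈ H) (hy : y ∈ H) (n : ℕ) (h : wd x.c y.c n = w.c) : w ∈ H :=
  c_inj ((c_wd x y n).trans h) ▸ wm_mem hx hy n _

theorem c_rho : (ι rho).c = pr 0 16883842 := by rw [c_ι, cd_rho]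

theorem c_E {i j : ℕ} (hi : i < 5) (hj : j < 5) (h : i ≠ j) : (ι (E i j)).c = pr 0 (idm + 2 ^ (5 * j + i)) := by
  rw [c_ι, cd_E hi hj h]

theorem c_tau : (ι (E 0 1)).c = pr 0 17043553 := c_E (by norm_num) (by norm_num) (by norm_num)

theorem c_t : (ι (E 0 4)).c = pr 0 18092097 := c_E (by norm_num) (by norm_num) (by norm_num)

theorem rho_K : ι rho ∈ K := mem_K.2 ⟨rfl, (mem_pat (by decide +kernel)).2 (by rw [ι_g, cd_rho]; decide +kernel)⟩

theorem tau_K : ι (E 0 1) ∈ K := mem_K.2 ⟨rfl, (mem_pat (by decide +kernel)).2 (by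
  rw [ι_g, cd_E (by norm_num) (by norm_num) (by norm_num)]; decide +kernel)⟩

theorem t_R : ι (E 0 4) ∈ R := mem_R'.2 ((mem_pat (by decide +kernel)).2 (by
  rw [ι_g, cd_E (by norm_num) (by norm_num) (by norm_num)]; decide +kernel))

theorem R_le_P : R ≤ P := R_le_T.trans T_le_P

theorem e_R (a : ℕ) : e a ∈ R := mem_R'.2 (one_mem _)

theorem e_P (a : ℕ) : e a ∈ P := R_le_P (e_R a)

theorem R_le_rho {H : Subgroup M} (h0 : ∀ a < 1024, e a ∈ H) (h1 : ι rho ∈ H) (h2 : ι (E 0 4) ∈ H) : R ≤ H := by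
  refine sb_le (by decide +kernel) (fun b hb _ => h0 _ (Nat.pow_lt_pow_right (n := 10) one_lt_two hb)) fun i hi l hl h k => ?_
  refine mem_of_wd h1 h2 ([2, 114687, 122879, 126975].getD i 1) ?_
  rw [c_rho, c_t, c_E hi hl h]
  revert i l
  decide +kernel

section
variable {β : M → M} (hm : ∀ x ∈ P, ∀ y ∈ P, β (x * y) = β x * β y) (ha : ∀ a < 1024, β (e a) = e a)
include hm ha

theorem b_wm {x y : M} (hx : x ∈ P) (hy : y ∈ P) (n k : ℕ) : β (wm x y n k) = wm (β x) (β y) n k := by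
  induction k with
  | zero => exact ha 0 (by norm_num)
  | succ k ih =>
    change β (cond (n.testBit k) x y * wm x y n k) = cond (n.testBit k) (β x) (β y) * wm (β x) (β y) n k
    rw [← ih]
    cases n.testBit k
    exacts [hm _ hy _ (wm_mem hx hy n k), hm _ hx _ (wm_mem hx hy n k)]

theorem rel {x y : M} (hx : x ∈ P) (hy : y ∈ P) (n n' : ℕ) (h : wd x.c y.c n = wd x.c y.c n') :
    wd (β x).c (β y).c n = wd (β x).c (β y).c n' := by
  rw [← c_wd, ← c_wd, ← b_wm hm ha hx hy, ← b_wm hm ha hx hy, c_inj ((c_wd x y n).trans (h.trans (c_wd x y n').symm))]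

theorem b_g {x : M} (hx : x ∈ P) : (β x).g = x.g := by
  refine eq_of_ac fun a h => e_inj (ac_lt _ _) (ac_lt _ _) ?_
  rw [← conj_e _ h, mul_inv_eq_iff_eq_mul, ← ha a h, ← hm _ hx _ (e_P a), ← ha _ (ac_lt _ _), ← hm _ (e_P _) _ hx,
    ← conj_e _ h, inv_mul_cancel_right]

theorem b_c {g : L5} (hx : ι g ∈ P) : (β (ι g)).c = pr (β (ι g)).a (cd g) := by rw [c_eq, b_g hm ha hx, ι_g]

theorem b_eq {g : L5} (hx : ι g ∈ P) : β (ι g) = e (β (ι g)).a * ι g := by
  conv_lhs => rw [← e_mul_ι (β (ι g)), b_g hm ha hx, ι_g]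

/-- The fixed points of `β` in `P`. -/
def fixd : Subgroup M where
  carrier := {x | x ∈ P ∧ β x = x}
  one_mem' := ⟨one_mem _, ha 0 (by norm_num)⟩
  mul_mem' := fun {x y} hx hy => ⟨mul_mem hx.1 hy.1, by rw [hm _ hx.1 _ hy.1, hx.2, hy.2]⟩
  inv_mem' := fun {x} hx => ⟨inv_mem hx.1, eq_inv_of_mul_eq_one_left (by
    have := hm _ (inv_mem hx.1) _ hx.1
    rw [hx.2, inv_mul_cancel] at this
    exact this.symm.trans (ha 0 (by norm_num)))⟩

theorem fix_t (hr : β (ι rho) = ι rho) : β (ι (E 0 4)) = ι (E 0 4) := by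
  have r := K_le_P rho_K
  have t := R_le_P t_R
  have τ := K_le_P tau_K
  have cE : cd (E 0 4) = 18092097 := cd_E (by norm_num) (by norm_num) (by norm_num)
  have cτ : cd (E 0 1) = 17043553 := cd_E (by norm_num) (by norm_num) (by norm_num)
  have h1 := rel hm ha r t 4 1 (by rw [c_rho, c_t]; decide +kernel)
  have h2 := rel hm ha r t 30 1572847 (by rw [c_rho, c_t]; decide +kernel)
  rw [hr, c_rho, b_c hm ha t, cE] at h1 h2
  have k1 : allLt 1024 (fun a => !Nat.beq (wd (pr 0 16883842) (pr a 18092097) 4) (wd (pr 0 16883842) (pr a 18092097) 1) ||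
      !Nat.beq (wd (pr 0 16883842) (pr a 18092097) 30) (wd (pr 0 16883842) (pr a 18092097) 1572847) || Nat.beq a 0 ||
      Nat.beq a 76) = true := by decide +kernel
  simp only [allLt_iff, Bool.or_eq_true, nbeq_iff, Bool.not_eq_true', ← Bool.not_eq_true, or_assoc] at k1
  simp only [← imp_iff_not_or] at k1
  rcases k1 _ (β (ι (E 0 4))).lt h1 h2 with h | h
  · rw [b_eq hm ha t, h, e_zero, one_mul]
  · exfalso
    have h3 := rel hm ha τ (wm_mem r t 122879 (Nat.log2 122879)) 6 5 (by rw [c_wd, c_rho, c_t, c_tau]; decide +kernel)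
    rw [b_wm hm ha r t, c_wd, hr, c_rho, b_c hm ha t, b_c hm ha τ, cE, cτ, h] at h3
    have k2 : (Spor.force (wd (pr 0 16883842) (pr 76 18092097) 122879) fun y => allLt 1024 fun c =>
      !Nat.beq (wd (pr c 17043553) y 6) (wd (pr c 17043553) y 5)) = true := by decide +kernel
    simp only [allLt_iff, Spor.force_eq, nbeq_iff, Bool.not_eq_true', ← Bool.not_eq_true] at k2
    exact k2 _ (β (ι (E 0 1))).lt h3

theorem fix_R (hr : β (ι rho) = ι rho) : ∀ x ∈ R, β x = x := fun _ hx =>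
  (R_le_rho (H := fixd hm ha) (fun a h => ⟨e_P a, ha a h⟩) ⟨K_le_P rho_K, hr⟩ ⟨R_le_P t_R, fix_t hm ha hr⟩ hx).2

theorem b_K (hR : ∀ x ∈ R, β x = x) {k : M} (hk : k ∈ K) : (β k).a < 64 ∧ β k = e (β k).a * k := by
  have kP := K_le_P hk
  have e1 : k = ι k.g := M.ext (mem_K.1 hk).1 rfl
  have e2 : β k = e (β k).a * k := by
    conv_lhs => rw [← e_mul_ι (β k), b_g hm ha kP, ← e1]
  refine ⟨?_, e2⟩
  have lt := (β k).lt
  generalize (β k).a = c at e2 lt
  have h : ∀ y ∈ R, y * e c = e c * y := fun y hy => by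
    have hx : k⁻¹ * y * k ∈ R := by
      simpa using (mem_normalizer_iff.1 (P_le_nR (inv_mem kP)) y).1 hy
    have := hm _ kP _ (R_le_P hx)
    rw [hR _ hx, ← mul_assoc, mul_inv_cancel_left, hm _ (R_le_P hy) _ kP, hR _ hy, e2] at this
    simpa [← mul_assoc] using this
  have h' : ∀ u < 16, wg (c / 64) u = 0 := fun u hu => by
    have h1 := h (ι (tu u)) (mem_R'.2 (mem_EU.2 ⟨u, hu, rfl⟩))
    have h2 := congrArg M.a h1
    rw [mul_a, mul_a_of (e_g _), ι_a, ι_g, e_a lt, Nat.zero_xor, Nat.xor_zero,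
      show c = c % 64 + 64 * (c / 64) by omega, ac_tu hu (by omega) (by omega), add_eq_xor _ (by omega) _ (by omega),
      Nat.xor_left_inj] at h2
    simpa using h2
  have := (by decide +kernel : ∀ w < 16, (∀ u < 16, wg w u = 0) → w = 0) (c / 64) (by omega) h'
  omega

theorem b_tau (hr : β (ι rho) = ι rho) : (β (ι (E 0 1))).a = 0 ∨ (β (ι (E 0 1))).a = 43 := by
  have r := K_le_P rho_K
  have τ := K_le_P tau_K
  have cτ : cd (E 0 1) = 17043553 := cd_E (by norm_num) (by norm_num) (by norm_num)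
  have h1 := rel hm ha r τ 5883 7098 (by rw [c_rho, c_tau]; decide +kernel)
  rw [hr, c_rho, b_c hm ha τ, cτ] at h1
  have k1 : allLt 64 (fun a => !Nat.beq (wd (pr 0 16883842) (pr a 17043553) 5883) (wd (pr 0 16883842) (pr a 17043553) 7098) ||
      Nat.beq a 0 || Nat.beq a 43) = true := by decide +kernel
  simp only [allLt_iff, Bool.or_eq_true, nbeq_iff, Bool.not_eq_true', ← Bool.not_eq_true, or_assoc] at k1
  simp only [← imp_iff_not_or] at k1
  exact k1 _ (b_K hm ha (fix_R hm ha hr) tau_K).1 h1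

theorem exists_fix : ∃ a < 1024, e a * β (ι rho) * e a = ι rho := by
  have k1 : (Spor.force (mx 16883842) fun N => allLt 1024 fun c => Spor.force (apm 714060423311296785962821008403 c) fun a =>
    blt a 1024 && Nat.beq (Nat.xor (Nat.xor a c) (apm N a)) 0) = true := by decide +kernel
  simp only [allLt_iff, Spor.force_eq, nbeq_iff, Bool.and_eq_true, blt_iff, Nat.xor_eq] at k1
  obtain ⟨h1, h2⟩ := k1 _ (β (ι rho)).lt
  have g := b_g hm ha (K_le_P rho_K)
  refine ⟨_, h1, M.ext ?_ (by rw [mul_g, mul_g, e_g, one_mul, mul_one, g])⟩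
  rw [mul_a, mul_a_of (e_g _), mul_g, e_g, one_mul, g, ι_g, cd_rho, e_a h1, ι_a]
  exact h2

end

theorem conj43 : ∃ x ∈ A2, ty x = 4 ∧ IsConj (e 43 * ι (E 0 1)) x := by
  refine ⟨rr 43 1 1, mem_A2.2 ⟨43, by norm_num, 1, by norm_num, rfl⟩, ?_, isConj_iff.2 ⟨ι (el 2363969), c_inj ?_⟩⟩
  · rw [ty, rr_a (by norm_num) (by norm_num), rr_g, uu_tu (by norm_num), if_neg (fun h => absurd h.1 (by norm_num)),
      if_neg (by decide +kernel)]
  · rw [c_mul, c_mul, c_mul, c_inv, c_tau, c_ι, cd_el (by decide +kernel), c_e (by norm_num),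
      c_rr (by norm_num) (by norm_num) (by norm_num)]
    decide +kernel

end Aln

open Aln

theorem K_le_rho {H : Subgroup M} (h1 : ι rho ∈ H) (h2 : ι (E 0 1) ∈ H) : K ≤ H := by
  refine sb_le (by decide +kernel) (fun b hb h => absurd h (by revert b; decide +kernel)) fun i hi l hl h k => ?_
  refine mem_of_wd h1 h2 ([1, 488885, 241531, 28374, 1, 2, 1, 1961950, 128957, 1, 228318, 3754, 1, 1801207, 1, 453483, 220919,
    31578].getD (5 * l + i) 1) ?_
  rw [c_rho, c_tau, c_E hi hl h]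
  revert i l
  decide +kernel

theorem align {β : M → M} (hm : ∀ x ∈ P, ∀ y ∈ P, β (x * y) = β x * β y) (ha : ∀ a < 1024, β (e a) = e a) :
    ∃ a < 1024, (∀ x ∈ R, β x = e a * x * e a) ∧ β (ι rho) = e a * ι rho * e a ∧
      (∀ k ∈ K, ∃ b < 64, β k = e a * (e b * k) * e a) ∧
      ((∀ k ∈ K, β k = e a * k * e a) ∨ ∃ x ∈ A2, ty x = 4 ∧ IsConj (β (ι (E 0 1))) x) := by
  obtain ⟨a, lt, hr⟩ := exists_fix hm ha
  obtain ⟨γ, hγ⟩ : ∃ γ : M → M, ∀ x, γ x = e a * β x * e a := ⟨_, fun _ => rfl⟩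
  have hm' : ∀ x ∈ P, ∀ y ∈ P, γ (x * y) = γ x * γ y := fun x hx y hy => by
    simp only [hγ, hm x hx y hy, mul_assoc]
    rw [← mul_assoc (e a) (e a), e_sq, one_mul]
  have ha' : ∀ b < 1024, γ (e b) = e b := fun b hb => by
    rw [hγ, ha b hb, e_comm a b, mul_assoc, e_sq, mul_one]
  have back : ∀ {x y : M}, γ x = y → β x = e a * y * e a := fun {x y} h => by
    rw [← h, hγ, ← mul_assoc, ← mul_assoc, e_sq, one_mul, mul_assoc, e_sq, mul_one]
  rw [← hγ] at hr
  have hR := fix_R hm' ha' hr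
  refine ⟨a, lt, fun x hx => back (hR x hx), back hr, fun k hk => ⟨_, (b_K hm' ha' hR hk).1, back (b_K hm' ha' hR hk).2⟩, ?_⟩
  have h2 := (b_K hm' ha' hR tau_K).2
  rcases b_tau hm' ha' hr with h | h
  · rw [h, e_zero, one_mul] at h2
    exact Or.inl fun k hk => back (K_le_rho (H := fixd hm' ha') ⟨K_le_P rho_K, hr⟩ ⟨K_le_P tau_K, h2⟩ hk).2
  · obtain ⟨x, hx, h4, hc⟩ := conj43
    rw [h] at h2
    exact Or.inr ⟨x, hx, h4, (isConj_iff.2 ⟨e a, by rw [e_inv, ← hγ]; exact h2⟩).trans hc⟩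

theorem cent_rho {x : M} (hx : x ∈ A) (h : x * ι rho = ι rho * x) : x = 1 := by
  have k1 : (Spor.force (mx 16883842) fun N => allLt 1024 fun c => !Nat.beq c (apm N c) || Nat.beq c 0) = true := by
    decide +kernel
  simp only [allLt_iff, Spor.force_eq, Bool.or_eq_true, nbeq_iff, Bool.not_eq_true', ← Bool.not_eq_true,
    ← imp_iff_not_or] at k1
  have h2 := congrArg M.a h
  rw [mul_a_of (mem_A.1 hx), mul_a, ι_a, ι_g, cd_rho, Nat.xor_zero, Nat.zero_xor] at h2
  rw [eq_e (mem_A.1 hx), k1 _ x.lt h2, e_zero]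

end Cfsg.Agent.R20
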