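import Mathlib
import Cfsg.Agent.R20.Gen

/-!
The orbits of `P` on the three groups `Ai i`.
-/

set_option autoImplicit false

namespace Cfsg.Agent.R20

open Cfsg.Agent.Spor Cfsg.Agent.Inv.Fz Subgroup

theorem tu_eq_one {u : ℕ} (hu : u < 16) : tu u = 1 ↔ u = 0 :=
  ⟨fun h => by rw [← uu_tu hu, h, cd_one]; rfl, fun h => h ▸ tu_zero⟩

theorem ty_rr {ζ w u : ℕ} (hζ : ζ < 64) (hw : w < 16) (hu : u < 16) : ty (rr ζ w u) =
    if w = 0 ∧ u = 0 then (if ζ = 0 then 0 else if rk2 ζ then 1 else 2) else if rk2 (ζ + 64 * (w ||| u)) then 3 else 4 := by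
  rw [ty, rr_a hζ hw, rr_g, uu_tu hu, show (ζ + 64 * w) % 64 = ζ by omega, show (ζ + 64 * w) / 64 = w by omega]
  by_cases h : w = 0 ∧ u = 0
  · rw [if_pos h, h.1, if_pos ⟨by omega, (tu_eq_one hu).2 h.2⟩]; rfl
  · rw [if_neg h, if_neg fun c => h ⟨by omega, (tu_eq_one hu).1 c.2⟩]

theorem ty_le (x : M) : ty x ≤ 4 := by unfold ty; split_ifs <;> omega

theorem ty_eq_zero {x : M} : ty x = 0 ↔ x = 1 := by
  refine ⟨fun h => ?_, fun h => by rw [h, ty, if_pos ⟨by decide, rfl⟩, if_pos one_a]⟩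
  unfold ty at h
  split_ifs at h with h1 h2
  exact M.ext h2 h1.2

theorem ty_le_two {x : M} : ty x ≤ 2 ↔ x ∈ Z := by
  have : x ∈ Z ↔ x.a < 64 ∧ x.g = 1 :=
    mem_Z.trans ⟨fun ⟨a, ha, h⟩ => h ▸ ⟨by rwa [e_a (by omega)], rfl⟩, fun h => ⟨_, h.1, eq_e h.2⟩⟩
  rw [this, ty]
  split_ifs <;> simp [*]

/-- The type of a code. -/
def tc (a : ℕ) : ℕ := cond (blt a 64) (cond (Nat.beq a 0) 0 (cond (rk2 a) 1 2)) (cond (rk2 a) 3 4)

theorem tc_eq (a : ℕ) : tc a = if a < 64 then (if a = 0 then 0 else if rk2 a then 1 else 2) else if rk2 a then 3 else 4 := by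
  simp only [tc, cond_eq_ite, blt_iff, nbeq_iff]

/-- The element of `Ai i` with number `a`. -/
noncomputable def pt (i : Fin 3) (a : ℕ) : M := rr (a % 64) (wu i (a / 64)).1 (wu i (a / 64)).2

theorem pt_add (i : Fin 3) {ζ : ℕ} (hζ : ζ < 64) (v : ℕ) : pt i (ζ + 64 * v) = rr ζ (wu i v).1 (wu i v).2 := by
  rw [pt, show (ζ + 64 * v) % 64 = ζ by omega, show (ζ + 64 * v) / 64 = v by omega]

theorem mem_Ai' {i : Fin 3} {x : M} : x ∈ Ai i ↔ ∃ a < 1024, x = pt i a :=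
  mem_Ai.trans ⟨fun ⟨ζ, h, v, hv, e⟩ => ⟨ζ + 64 * v, by omega, e.trans (pt_add i h v).symm⟩,
    fun ⟨a, h, e⟩ => ⟨_, Nat.mod_lt _ (by norm_num), a / 64, by omega, e⟩⟩

theorem pt_mem (i : Fin 3) {a : ℕ} (ha : a < 1024) : pt i a ∈ Ai i := mem_Ai'.2 ⟨a, ha, rfl⟩

theorem wu_or (i : Fin 3) (v : ℕ) : (wu i v).1 ||| (wu i v).2 = v := by fin_cases i <;> simp [wu]

theorem ty_pt (i : Fin 3) {a : ℕ} (ha : a < 1024) : ty (pt i a) = tc a := by
  have h := wu_lt i (show a / 64 < 16 by omega)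
  rw [pt, ty_rr (Nat.mod_lt _ (by norm_num)) h.1 h.2, wu_or, Nat.mod_add_div, tc_eq]
  simp only [← Nat.or_eq_zero_iff, wu_or]
  by_cases c : a < 64
  · rw [if_pos c, if_pos (by omega), Nat.mod_eq_of_lt c]
  · rw [if_neg c, if_neg (by omega)]

theorem pt_inj (i : Fin 3) {a b : ℕ} (ha : a < 1024) (hb : b < 1024) (h : pt i a = pt i b) : a = b := by
  have h1 := wu_lt i (show a / 64 < 16 by omega)
  have h2 := wu_lt i (show b / 64 < 16 by omega)
  obtain ⟨e1, e2, e3⟩ := rr_inj (Nat.mod_lt _ (by norm_num)) h1.1 h1.2 (Nat.mod_lt _ (by norm_num)) h2.1 h2.2 h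
  have := wu_or i (a / 64)
  rw [e2, e3, wu_or] at this
  omega

theorem pt_zero {a : ℕ} (ha : a < 1024) : pt 0 a = e a := by
  rw [pt, show wu 0 (a / 64) = (a / 64, 0) from rfl, rr, tu_zero, map_one, mul_one, Nat.mod_add_div]

theorem pt_lt (i : Fin 3) {a : ℕ} (ha : a < 64) : pt i a = e a := by
  rw [pt, Nat.div_eq_of_lt ha, Nat.mod_eq_of_lt ha, show wu i 0 = (0, 0) by fin_cases i <;> rfl, rr_zero]

theorem ty_e' {a : ℕ} (ha : a < 1024) : ty (e a) = tc a := pt_zero ha ▸ ty_pt 0 ha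

theorem ty_z : ty z = 1 := (ty_e' (by norm_num)).trans (by decide +kernel)

theorem tc_iff (a : ℕ) : (tc a = 1 ∨ tc a = 3) ↔ rk2 a = true := by
  rw [tc_eq]
  split_ifs with h1 h2 <;> simp [*]
  decide +kernel

theorem ty_e {a : ℕ} (ha : a < 1024) : (ty (e a) = 1 ∨ ty (e a) = 3) ↔ rk2 a = true := ty_e' ha ▸ tc_iff a

/-! ### Conjugation -/

theorem conj_pt_K (i : Fin 3) {k : M} (hk : k ∈ K) {a : ℕ} (ha : a < 1024) : k * pt i a * k⁻¹ = pt i (ac (cd k.g) a) := by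
  have hζ : a % 64 < 64 := Nat.mod_lt _ (by norm_num)
  have hv : a / 64 < 16 := by omega
  have h := wu_lt i hv
  have := conj_rr hk hζ hv (show 0 < 16 by norm_num)
  rw [ap_zero, rr, rr, tu_zero, map_one, mul_one, mul_one, Nat.mod_add_div, conj_e k ha] at this
  rw [e_inj (ac_lt _ _) (by have := (K_lt hk).1 _ hζ; have := (K_lt hk).2 _ hv; omega) this, pt_add i ((K_lt hk).1 _ hζ), pt,
    conj_rr hk hζ h.1 h.2]
  fin_cases i <;> simp [wu, ap_zero]

theorem conj_pt_R (i : Fin 3) {ζ w u : ℕ} (hζ : ζ < 64) (hw : w < 16) (hu : u < 16) {a : ℕ} (ha : a < 1024) :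
    rr ζ w u * pt i a * (rr ζ w u)⁻¹ = pt i (ac (cd (tu (![u, w, u ^^^ w] i))) a) := by
  have h1 : a % 64 < 64 := Nat.mod_lt _ (by norm_num)
  have hv : a / 64 < 16 := by omega
  have h := wu_lt i hv
  have ht : ![u, w, u ^^^ w] i < 16 := by fin_cases i; exacts [hu, hw, Nat.xor_lt_two_pow (n := 4) hu hw]
  have l := Nat.xor_lt_two_pow (n := 6) h1 (wg_lt64 _ hv _ ht)
  conv_rhs => rw [← Nat.mod_add_div a 64, ac_tu ht h1 hv, ← add_eq_xor _ l _ hv, pt_add i l]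
  rw [mul_inv_eq_iff_eq_mul, pt, rr_mul hζ hw hu h1 h.1 h.2, rr_mul l h.1 h.2 hζ hw hu, Nat.xor_comm w, Nat.xor_comm u]
  congr 1
  have c := wg_comm (a / 64) (by omega) w (by omega)
  fin_cases i <;> simp [wu, wg_zero (show w < 32 by omega), zero_wg (show u < 32 by omega), c, Nat.xor_comm, Nat.xor_left_comm,
    Nat.xor_assoc,
    wg_xor (a / 64) (by omega) w (by omega) u (by omega)]

theorem conj_pt (i : Fin 3) {g : M} (hg : g ∈ P) : ∃ h ∈ pat kP, ∀ a < 1024, g * pt i a * g⁻¹ = pt i (ac (cd h) a) := by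
  obtain ⟨y, hy, k, hk, rfl⟩ := exists_R_K hg
  obtain ⟨ζ, hζ, w, hw, u, hu, rfl⟩ := mem_R.1 hy
  have ht : ![u, w, u ^^^ w] i < 16 := by fin_cases i; exacts [hu, hw, Nat.xor_lt_two_pow (n := 4) hu hw]
  refine ⟨_ * k.g, mul_mem (pat_mono (by decide) (mem_EU.2 ⟨_, ht, rfl⟩)) (mem_P.1 (K_le_P hk)), fun a ha => ?_⟩
  rw [ac_mul _ _ ha, ← conj_pt_R i hζ hw hu (ac_lt _ _), ← conj_pt_K i hk ha]
  group

theorem pt_conj (i : Fin 3) {h : L5} (hh : h ∈ pat kP) : ∃ g ∈ P, ∀ a < 1024, g * pt i a * g⁻¹ = pt i (ac (cd h) a) := by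
  obtain ⟨y, hy, k, hk, e⟩ := exists_R_K (x := ι h) (mem_P.2 hh)
  obtain ⟨ζ, hζ, w, hw, u, hu, rfl⟩ := mem_R.1 hy
  have e' : h = tu u * k.g := by rw [← rr_g ζ w u]; exact congrArg M.g e
  obtain ⟨h1, h2⟩ := wu_lt (![1, 0, 0] i) hu
  refine ⟨rr 0 _ _ * k, mul_mem (T_le_P (R_le_T (mem_R.2 ⟨0, by norm_num, _, h1, _, h2, rfl⟩))) (K_le_P hk), fun a ha => ?_⟩
  have := conj_pt_R i (show 0 < 64 by norm_num) h1 h2 (ac_lt (cd k.g) a)
  rw [show ![(wu (![1, 0, 0] i) u).2, (wu (![1, 0, 0] i) u).1, (wu (![1, 0, 0] i) u).2 ^^^ (wu (![1, 0, 0] i) u).1] i = u by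
    fin_cases i <;> simp [wu]] at this
  rw [e', ac_mul _ _ ha, ← this, ← conj_pt_K i hk ha]
  group

theorem tc_ac {h : L5} (hh : h ∈ pat kP) {a : ℕ} (ha : a < 1024) : tc (ac (cd h) a) = tc a := by
  have h1 : ac (cd h) a < 64 ↔ a < 64 := ⟨fun c => ac_inv_ac h ha ▸ (P_lt (inv_mem hh)).1 _ c, (P_lt hh).1 a⟩
  have h2 : ac (cd h) a = 0 ↔ a = 0 := ⟨fun c => by rw [← ac_inv_ac h ha, c, ac_zero], fun c => by rw [c, ac_zero]⟩
  simp only [tc_eq, h1, h2, rk2_ac h ha]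

theorem ty_conj (i : Fin 3) {x g : M} (hx : x ∈ Ai i) (hg : g ∈ P) : ty (g * x * g⁻¹) = ty x := by
  obtain ⟨a, ha, rfl⟩ := mem_Ai'.1 hx
  obtain ⟨h, hh, e⟩ := conj_pt i hg
  rw [e a ha, ty_pt i (ac_lt _ _), ty_pt i ha, tc_ac hh ha]

/-- Representatives of the types. -/
def rp (n : ℕ) : ℕ := getP 7 127 (nat_lit 18388025472) n

theorem exists_rp : ∀ a < 1024, ∃ h ∈ pat kP, ac (cd h) a = rp (tc a) := by
  have k : (allL [(29602255, 632278957628394712839820965899), (25430055, 633999471015826360579707114499),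
      (24414401, 786253169046447375070116447235), (30587969, 446844546365297199414797937665),
      (30871649, 1147921268262523935109104535553), (17043553, 634135011871350255048779106305)] fun p : ℕ × ℕ =>
      ok p.1 && Nat.beq (Nat.land p.1 kP) 0 && Nat.beq (mx p.1) p.2) = true := by decide +kernel
  have k' : (allLt 1024 fun a => Nat.beq a (rp (tc a)) || !allL [(29602255, 632278957628394712839820965899),
      (25430055, 633999471015826360579707114499), (24414401, 786253169046447375070116447235),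
      (30587969, 446844546365297199414797937665), (30871649, 1147921268262523935109104535553),
      (17043553, 634135011871350255048779106305)] fun p : ℕ × ℕ => !blt (apm p.2 a) a) = true := by decide +kernel
  simp only [allLt_iff, allL_iff, Bool.and_eq_true, Bool.or_eq_true, nbeq_iff, Bool.not_eq_true', ← Bool.not_eq_true,
    blt_iff, not_forall, not_not] at k k'
  intro a
  induction a using Nat.strong_induction_on with
  | _ a ih =>
    intro ha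
    rcases k' a ha with c | ⟨p, hp, c⟩
    · exact ⟨1, one_mem _, (ac_one ha).trans c⟩
    obtain ⟨⟨h1, h2⟩, h3⟩ := k p hp
    have hm : el p.1 ∈ pat kP := (mem_pat (by decide +kernel)).2 (by rwa [cd_el h1])
    rw [← h3, ← ac, ← cd_el h1] at c
    obtain ⟨h, hh, e⟩ := ih _ c (ac_lt _ _)
    exact ⟨h * el p.1, mul_mem hh hm, by rw [ac_mul _ _ ha, e, tc_ac hm ha]⟩

theorem exists_ac {a b : ℕ} (ha : a < 1024) (hb : b < 1024) (h : tc a = tc b) : ∃ g ∈ pat kP, ac (cd g) a = b := by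
  obtain ⟨g, hg, e⟩ := exists_rp a ha
  obtain ⟨g', hg', e'⟩ := exists_rp b hb
  exact ⟨g'⁻¹ * g, mul_mem (inv_mem hg') hg, by rw [ac_mul _ _ ha, e, h, ← e', ac_inv_ac _ hb]⟩

theorem conj_of_ty (i : Fin 3) {x y : M} (hx : x ∈ Ai i) (hy : y ∈ Ai i) (h : ty x = ty y) : ∃ g ∈ P, g * x * g⁻¹ = y := by
  obtain ⟨a, ha, rfl⟩ := mem_Ai'.1 hx
  obtain ⟨b, hb, rfl⟩ := mem_Ai'.1 hy
  obtain ⟨g, hg, rfl⟩ := exists_ac ha hb (by rwa [ty_pt i ha, ty_pt i hb] at h)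
  exact (pt_conj i hg).imp fun _ c => ⟨c.1, c.2 a ha⟩

theorem ncard_ty (i : Fin 3) (n : Fin 5) : {x | x ∈ Ai i ∧ ty x = n}.ncard = ![1, 35, 28, 120, 840] n := by
  have : {x | x ∈ Ai i ∧ ty x = n} = pt i '' ((Finset.range 1024).filter fun a => tc a = n) := Set.ext fun x => by
    simp only [Set.mem_ofPred_eq, mem_Ai', Set.mem_image, Finset.coe_filter, Finset.mem_range]
    exact ⟨fun ⟨⟨a, ha, e⟩, h⟩ => ⟨a, ⟨ha, by rw [← ty_pt i ha, ← e, h]⟩, e.symm⟩,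
      fun ⟨a, ⟨ha, h⟩, e⟩ => ⟨⟨a, ha, e.symm⟩, by rw [← e, ty_pt i ha, h]⟩⟩
  rw [this, Set.ncard_image_of_injOn fun a ha b hb => pt_inj i (Finset.mem_range.1 (Finset.mem_filter.1 ha).1)
    (Finset.mem_range.1 (Finset.mem_filter.1 hb).1), Set.ncard_coe_finset]
  exact (by decide +kernel : ∀ n : Fin 5, ((Finset.range 1024).filter fun a => tc a = n).card = ![1, 35, 28, 120, 840] n) n

theorem conj_A {a b : ℕ} (ha : a < 1024) (hb : b < 1024) (a0 : a ≠ 0) (b0 : b ≠ 0) (h : rk2 a = rk2 b) :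
    ∃ g : L5, ac (cd g) a = b := by
  have k : ∀ a < 1024, a ≠ 0 → ∃ g : L5, ac (cd g) a = if rk2 a then 64 else 68 := fun a ha a0 => by
    obtain ⟨g, -, e⟩ := exists_rp a ha
    rw [tc_eq, if_neg a0] at e
    split_ifs at e ⊢
    · exact ⟨el 8522241 * g, by rw [ac_mul _ _ ha, e, cd_el (by decide +kernel)]; decide +kernel⟩
    · exact ⟨g, e⟩
    · exact ⟨el 8917057 * g, by rw [ac_mul _ _ ha, e, cd_el (by decide +kernel)]; decide +kernel⟩
    · exact ⟨g, e⟩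
  obtain ⟨g, e⟩ := k a ha a0
  obtain ⟨g', e'⟩ := k b hb b0
  exact ⟨g'⁻¹ * g, by rw [ac_mul _ _ ha, e, h, ← e', ac_inv_ac _ hb]⟩

/-! ### Generation -/

theorem Z_le_of {H : Subgroup M} (h : ∀ k < 6, e (2 ^ k) ∈ H) : Z ≤ H := fun x hx => by
  obtain ⟨a, ha, rfl⟩ := mem_Z.1 hx
  exact xor_ind (n := 6) (P := fun a => e a ∈ H) (one_mem _) h
    (fun a ha b hb h1 h2 => e_xor (a := a) (b := b) (by omega) (by omega) ▸ mul_mem h1 h2) a ha

theorem ty_pow : ∀ k < 6, ty (e (2 ^ k)) = 1 := fun k hk =>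
  (ty_e' (Nat.pow_lt_pow_right (m := k) (n := 10) one_lt_two (by omega))).trans (by revert k; decide +kernel)

theorem closure_ty1 : closure {x | ty x = 1} = Z :=
  le_antisymm ((closure_le _).2 fun _ h => ty_le_two.1 (h.trans_le one_le_two))
    (Z_le_of fun k hk => subset_closure (ty_pow k hk))

theorem closure_ty2 : closure {x | ty x = 2} = Z := by
  refine le_antisymm ((closure_le _).2 fun _ h => ty_le_two.1 h.le) (Z_le_of fun k hk => ?_)
  obtain ⟨a, ha, b, hb, h1, h2, h3⟩ : ∃ a < 64, ∃ b < 64, tc a = 2 ∧ tc b = 2 ∧ a ^^^ b = 2 ^ k := by revert k; decide +kernel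
  rw [← h3, e_xor (by omega) (by omega)]
  exact mul_mem (subset_closure ((ty_e' (by omega)).trans h1)) (subset_closure ((ty_e' (by omega)).trans h2))

theorem pt_mem_Om (i : Fin 3) {a : ℕ} (ha : a < 1024) : pt i a ∈ Om i ↔ rk2 a = true :=
  (and_iff_right (pt_mem i ha)).trans (ty_pt i ha ▸ tc_iff a)

theorem closure_Om (i : Fin 3) : closure (Om i) = Ai i := by
  refine le_antisymm ((closure_le _).2 fun _ h => h.1) fun x hx => ?_
  have hZ : Z ≤ closure (Om i) := closure_ty1 ▸ closure_mono fun x h =>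
    ⟨Z_le_Ai i (ty_le_two.1 (h.trans_le one_le_two)), .inl h⟩
  obtain ⟨ζ, hζ, v, hv, rfl⟩ := mem_Ai.1 hx
  have h := wu_lt i hv
  have e := rr_mul hζ (show 0 < 16 by norm_num) (show 0 < 16 by norm_num) (show 0 < 64 by norm_num) h.1 h.2
  rw [wg_zero (by omega), Nat.xor_zero, Nat.xor_zero, Nat.zero_xor, Nat.zero_xor, rr_zero, ← pt_add i (by norm_num)] at e
  refine e ▸ mul_mem (hZ (mem_Z.2 ⟨ζ, hζ, rfl⟩)) ?_
  rcases Nat.eq_zero_or_pos v with rfl | c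
  · exact hZ (mem_Z.2 ⟨0, by norm_num, pt_lt i (by norm_num)⟩)
  · exact subset_closure ((pt_mem_Om i (by omega)).2 ((by decide +kernel : ∀ v < 16, 0 < v → rk2 (0 + 64 * v) = true) v hv c))

/-! ### Planes -/

theorem pc_map {G H : Type*} [Group G] [Group H] {f : G →* H} (hf : Function.Injective f) (v : G) (Ω : Set G) :
    pc (f v) (f '' Ω) = pc v Ω := by
  rw [pc, pc, ← Set.ncard_image_of_injective _ (hf.prodMap hf)]
  congr 1
  ext p
  refine ⟨fun h => ?_, ?_⟩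
  · obtain ⟨a, -, e⟩ := h.1
    obtain ⟨b, -, e'⟩ := h.2.1
    refine ⟨(a, b), ?_, Prod.ext e e'⟩
    simpa only [Set.mem_ofPred_eq, ← e, ← e', ← map_mul, hf.mem_set_image] using h
  · rintro ⟨q, h, rfl⟩
    simpa only [Set.mem_ofPred_eq, Prod.map_fst, Prod.map_snd, ← map_mul, hf.mem_set_image] using h

/-- The product of codes in `Ai i`; `s = 1` for `A2` and `s = 0` otherwise. -/
noncomputable def ml (s a b : ℕ) : ℕ := Spor.force a fun a => Spor.force b fun b =>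
  Nat.xor (Nat.xor a b) (wg (Nat.mul s (Nat.shiftRight b 6)) (Nat.mul s (Nat.shiftRight a 6)))

theorem pt_mul (i : Fin 3) {a b : ℕ} (ha : a < 1024) (hb : b < 1024) :
    ml (i / 2) a b < 1024 ∧ pt i a * pt i b = pt i (ml (i / 2) a b) := by
  have h1 := wu_lt i (show a / 64 < 16 by omega)
  have h2 := wu_lt i (show b / 64 < 16 by omega)
  have m : ∀ a : ℕ, a % 64 < 64 := fun a => Nat.mod_lt _ (by norm_num)
  have l := Nat.xor_lt_two_pow (n := 6) (Nat.xor_lt_two_pow (n := 6) (m a) (m b)) (wg_lt64 _ h2.1 _ h1.2)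
  have l' : a / 64 ^^^ b / 64 < 16 := Nat.xor_lt_two_pow (n := 4) (by omega) (by omega)
  have e : ml (i / 2) a b = (a % 64 ^^^ b % 64 ^^^ wg (wu i (b / 64)).1 (wu i (a / 64)).2) + 64 * (a / 64 ^^^ b / 64) := by
    have s : ∀ a : ℕ, Nat.shiftRight a 6 = a / 64 := fun a => Nat.shiftRight_eq_div_pow a 6
    rw [add_eq_xor _ l _ l', mul_xor64 _ (by omega) _ (by omega)]
    simp only [ml, Spor.force_eq, s, Nat.xor_eq, Nat.mul_eq]
    conv_lhs => enter [1]; rw [← Nat.mod_add_div a 64, ← Nat.mod_add_div b 64, add_eq_xor _ (m a) _ (by omega),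
      add_eq_xor _ (m b) _ (by omega)]
    rw [show wg (i / 2 * (b / 64)) (i / 2 * (a / 64)) = wg (wu i (b / 64)).1 (wu i (a / 64)).2 by
      fin_cases i <;> simp [wu, wg_zero (show b / 64 < 32 by omega), zero_wg (show a / 64 < 32 by omega), wg_self 0]]
    ac_rfl
  refine ⟨by omega, ?_⟩
  rw [e, pt_add i l, pt, pt, rr_mul (m a) h1.1 h1.2 (m b) h2.1 h2.2]
  fin_cases i <;> simp [wu]

/-- The count of pairs. -/
noncomputable def pcc (s v : ℕ) : ℕ := ∑ a ∈ Finset.range 1024, cond (band (rk2 a) (rk2 (ml s v a)))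
  (Spor.force (ml s v a) fun c => ∑ b ∈ Finset.range 1024,
    cond (band (rk2 b) (band (rk2 (ml s v b)) (band (rk2 (ml s a b)) (rk2 (ml s c b))))) 1 0) 0

set_option linter.constructorNameAsVariable false in
theorem pc_pt (i : Fin 3) {v : ℕ} (hv : v < 1024) : pc (pt i v) (Om i) = pcc (i / 2) v := by
  have : pc (pt i v) (Om i) = (Prod.map (pt i) (pt i) '' ((Finset.range 1024 ×ˢ Finset.range 1024).filter fun p =>
      (rk2 p.1 = true ∧ rk2 (ml (i / 2) v p.1) = true) ∧ rk2 p.2 = true ∧ rk2 (ml (i / 2) v p.2) = true ∧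
        rk2 (ml (i / 2) p.1 p.2) = true ∧ rk2 (ml (i / 2) (ml (i / 2) v p.1) p.2) = true)).ncard := by
    have k : ∀ a < 1024, ∀ b < 1024, (pt i a ∈ Om i ∧ pt i b ∈ Om i ∧ pt i v * pt i a ∈ Om i ∧ pt i v * pt i b ∈ Om i ∧
        pt i a * pt i b ∈ Om i ∧ pt i v * pt i a * pt i b ∈ Om i) ↔ (rk2 a = true ∧ rk2 (ml (i / 2) v a) = true) ∧
        rk2 b = true ∧ rk2 (ml (i / 2) v b) = true ∧ rk2 (ml (i / 2) a b) = true ∧
        rk2 (ml (i / 2) (ml (i / 2) v a) b) = true := fun a ha b hb => by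
      rw [(pt_mul i hv ha).2, (pt_mul i hv hb).2, (pt_mul i ha hb).2, (pt_mul i (pt_mul i hv ha).1 hb).2, pt_mem_Om i ha,
        pt_mem_Om i hb, pt_mem_Om i (pt_mul i hv ha).1, pt_mem_Om i (pt_mul i hv hb).1, pt_mem_Om i (pt_mul i ha hb).1,
        pt_mem_Om i (pt_mul i (pt_mul i hv ha).1 hb).1]
      tauto
    rw [pc]
    congr 1
    ext p
    simp only [Set.mem_ofPred_eq, Set.mem_image, Finset.coe_filter, Finset.mem_product, Finset.mem_range]
    refine ⟨fun h => ?_, ?_⟩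
    · obtain ⟨a, ha, e⟩ := mem_Ai'.1 h.1.1
      obtain ⟨b, hb, e'⟩ := mem_Ai'.1 h.2.1.1
      exact ⟨(a, b), ⟨⟨ha, hb⟩, (k a ha b hb).1 (e ▸ e' ▸ h)⟩, Prod.ext e.symm e'.symm⟩
    · rintro ⟨q, ⟨⟨ha, hb⟩, h⟩, rfl⟩
      exact (k _ ha _ hb).2 h
  rw [this, Set.ncard_image_of_injOn fun p hp q hq e => ?_, Set.ncard_coe_finset, Finset.card_filter, Finset.sum_product, pcc]
  · refine Finset.sum_congr rfl fun a _ => ?_
    simp only [cond_eq_ite, band_iff, Spor.force_eq]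
    split_ifs with h <;> simp only [h, true_and, false_and, if_false, Finset.sum_const_zero, and_self]
  · simp only [Finset.coe_filter, Finset.mem_product, Finset.mem_range, Set.mem_ofPred_eq] at hp hq
    exact Prod.ext (pt_inj i hp.1.1 hq.1.1 (congrArg Prod.fst e)) (pt_inj i hp.1.2 hq.1.2 (congrArg Prod.snd e))

theorem pcc_eq : pcc 0 1 = 672 ∧ pcc 1 1 = 672 ∧ pcc 0 64 = 672 ∧ pcc 1 64 = 336 := by decide +kernel

theorem pc_z (i : Fin 3) : pc z (Om i) = 672 := by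
  rw [z, ← pt_lt i (by norm_num), pc_pt i (by norm_num)]
  fin_cases i
  exacts [pcc_eq.1, pcc_eq.1, pcc_eq.2.1]

theorem conj_Om (i : Fin 3) {g : M} (hg : g ∈ P) : (MulAut.conj g).toMonoidHom '' Om i = Om i := by
  have k : ∀ g ∈ P, ∀ x ∈ Om i, g * x * g⁻¹ ∈ Om i := fun g hg x hx =>
    ⟨(mem_normalizer_iff.1 (P_le_nAi i hg) x).1 hx.1, (ty_conj i hx.1 hg).symm ▸ hx.2⟩
  refine Set.ext fun x => ⟨?_, fun h => ⟨_, k _ (inv_mem hg) x h, by simp [mul_assoc]⟩⟩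
  rintro ⟨y, hy, rfl⟩
  exact k g hg y hy

theorem pc_three (i : Fin 3) {x : M} (hx : x ∈ Ai i) (h : ty x = 3) : pc x (Om i) = ![672, 672, 336] i := by
  obtain ⟨g, hg, rfl⟩ := conj_of_ty i (pt_mem i (show 64 < 1024 by norm_num)) hx
    (by rw [h, ty_pt i (by norm_num)]; decide +kernel)
  have := pc_map (f := (MulAut.conj g).toMonoidHom) (MulAut.conj g).injective (pt i 64) (Om i)
  rw [conj_Om i hg, pc_pt i (by norm_num)] at this
  refine Eq.trans this ?_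
  fin_cases i
  exacts [pcc_eq.2.2.1, pcc_eq.2.2.1, pcc_eq.2.2.2]

theorem ncard_cl (i : Fin 3) {x : P} (hx : x.1 ∈ Ai i) :
    {y | IsConj x y}.ncard = ![1, 35, 28, 120, 840] ⟨ty x.1, Nat.lt_succ_of_le (ty_le _)⟩ := by
  rw [← ncard_ty i, ← Set.ncard_image_of_injective _ Subtype.val_injective]
  congr 1
  refine Set.ext fun y => ⟨?_, fun h => ?_⟩
  · rintro ⟨y, h, rfl⟩
    obtain ⟨g, rfl⟩ := isConj_iff.1 h
    exact ⟨(mem_normalizer_iff.1 (P_le_nAi i g.2) _).1 hx, ty_conj i hx g.2⟩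
  · obtain ⟨g, hg, e⟩ := conj_of_ty i hx h.1 h.2.symm
    exact ⟨_, isConj_iff.2 ⟨⟨g, hg⟩, rfl⟩, e⟩

/-- An automorphism of `P` that maps `Ai i` to `Ai j` preserves the types and fixes `A2`. -/
theorem aut_P (γ : P ≃* P) {i j : Fin 3} (h : ∀ x : P, x.1 ∈ Ai i ↔ (γ x).1 ∈ Ai j) :
    (∀ x : P, x.1 ∈ Ai i → ty (γ x).1 = ty x.1) ∧ (i = 2 ↔ j = 2) := by
  have k : ∀ x : P, x.1 ∈ Ai i → ty (γ x).1 = ty x.1 := fun x hx => by
    have e : {y | IsConj (γ x) y} = γ '' {y | IsConj x y} := Set.ext fun y =>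
      ⟨fun c => ⟨γ.symm y, by simpa using γ.symm.toMonoidHom.map_isConj c, γ.apply_symm_apply y⟩,
        fun ⟨w, c, e⟩ => e ▸ γ.toMonoidHom.map_isConj c⟩
    have := ncard_cl j ((h x).1 hx)
    rw [e, Set.ncard_image_of_injective _ γ.injective, ncard_cl i hx] at this
    exact congrArg Fin.val ((by decide : Function.Injective ![1, 35, 28, 120, 840]) this).symm
  refine ⟨k, ?_⟩
  have hP : ∀ i, Ai i ≤ P := fun i => (Ai_le_R i).trans (R_le_T.trans T_le_P)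
  have im : ∀ i, P.subtype '' (P.subtype ⁻¹' Om i) = Om i := fun i =>
    Set.image_preimage_eq_of_subset fun x hx => ⟨⟨x, hP i hx.1⟩, rfl⟩
  have hx := pt_mem i (show 64 < 1024 by norm_num)
  have t : ty (pt i 64) = 3 := by rw [ty_pt i (by norm_num)]; decide +kernel
  have e : γ.toMonoidHom '' (P.subtype ⁻¹' Om i) = P.subtype ⁻¹' Om j := Set.ext fun y => by
    obtain ⟨y, rfl⟩ := γ.surjective y
    refine γ.injective.mem_set_image.trans ⟨fun c => ⟨(h y).1 c.1, (k y c.1).symm ▸ c.2⟩, fun c => ⟨(h y).2 c.1, ?_⟩⟩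
    exact k y ((h y).2 c.1) ▸ c.2
  have h1 := pc_map (f := P.subtype) P.subtype_injective ⟨_, hP i hx⟩ (P.subtype ⁻¹' Om i)
  have h2 := pc_map (f := P.subtype) P.subtype_injective (γ ⟨_, hP i hx⟩) (P.subtype ⁻¹' Om j)
  have h3 := pc_map (f := γ.toMonoidHom) γ.injective ⟨_, hP i hx⟩ (P.subtype ⁻¹' Om i)
  rw [im] at h1 h2
  rw [e] at h3
  have := ((pc_three j ((h ⟨_, hP i hx⟩).1 hx) ((k _ hx).trans t)).symm.trans (h2.trans (h3.trans h1.symm))).trans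
    (pc_three i hx t)
  revert this
  generalize i = i, j = j
  revert i j
  decide

end Cfsg.Agent.R20
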