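import Mathlib
import Cfsg.Agent.R20.Orb

/-! A linear bijection of the bivectors that preserves the decomposable ones is induced by a matrix. -/

set_option autoImplicit false

namespace Cfsg.Agent.R20

open Cfsg.Agent.Spor Cfsg.Agent.Inv.Fz Subgroup

namespace Chow

/-- The star of `q` as a bit mask. -/
noncomputable def stm (q : ℕ) : ℕ :=
  Nat.rec (motive := fun _ => ℕ) 0 (fun v r => Nat.lor r (Nat.shiftLeft 1 (wg q v))) 32

theorem stm_wg : ∀ q < 32, ∀ v < 32, (stm q).testBit (wg q v) = true := by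
  have : allLt 32 (fun q => Spor.force (stm q) fun S => allLt 32 fun v => S.testBit (wg q v)) = true := by decide +kernel
  simpa only [allLt_iff, Spor.force_eq] using this

theorem of_stm : ∀ q < 4, ∀ x < 1024, (stm q).testBit x = true → ∃ v < 32, x = wg q v := by
  have : allLt 4 (fun q => Spor.force (stm q) fun S => allLt 1024 fun x => !S.testBit x ||
    !allLt 32 fun v => !Nat.beq x (wg q v)) = true := by decide +kernel
  simp only [allLt_iff, Spor.force_eq, Bool.or_eq_true, nbeq_iff, Bool.not_eq_true', ← Bool.not_eq_true,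
    ← imp_iff_not_or, not_forall, not_not] at this
  exact fun q hq x hx h => let ⟨v, hv, e⟩ := this q hq x hx h; ⟨v, hv, e⟩

theorem inter : ∀ q < 32, ∀ p < 32, ∀ v < 32, (stm q).testBit (wg p v) = true →
    wg p v = 0 ∨ q = 0 ∨ q = p ∨ wg p v = wg p q := by
  have : allLt 32 (fun q => Spor.force (stm q) fun S => allLt 32 fun p => allLt 32 fun v => Spor.force (wg p v) fun x =>
    !S.testBit x || (Nat.beq x 0 || (Nat.beq q 0 || (Nat.beq q p || Nat.beq x (wg p q))))) = true := by decide +kernel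
  simpa only [allLt_iff, Spor.force_eq, Bool.or_eq_true, nbeq_iff, Bool.not_eq_true', ← Bool.not_eq_true,
    ← imp_iff_not_or] using this

/-- The lines that meet `⟨e_0, e_1⟩` in a point. -/
def nb : List ℕ := [2, 3, 4, 5, 6, 7, 8, 9, 10, 11, 16, 17, 20, 21, 24, 25, 30, 31, 64, 65, 66, 67, 72, 73, 74, 75,
  128, 129, 132, 133, 144, 145, 148, 149, 192, 193, 198, 199, 216, 217, 222, 223]

theorem mem_nb : ∀ b < 1024, rk2 b = true → rk2 (1 ^^^ b) = true → b ∈ nb := by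
  have : allLt 1024 (fun b => !rk2 b || (!rk2 (1 ^^^ b) || decide (b ∈ nb))) = true := by decide +kernel
  simpa only [allLt_iff, Bool.or_eq_true, Bool.not_eq_true', ← Bool.not_eq_true, ← imp_iff_not_or,
    decide_eq_true_eq] using this

theorem nb_star : ∀ b ∈ nb, ∀ c ∈ nb, rk2 (b ^^^ c) = true → rk2 (1 ^^^ b ^^^ c) = true → ∀ d ∈ nb,
    rk2 (b ^^^ d) = true → rk2 (c ^^^ d) = true → rk2 (1 ^^^ b ^^^ d) = true → rk2 (1 ^^^ c ^^^ d) = true →
    rk2 (b ^^^ c ^^^ d) = true → rk2 (1 ^^^ b ^^^ c ^^^ d) = true →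
    ∃ p ∈ [1, 2, 3], ∀ s ∈ [1, b, c, d], (stm p).testBit s = true := by decide +kernel

/-- The non-trivial combinations of four bivectors. -/
def cb (a b c d : ℕ) : List ℕ := [a, b, c, d, a ^^^ b, a ^^^ c, a ^^^ d, b ^^^ c, b ^^^ d, c ^^^ d, a ^^^ b ^^^ c,
  a ^^^ b ^^^ d, a ^^^ c ^^^ d, b ^^^ c ^^^ d, a ^^^ b ^^^ c ^^^ d]

theorem cb_map {f : ℕ → ℕ} (hx : ∀ a < 1024, ∀ b < 1024, f (a ^^^ b) = f a ^^^ f b)
    (hr : ∀ a < 1024, rk2 a = true → rk2 (f a) = true) {a b c d : ℕ} (ha : a < 1024) (hb : b < 1024) (hc : c < 1024)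
    (hd : d < 1024) (h : ∀ s ∈ cb a b c d, rk2 s = true) : ∀ s ∈ cb (f a) (f b) (f c) (f d), rk2 s = true := by
  have k : ∀ {x y}, x < 1024 → y < 1024 → x ^^^ y < 1024 := Nat.xor_lt_two_pow (n := 10)
  have k3 := k (k ha hb) hc
  have e : cb (f a) (f b) (f c) (f d) = (cb a b c d).map f := by
    simp only [cb, List.map, hx, k, ha, hb, hc, hd, k3]
  have l : ∀ s ∈ cb a b c d, s < 1024 := by
    simp only [cb, List.forall_mem_cons, k, ha, hb, hc, hd, k3, List.not_mem_nil, false_imp_iff, implies_true, and_self]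
  rw [e, List.forall_mem_map]
  exact fun s hs => hr s (l s hs) (h s hs)

theorem star {a b c d : ℕ} (ha : a < 1024) (hb : b < 1024) (hc : c < 1024) (hd : d < 1024)
    (h : ∀ s ∈ cb a b c d, rk2 s = true) : ∃ p < 32, p ≠ 0 ∧ ∀ s ∈ [a, b, c, d], ∃ v < 32, s = wg p v := by
  have h1 := h a (by simp [cb])
  obtain ⟨g, hg⟩ := conj_A (b := 1) ha (by norm_num) (rk2_iff.1 h1).1 one_ne_zero (h1.trans (by decide +kernel))
  have k := cb_map (f := ac (cd g)) (fun a _ b _ => ac_xor _ a b) (fun a ha e => (rk2_ac g ha).trans e) ha hb hc hd h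
  simp only [hg, cb, List.forall_mem_cons] at k
  obtain ⟨-, k1, k2, k3, k4, k5, k6, k7, k8, k9, k10, k11, k12, k13, k14, -⟩ := k
  obtain ⟨p, hp, e⟩ := nb_star _ (mem_nb _ (ac_lt _ _) k1 k4) _ (mem_nb _ (ac_lt _ _) k2 k5) k7 k10 _
    (mem_nb _ (ac_lt _ _) k3 k6) k8 k9 k11 k12 k13 k14
  have hp' : p < 4 ∧ p ≠ 0 := by revert hp; simp only [List.mem_cons, List.not_mem_nil, or_false]; omega
  refine ⟨ap (cd g⁻¹) p, ap_lt _ _, fun c => hp'.2 ?_, fun s hs => ?_⟩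
  · have := ap_cd_inv g⁻¹ (show p < 32 by omega)
    rw [c, ap_zero] at this
    exact this.symm
  have hs' : s < 1024 ∧ ac (cd g) s ∈ [1, ac (cd g) b, ac (cd g) c, ac (cd g) d] := by
    simp only [List.mem_cons, List.not_mem_nil, or_false] at hs ⊢
    rcases hs with rfl | rfl | rfl | rfl <;> simp [*]
  obtain ⟨v, hv, e'⟩ := of_stm p hp'.1 _ (ac_lt _ _) (e _ hs'.2)
  exact ⟨_, ap_lt _ _, by rw [← ac_wg _ _ (by omega) _ hv, ← e', ac_inv_ac _ hs'.1]⟩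

theorem basis : ∀ j < 5, ∃ t ∈ [(1, 2, 8, 64), (1, 4, 16, 128), (2, 4, 32, 256), (8, 16, 32, 512), (64, 128, 256, 512)],
    (t.1 < 1024 ∧ t.2.1 < 1024 ∧ t.2.2.1 < 1024 ∧ t.2.2.2 < 1024) ∧ (∀ s ∈ cb t.1 t.2.1 t.2.2.1 t.2.2.2, rk2 s = true) ∧
      ∀ k < 5, wg (2 ^ j) (2 ^ k) = 0 ∨ wg (2 ^ j) (2 ^ k) ∈ [t.1, t.2.1, t.2.2.1, t.2.2.2] := by decide +kernel

theorem pairs : ∀ j < 5, ∀ i < j, wg (2 ^ i) (2 ^ j) ≠ 0 ∧ ∃ k < 5, ∃ l < 5,
    wg (2 ^ i) (2 ^ k) ^^^ wg (2 ^ j) (2 ^ l) ≠ 0 ∧ rk2 (wg (2 ^ i) (2 ^ k) ^^^ wg (2 ^ j) (2 ^ l)) = false := by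
  decide +kernel

theorem wg_nz : ∀ v < 32, v = 0 ∨ ∃ u < 32, wg v u ≠ 0 := by decide +kernel

end Chow

open Chow in
theorem chow {f : ℕ → ℕ} (hl : ∀ a < 1024, f a < 1024) (hx : ∀ a < 1024, ∀ b < 1024, f (a ^^^ b) = f a ^^^ f b)
    (h0 : ∀ a < 1024, f a = 0 → a = 0) (hr : ∀ a < 1024, rk2 a = true → rk2 (f a) = true) :
    ∃ g : L5, ∀ a < 1024, f a = ac (cd g) a := by
  have f0 : f 0 = 0 := by simpa using hx 0 (by norm_num) 0 (by norm_num)
  have inj : ∀ a < 1024, ∀ b < 1024, f a = f b → a = b := fun a ha b hb e =>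
    Nat.eq_of_xor_eq_zero (h0 _ (Nat.xor_lt_two_pow (n := 10) ha hb) (by rw [hx a ha b hb, e, Nat.xor_self]))
  have refl : ∀ a < 1024, rk2 (f a) = true → rk2 a = true := fun a ha e => by
    have fin : {a | a < 1024 ∧ rk2 a = true}.Finite := (Set.finite_lt_nat 1024).subset fun _ h => h.1
    obtain ⟨b, hb, e'⟩ := ((fin.injOn_iff_bijOn_of_mapsTo (f := f) fun a h => ⟨hl a h.1, hr a h.1 h.2⟩).1
      fun a h b h' => inj a h.1 b h'.1).2.2 ⟨hl a ha, e⟩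
    exact inj b hb.1 a ha e' ▸ hb.2
  have p2 : ∀ {k}, k < 5 → 2 ^ k < 32 := fun hk => Nat.pow_lt_pow_right (n := 5) one_lt_two hk
  have ex : ∀ j, ∃ p, j < 5 → p < 32 ∧ p ≠ 0 ∧ ∀ k < 5, ∃ v < 32, f (wg (2 ^ j) (2 ^ k)) = wg p v := fun j => by
    by_cases hj : j < 5
    swap
    · exact ⟨0, fun h => absurd h hj⟩
    obtain ⟨t, -, ⟨a1, a2, a3, a4⟩, e1, e2⟩ := basis j hj
    obtain ⟨p, hp, p0, e⟩ := star (hl _ a1) (hl _ a2) (hl _ a3) (hl _ a4) (cb_map hx hr a1 a2 a3 a4 e1)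
    refine ⟨p, fun _ => ⟨hp, p0, fun k hk => (e2 k hk).elim (fun c => ⟨0, by norm_num, by rw [c, f0, wg_zero hp]⟩)
      fun c => e _ (List.mem_map_of_mem (f := f) c)⟩⟩
  choose P hP using ex
  have pr : ∀ j < 5, ∀ i < j, f (wg (2 ^ i) (2 ^ j)) = wg (P i) (P j) := fun j hj i hi => by
    obtain ⟨n0, k, hk, l, hl', n1, n2⟩ := pairs j hj i hi
    obtain ⟨a1, a2, a3⟩ := hP i (hi.trans hj)
    obtain ⟨b1, b2, b3⟩ := hP j hj
    obtain ⟨v, hv, e⟩ := a3 j hj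
    obtain ⟨w, hw, e'⟩ := b3 i (hi.trans hj)
    rw [wg_comm _ (p2 hj) _ (p2 (hi.trans hj)), e] at e'
    rcases inter _ b1 _ a1 v hv (e' ▸ stm_wg _ b1 w hw) with c | c | c | c
    · exact absurd (h0 _ (wg_lt _ (p2 (hi.trans hj)) _ (p2 hj)) (e.trans c)) n0
    · exact absurd c b2
    · obtain ⟨x, hx', e1⟩ := a3 k hk
      obtain ⟨y, hy, e2⟩ := b3 l hl'
      have l1 := wg_lt _ (p2 (hi.trans hj)) _ (p2 hk)
      have l2 := wg_lt _ (p2 hj) _ (p2 hl')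
      have l3 := Nat.xor_lt_two_pow (n := 10) l1 l2
      have := refl _ l3 (rk2_iff.2 ⟨fun c => n1 (h0 _ l3 c), _, a1, _, Nat.xor_lt_two_pow (n := 5) hx' hy, by
        rw [hx _ l1 _ l2, e1, e2, c, wg_xor _ a1 _ hx' _ hy]⟩)
      rw [n2] at this
      exact absurd this (by decide)
    · exact e.trans c
  obtain ⟨c0, c1, c2, c3, c4, c5⟩ := col_pk (hP 0 (by norm_num)).1 (hP 1 (by norm_num)).1 (hP 2 (by norm_num)).1
    (hP 3 (by norm_num)).1 (hP 4 (by norm_num)).1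
  generalize pk (P 0) (P 1) (P 2) (P 3) (P 4) = m at *
  have cm : ∀ j < 5, col m j = P j := fun j hj => by interval_cases j <;> assumption
  have fm : ∀ a < 1024, f a = ac m a := by
    refine xor_ind (n := 10) (by rw [f0, ac_zero]) (fun k hk => ?_) fun a ha b hb e1 e2 => by
      rw [hx a ha b hb, ac_xor, e1, e2]
    obtain ⟨j, hj, i, hi, rfl⟩ := exists_pair k hk
    rw [ac_basis _ hi hj, ← wg_basis j hj i hi, pr j hj i hi, cm j hj, cm i (hi.trans hj)]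
  have i5 : Set.InjOn (ap m) {v | v < 32} := fun v hv w hw e => by
    have l := Nat.xor_lt_two_pow (n := 5) hv hw
    rcases wg_nz _ l with c | ⟨u, hu, c⟩
    · exact Nat.eq_of_xor_eq_zero c
    · refine absurd (h0 _ (wg_lt _ l _ hu) ?_) c
      rw [fm _ (wg_lt _ l _ hu), ac_wg _ _ l _ hu, ap_xor, e, Nat.xor_self, zero_wg (ap_lt _ _)]
  have s5 := (((Set.finite_lt_nat 32).injOn_iff_bijOn_of_mapsTo fun v _ => ap_lt m v).1 i5).2.2
  have okm : ok m = true := ok_iff.2 ⟨c5, eq_of_col (mm_lt _ _) (by decide) fun j hj => by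
    obtain ⟨v, hv, e⟩ := s5 (p2 hj)
    rw [col_mm _ _ hj, col_mi _ hj, (pre_spec m _).2 ⟨v, hv, e⟩, ← ap_pow _ hj, ap_idm _ (p2 hj)]⟩
  exact ⟨el m, fun a ha => by rw [cd_el okm, fm a ha]⟩

end Cfsg.Agent.R20
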