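import Mathlib
import Cfsg.Agent.Spor.Comp.Basic

/-!
Codes for vectors (5 bits), matrices (25 bits, column `j` in bits `5j .. 5j+4`) and bivectors (10 bits; the bivector
`e_i ∧ e_j`, `i < j`, has the bit `j (j - 1) / 2 + i`) over the field with two elements.
-/

set_option autoImplicit false

namespace Cfsg.Agent.R20

open Cfsg.Agent.Spor

/-- Bit `i` of `x`. -/
def bt (x i : ℕ) : ℕ := Nat.land (Nat.shiftRight x i) 1
/-- Column `j` of a matrix code. -/
def col (m j : ℕ) : ℕ := Nat.land (Nat.shiftRight m (Nat.mul 5 j)) 31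
/-- The identity matrix. -/
def idm : ℕ := nat_lit 17043521

/-- A matrix applied to a vector. -/
noncomputable def ap (m v : ℕ) : ℕ := Spor.force m fun m => Spor.force v fun v =>
  (Nat.xor (Nat.xor (Nat.xor (Nat.xor (Nat.xor (nat_lit 0)
    (Nat.mul (Nat.land (Nat.shiftRight v (nat_lit 0)) (nat_lit 1)) (Nat.land (Nat.shiftRight m (nat_lit 0)) (nat_lit 31))))
    (Nat.mul (Nat.land (Nat.shiftRight v (nat_lit 1)) (nat_lit 1)) (Nat.land (Nat.shiftRight m (nat_lit 5)) (nat_lit 31))))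
    (Nat.mul (Nat.land (Nat.shiftRight v (nat_lit 2)) (nat_lit 1)) (Nat.land (Nat.shiftRight m (nat_lit 10)) (nat_lit 31))))
    (Nat.mul (Nat.land (Nat.shiftRight v (nat_lit 3)) (nat_lit 1)) (Nat.land (Nat.shiftRight m (nat_lit 15)) (nat_lit 31))))
    (Nat.mul (Nat.land (Nat.shiftRight v (nat_lit 4)) (nat_lit 1)) (Nat.land (Nat.shiftRight m (nat_lit 20)) (nat_lit 31))))

/-- The matrix with the given columns. -/
def pk (a b c d e : ℕ) : ℕ := Nat.add a (Nat.mul 32 (Nat.add b (Nat.mul 32 (Nat.add c (Nat.mul 32 (Nat.add d (Nat.mul 32 e)))))))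

/-- The product of two matrices. -/
noncomputable def mm (m n : ℕ) : ℕ := Spor.force m fun m => Spor.force n fun n =>
  pk (ap m (col n 0)) (ap m (col n 1)) (ap m (col n 2)) (ap m (col n 3)) (ap m (col n 4))

/-- The part of `u ∧ v` with larger index `j`; `k = 2 ^ j - 1`. -/
def wp (u v j k : ℕ) : ℕ := Nat.xor (Nat.mul (bt v j) (Nat.land u k)) (Nat.mul (bt u j) (Nat.land v k))

/-- The exterior product of two vectors. -/
noncomputable def wg (u v : ℕ) : ℕ := Spor.force u fun u => Spor.force v fun v =>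
  Nat.add (wp u v 1 1) (Nat.mul 2 (Nat.add (wp u v 2 3) (Nat.mul 4 (Nat.add (wp u v 3 7) (Nat.mul 8 (wp u v 4 15))))))

/-- The matrix (10 fields of 10 bits) of the action on bivectors. -/
noncomputable def mx (m : ℕ) : ℕ := Spor.force m fun m => Spor.force (col m 0) fun a => Spor.force (col m 1) fun b =>
  Spor.force (col m 2) fun c => Spor.force (col m 3) fun d => Spor.force (col m 4) fun e =>
  Nat.add (wg a b) (Nat.mul 1024 (Nat.add (wg a c) (Nat.mul 1024 (Nat.add (wg b c) (Nat.mul 1024 (Nat.add (wg a d)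
  (Nat.mul 1024 (Nat.add (wg b d) (Nat.mul 1024 (Nat.add (wg c d) (Nat.mul 1024 (Nat.add (wg a e) (Nat.mul 1024
  (Nat.add (wg b e) (Nat.mul 1024 (Nat.add (wg c e) (Nat.mul 1024 (wg d e))))))))))))))))))

/-- A matrix with 10 columns applied to a bivector. -/
noncomputable def apm (M x : ℕ) : ℕ := Spor.force M fun M => Spor.force x fun x =>
  (Nat.xor (Nat.xor (Nat.xor (Nat.xor (Nat.xor (Nat.xor (Nat.xor (Nat.xor (Nat.xor (Nat.xor (nat_lit 0)
    (Nat.mul (Nat.land (Nat.shiftRight x (nat_lit 0)) (nat_lit 1)) (Nat.land (Nat.shiftRight M (nat_lit 0)) (nat_lit 1023))))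
    (Nat.mul (Nat.land (Nat.shiftRight x (nat_lit 1)) (nat_lit 1)) (Nat.land (Nat.shiftRight M (nat_lit 10)) (nat_lit 1023))))
    (Nat.mul (Nat.land (Nat.shiftRight x (nat_lit 2)) (nat_lit 1)) (Nat.land (Nat.shiftRight M (nat_lit 20)) (nat_lit 1023))))
    (Nat.mul (Nat.land (Nat.shiftRight x (nat_lit 3)) (nat_lit 1)) (Nat.land (Nat.shiftRight M (nat_lit 30)) (nat_lit 1023))))
    (Nat.mul (Nat.land (Nat.shiftRight x (nat_lit 4)) (nat_lit 1)) (Nat.land (Nat.shiftRight M (nat_lit 40)) (nat_lit 1023))))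
    (Nat.mul (Nat.land (Nat.shiftRight x (nat_lit 5)) (nat_lit 1)) (Nat.land (Nat.shiftRight M (nat_lit 50)) (nat_lit 1023))))
    (Nat.mul (Nat.land (Nat.shiftRight x (nat_lit 6)) (nat_lit 1)) (Nat.land (Nat.shiftRight M (nat_lit 60)) (nat_lit 1023))))
    (Nat.mul (Nat.land (Nat.shiftRight x (nat_lit 7)) (nat_lit 1)) (Nat.land (Nat.shiftRight M (nat_lit 70)) (nat_lit 1023))))
    (Nat.mul (Nat.land (Nat.shiftRight x (nat_lit 8)) (nat_lit 1)) (Nat.land (Nat.shiftRight M (nat_lit 80)) (nat_lit 1023))))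
    (Nat.mul (Nat.land (Nat.shiftRight x (nat_lit 9)) (nat_lit 1)) (Nat.land (Nat.shiftRight M (nat_lit 90)) (nat_lit 1023))))

/-- The action on bivectors. In kernel checks write `Spor.force (mx m) fun M => ... apm M x ...`. -/
noncomputable def ac (m x : ℕ) : ℕ := apm (mx m) x

/-- A vector with image `t` (the largest one, or `0`). -/
noncomputable def pre (m t : ℕ) : ℕ := Spor.force m fun m => Spor.force t fun t =>
  Nat.rec (motive := fun _ => ℕ) 0 (fun v r => Bool.rec r v (Nat.beq (ap m v) t)) 32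

/-- The inverse matrix. -/
noncomputable def mi (m : ℕ) : ℕ := Spor.force m fun m => pk (pre m 1) (pre m 2) (pre m 4) (pre m 8) (pre m 16)

/-- The code of an invertible matrix. -/
noncomputable def ok (m : ℕ) : Bool := Spor.force m fun m => band (blt m 33554432) (Nat.beq (mm m (mi m)) idm)

/-! ### Linear maps -/

/-- The sum of the fields `k < n` of `M` with bit `k` of `x` set. -/
def lin (w M x : ℕ) : ℕ → ℕ
  | 0 => 0
  | k + 1 => lin w M x k ^^^ bt x k * ((M >>> (w * k)) &&& (2 ^ w - 1))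

theorem ap_eq (m v : ℕ) : ap m v = lin 5 m v 5 := by simp only [ap, Spor.force_eq]; rfl
theorem apm_eq (M x : ℕ) : apm M x = lin 10 M x 10 := by simp only [apm, Spor.force_eq]; rfl

theorem bt_eq (x i : ℕ) : bt x i = if x.testBit i then 1 else 0 := by
  change x >>> i &&& 1 = _
  rw [Nat.and_one_is_mod, Nat.shiftRight_eq_div_pow, Nat.testBit_eq_decide_div_mod_eq]
  rcases Nat.mod_two_eq_zero_or_one (x / 2 ^ i) with h | h <;> simp [h]

theorem col_eq (m j : ℕ) : col m j = m / 32 ^ j % 32 := by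
  change m >>> (5 * j) &&& (2 ^ 5 - 1) = _
  rw [Nat.and_two_pow_sub_one_eq_mod, Nat.shiftRight_eq_div_pow, pow_mul]; rfl

theorem col_lt (m j : ℕ) : col m j < 32 := by rw [col_eq]; exact Nat.mod_lt _ (by norm_num)

theorem testBit_col (m j i : ℕ) (hi : i < 5) : (col m j).testBit i = m.testBit (5 * j + i) := by
  change (m >>> (5 * j) &&& (2 ^ 5 - 1)).testBit i = _
  simp [hi, Nat.testBit_shiftRight, Nat.testBit_mod_two_pow, -Nat.reducePow]

theorem lin_xor (w M x y n : ℕ) : lin w M (x ^^^ y) n = lin w M x n ^^^ lin w M y n := by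
  induction n with
  | zero => simp [lin]
  | succ k ih =>
    simp only [lin, ih, bt_eq, Nat.testBit_xor]
    cases x.testBit k <;> cases y.testBit k <;> simp [Nat.xor_assoc, Nat.xor_left_comm, Nat.xor_comm]

theorem lin_lt (w M x n : ℕ) : lin w M x n < 2 ^ w := by
  induction n with
  | zero => simp [lin]
  | succ k ih =>
    refine Nat.xor_lt_two_pow ih ?_
    rw [bt_eq, Nat.and_two_pow_sub_one_eq_mod]
    split_ifs
    · rw [one_mul]; exact Nat.mod_lt _ (by positivity)
    · simp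

theorem lin_pow (w M k n : ℕ) : lin w M (2 ^ k) n = if k < n then (M >>> (w * k)) &&& (2 ^ w - 1) else 0 := by
  induction n with
  | zero => simp [lin]
  | succ j ih =>
    simp only [lin, ih, bt_eq, Nat.testBit_two_pow]
    rcases lt_trichotomy k j with h | rfl | h
    · simp [h, h.ne, h.trans j.lt_succ_self]
    · simp
    · simp [h.not_gt, h.ne', show ¬ k < j + 1 by omega]

/-- Induction over the numbers below `2 ^ n` as a vector space. -/
theorem xor_ind {n : ℕ} {P : ℕ → Prop} (h0 : P 0) (hb : ∀ k < n, P (2 ^ k))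
    (hx : ∀ a < 2 ^ n, ∀ b < 2 ^ n, P a → P b → P (a ^^^ b)) : ∀ a < 2 ^ n, P a := by
  have key : ∀ k ≤ n, ∀ a < 2 ^ k, P a := fun k => by
    induction k with
    | zero => intro _ a ha; obtain rfl : a = 0 := by simpa using ha
              exact h0
    | succ k ih =>
      intro hk a ha
      by_cases h : a < 2 ^ k
      · exact ih (by omega) a h
      · have h1 : a ^^^ 2 ^ k < 2 ^ k := Nat.lt_pow_two_of_testBit _ fun i hi => by
          rw [Nat.testBit_xor, Nat.testBit_two_pow]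
          rcases hi.lt_or_eq with h2 | rfl
          · simp [h2.ne, Nat.testBit_lt_two_pow (ha.trans_le (Nat.pow_le_pow_right two_pos h2))]
          · simp [Nat.testBit_of_two_pow_le_and_two_pow_add_one_gt (not_lt.1 h) ha]
        have h2 : 2 ^ k < 2 ^ n := Nat.pow_lt_pow_right one_lt_two hk
        simpa using hx _ (h1.trans h2) _ h2 (ih (by omega) _ h1) (hb k hk)
  exact key n le_rfl

theorem ap_xor (m u v : ℕ) : ap m (u ^^^ v) = ap m u ^^^ ap m v := by simp only [ap_eq, lin_xor]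
theorem ap_lt (m v : ℕ) : ap m v < 32 := ap_eq m v ▸ lin_lt 5 m v 5
theorem ap_zero (m : ℕ) : ap m 0 = 0 := by simpa using ap_xor m 0 0
theorem ap_pow (m : ℕ) {k : ℕ} (hk : k < 5) : ap m (2 ^ k) = col m k := by rw [ap_eq, lin_pow, if_pos hk]; rfl
theorem ac_xor (m a b : ℕ) : ac m (a ^^^ b) = ac m a ^^^ ac m b := by simp only [ac, apm_eq, lin_xor]
theorem ac_lt (m a : ℕ) : ac m a < 1024 := by rw [ac, apm_eq]; exact lin_lt 10 _ a 10
theorem ac_zero (m : ℕ) : ac m 0 = 0 := by simpa using ac_xor m 0 0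

theorem wg_lt : ∀ u < 32, ∀ v < 32, wg u v < 1024 := by
  have : allLt 32 (fun u => allLt 32 fun v => blt (wg u v) 1024) = true := by decide +kernel
  simpa only [allLt_iff, blt_iff] using this
theorem wg_comm : ∀ u < 32, ∀ v < 32, wg u v = wg v u := by
  have : allLt 32 (fun u => allLt 32 fun v => Nat.beq (wg u v) (wg v u)) = true := by decide +kernel
  simpa only [allLt_iff, nbeq_iff] using this
theorem wg_self : ∀ u < 32, wg u u = 0 := by
  have : allLt 32 (fun u => Nat.beq (wg u u) 0) = true := by decide +kernel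
  simpa only [allLt_iff, nbeq_iff] using this
theorem wg_xor : ∀ u < 32, ∀ v < 32, ∀ w < 32, wg u (v ^^^ w) = wg u v ^^^ wg u w := by
  have : allLt 32 (fun u => allLt 32 fun v => Spor.force (wg u v) fun c => allLt 32 fun w =>
    Nat.beq (wg u (Nat.xor v w)) (Nat.xor c (wg u w))) = true := by decide +kernel
  simpa only [allLt_iff, nbeq_iff, Spor.force_eq, Nat.xor_eq] using this
theorem xor_wg {u v w : ℕ} (hu : u < 32) (hv : v < 32) (hw : w < 32) : wg (v ^^^ w) u = wg v u ^^^ wg w u := by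
  rw [wg_comm _ (Nat.xor_lt_two_pow (n := 5) hv hw) _ hu, wg_xor _ hu _ hv _ hw, wg_comm _ hu _ hv, wg_comm _ hu _ hw]
theorem wg_zero {u : ℕ} (hu : u < 32) : wg u 0 = 0 := by simpa using wg_xor u hu 0 (by norm_num) 0 (by norm_num)
theorem zero_wg {u : ℕ} (hu : u < 32) : wg 0 u = 0 := by rw [wg_comm 0 (by norm_num) u hu, wg_zero hu]

theorem col_pk {a b c d e : ℕ} (ha : a < 32) (hb : b < 32) (hc : c < 32) (hd : d < 32) (he : e < 32) :
    col (pk a b c d e) 0 = a ∧ col (pk a b c d e) 1 = b ∧ col (pk a b c d e) 2 = c ∧ col (pk a b c d e) 3 = d ∧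
      col (pk a b c d e) 4 = e ∧ pk a b c d e < 33554432 := by
  simp only [col_eq, pk, Nat.add_eq, Nat.mul_eq, Nat.reducePow]
  omega

theorem eq_of_col {m n : ℕ} (hm : m < 33554432) (hn : n < 33554432) (h : ∀ j < 5, col m j = col n j) : m = n := by
  have h0 := h 0 (by norm_num); have h1 := h 1 (by norm_num); have h2 := h 2 (by norm_num)
  have h3 := h 3 (by norm_num); have h4 := h 4 (by norm_num)
  simp only [col_eq, Nat.reducePow] at h0 h1 h2 h3 h4
  omega

theorem col_mm (m n : ℕ) {j : ℕ} (hj : j < 5) : col (mm m n) j = ap m (col n j) := by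
  have := col_pk (ap_lt m (col n 0)) (ap_lt m (col n 1)) (ap_lt m (col n 2)) (ap_lt m (col n 3)) (ap_lt m (col n 4))
  simp only [mm, Spor.force_eq]
  interval_cases j
  exacts [this.1, this.2.1, this.2.2.1, this.2.2.2.1, this.2.2.2.2.1]

theorem mm_lt (m n : ℕ) : mm m n < 33554432 := by
  simp only [mm, Spor.force_eq]
  exact (col_pk (ap_lt _ _) (ap_lt _ _) (ap_lt _ _) (ap_lt _ _) (ap_lt _ _)).2.2.2.2.2

theorem ap_mm (m n : ℕ) : ∀ v < 32, ap (mm m n) v = ap m (ap n v) :=
  xor_ind (n := 5) (by simp only [ap_zero]) (fun k hk => by rw [ap_pow _ hk, ap_pow _ hk, col_mm _ _ hk])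
    fun a _ b _ ha hb => by simp only [ap_xor, ha, hb]

theorem ap_idm : ∀ v < 32, ap idm v = v := by
  have : allLt 32 (fun u => Nat.beq (ap idm u) u) = true := by decide +kernel
  simpa only [allLt_iff, nbeq_iff] using this
theorem ac_idm : ∀ a < 1024, ac idm a = a := by
  have : (Spor.force (mx idm) fun M => allLt 1024 (fun u => Nat.beq (apm M u) u)) = true := by decide +kernel
  simpa only [allLt_iff, nbeq_iff, Spor.force_eq, ac] using this

theorem ac_basis (m : ℕ) {i j : ℕ} (hij : i < j) (hj : j < 5) :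
    ac m (2 ^ (j * (j - 1) / 2 + i)) = wg (col m i) (col m j) := by
  have h := fun i j => wg_lt _ (col_lt m i) _ (col_lt m j)
  have h01 := h 0 1; have h02 := h 0 2; have h12 := h 1 2; have h03 := h 0 3; have h13 := h 1 3
  have h23 := h 2 3; have h04 := h 0 4; have h14 := h 1 4; have h24 := h 2 4; have h34 := h 3 4
  rw [ac, apm_eq, lin_pow, Nat.and_two_pow_sub_one_eq_mod, Nat.shiftRight_eq_div_pow]
  simp only [mx, Spor.force_eq, Nat.add_eq, Nat.mul_eq]
  interval_cases j <;> interval_cases i <;> norm_num <;> omega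

theorem wg_basis : ∀ j < 5, ∀ i < j, wg (2 ^ i) (2 ^ j) = 2 ^ (j * (j - 1) / 2 + i) := by decide +kernel

theorem ac_wg (m : ℕ) : ∀ u < 32, ∀ v < 32, ac m (wg u v) = wg (ap m u) (ap m v) := by
  refine xor_ind (n := 5) (fun v hv => by rw [zero_wg hv, ac_zero, ap_zero, zero_wg (ap_lt _ _)]) (fun i hi => ?_)
    fun a ha b hb h1 h2 v hv => by
      rw [xor_wg hv ha hb, ac_xor, h1 v hv, h2 v hv, ap_xor, xor_wg (ap_lt _ _) (ap_lt _ _) (ap_lt _ _)]
  have hi' : 2 ^ i < 32 := Nat.pow_lt_pow_right (m := i) (n := 5) one_lt_two hi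
  refine xor_ind (n := 5) (by rw [wg_zero hi', ac_zero, ap_zero, wg_zero (ap_lt _ _)]) (fun j hj => ?_)
    fun a ha b hb h1 h2 => by
      rw [wg_xor _ hi' _ ha _ hb, ac_xor, h1, h2, ap_xor, wg_xor _ (ap_lt _ _) _ (ap_lt _ _) _ (ap_lt _ _)]
  have hj' : 2 ^ j < 32 := Nat.pow_lt_pow_right (m := j) (n := 5) one_lt_two hj
  rcases lt_trichotomy i j with h | rfl | h
  · rw [wg_basis j hj i h, ac_basis m h hj, ap_pow _ hi, ap_pow _ hj]
  · rw [wg_self _ hi', ac_zero, wg_self _ (ap_lt _ _)]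
  · rw [wg_comm _ hi' _ hj', wg_basis i hi j h, ac_basis m h hi, ap_pow _ hi, ap_pow _ hj,
      wg_comm _ (col_lt _ _) _ (col_lt _ _)]

theorem ac_mm (m n : ℕ) : ∀ a < 1024, ac (mm m n) a = ac m (ac n a) := by
  refine xor_ind (n := 10) (by simp only [ac_zero]) (fun k hk => ?_) fun a _ b _ ha hb => by simp only [ac_xor, ha, hb]
  obtain ⟨j, hj, i, hi, rfl⟩ : ∃ j < 5, ∃ i < j, k = j * (j - 1) / 2 + i := by revert k; decide
  rw [ac_basis _ hi hj, ac_basis _ hi hj, ac_wg _ _ (col_lt _ _) _ (col_lt _ _), col_mm _ _ hj,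
    col_mm _ _ (hi.trans hj)]

/-! ### Matrices -/

/-- The special linear group. -/
abbrev L5 : Type := Matrix.SpecialLinearGroup (Fin 5) (ZMod 2)

/-- The matrix of a code. -/
def mat (m : ℕ) : Matrix (Fin 5) (Fin 5) (ZMod 2) := fun i j => if m.testBit (5 * j + i) then 1 else 0

/-- The code of a matrix. -/
def cd (g : L5) : ℕ := Nat.ofBits (n := 25) fun k => decide (g.1 ⟨k % 5, Nat.mod_lt _ (by norm_num)⟩ ⟨k / 5, by omega⟩ = 1)

theorem cd_lt (g : L5) : cd g < 33554432 := Nat.ofBits_lt_two_pow _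

theorem testBit_cd (g : L5) (i j : Fin 5) : (cd g).testBit (5 * j + i) = decide (g.1 i j = 1) := by
  rw [cd, Nat.testBit_ofBits_lt _ _ (by omega)]
  have h1 : (5 * j.val + i.val) % 5 = i := by omega
  have h2 : (5 * j.val + i.val) / 5 = j := by omega
  simp only [h1, h2]

theorem mat_cd (g : L5) : mat (cd g) = g.1 := by
  ext i j
  simp only [mat, testBit_cd, decide_eq_true_eq]
  generalize g.1 i j = x
  revert x; decide

theorem mat_inj {m n : ℕ} (hm : m < 33554432) (hn : n < 33554432) (h : mat m = mat n) : m = n :=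
  Nat.eq_of_testBit_eq fun k => by
    by_cases hk : k < 25
    · have := congrFun (congrFun h ⟨k % 5, Nat.mod_lt _ (by norm_num)⟩) ⟨k / 5, by omega⟩
      simp only [mat, Nat.div_add_mod] at this
      revert this
      cases m.testBit k <;> cases n.testBit k <;> decide
    · have h2 : 2 ^ 25 ≤ 2 ^ k := Nat.pow_le_pow_right two_pos (not_lt.1 hk)
      rw [Nat.testBit_lt_two_pow (hm.trans_le h2), Nat.testBit_lt_two_pow (hn.trans_le h2)]

theorem cd_inj {g h : L5} (e : cd g = cd h) : g = h := Subtype.ext (by rw [← mat_cd, e, mat_cd])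

theorem mat_mm (m n : ℕ) : mat (mm m n) = mat m * mat n := by
  ext i j
  have e : ∀ k : Fin 5, mat n k j = if (col n j).testBit k then 1 else 0 := fun k => by rw [testBit_col _ _ _ k.2]; rfl
  have e' : ∀ k : Fin 5, mat m i k = if (col m k).testBit i then 1 else 0 := fun k => by rw [testBit_col _ _ _ i.2]; rfl
  rw [Matrix.mul_apply, mat, ← testBit_col _ _ _ i.2, col_mm _ _ j.2]
  simp only [e, e']
  refine xor_ind (n := 5) (P := fun v => (if (ap m v).testBit i then (1 : ZMod 2) else 0) =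
    ∑ k : Fin 5, (if (col m k).testBit i then 1 else 0) * if v.testBit k then 1 else 0) (by simp [ap_zero])
    (fun k hk => ?_) (fun a _ b _ ha hb => ?_) _ (col_lt n j)
  · rw [ap_pow _ hk, Finset.sum_eq_single ⟨k, hk⟩ (fun b _ hb => by
      simp [show k ≠ b from fun e => hb (Fin.ext e.symm)]) (by simp)]
    simp
  · have x : ∀ p q : Bool, (if (p ^^ q) then (1 : ZMod 2) else 0) = (if p then 1 else 0) + if q then 1 else 0 := by decide
    simp only [ap_xor, Nat.testBit_xor, x, ha, hb, mul_add, Finset.sum_add_distrib]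

theorem mat_idm : mat idm = 1 := by decide +kernel

theorem cd_mul (g h : L5) : cd (g * h) = mm (cd g) (cd h) :=
  mat_inj (cd_lt _) (mm_lt _ _) (by rw [mat_mm, mat_cd, mat_cd, mat_cd]; rfl)

theorem cd_one : cd 1 = idm := mat_inj (cd_lt _) (by decide) (by rw [mat_cd, mat_idm]; rfl)

theorem ap_cd_inv (g : L5) {v : ℕ} (hv : v < 32) : ap (cd g⁻¹) (ap (cd g) v) = v := by
  rw [← ap_mm _ _ _ hv, ← cd_mul, inv_mul_cancel, cd_one, ap_idm _ hv]

theorem pre_spec (m t : ℕ) : pre m t < 32 ∧ ((∃ v < 32, ap m v = t) → ap m (pre m t) = t) := by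
  simp only [pre, Spor.force_eq]
  generalize hn : 32 = n
  have : ∀ k : ℕ, ∀ r, r = Nat.rec (motive := fun _ => ℕ) 0 (fun v r => Bool.rec r v (Nat.beq (ap m v) t)) k →
      (r < k ∨ r = 0) ∧ ((∃ v < k, ap m v = t) → ap m r = t) := fun k => by
    induction k with
    | zero => rintro _ rfl; simp
    | succ k ih =>
      rintro _ rfl
      obtain ⟨h1, h2⟩ := ih _ rfl
      cases h : Nat.beq (ap m k) t
      · simp only [h]
        refine ⟨h1.imp_left fun h => h.trans k.lt_succ_self, fun ⟨v, hv, e⟩ => h2 ⟨v, ?_, e⟩⟩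
        refine lt_of_le_of_ne (Nat.lt_succ_iff.1 hv) ?_
        rintro rfl
        simp [e] at h
      · simp only [h]
        exact ⟨Or.inl k.lt_succ_self, fun _ => Nat.eq_of_beq_eq_true h⟩
  exact ⟨(this n _ rfl).1.elim id fun h => by rw [h]; omega, (this n _ rfl).2⟩

theorem col_mi (m : ℕ) {j : ℕ} (hj : j < 5) : col (mi m) j = pre m (2 ^ j) := by
  have := col_pk (pre_spec m 1).1 (pre_spec m 2).1 (pre_spec m 4).1 (pre_spec m 8).1 (pre_spec m 16).1
  simp only [mi, Spor.force_eq]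
  interval_cases j
  exacts [this.1, this.2.1, this.2.2.1, this.2.2.2.1, this.2.2.2.2.1]

theorem cd_inv (g : L5) : cd g⁻¹ = mi (cd g) := by
  refine eq_of_col (cd_lt _) (by
    simp only [mi, Spor.force_eq]
    exact (col_pk (pre_spec _ 1).1 (pre_spec _ 2).1 (pre_spec _ 4).1 (pre_spec _ 8).1 (pre_spec _ 16).1).2.2.2.2.2)
    fun j hj => ?_
  have hj' : 2 ^ j < 32 := Nat.pow_lt_pow_right (m := j) (n := 5) one_lt_two hj
  rw [col_mi _ hj, ← ap_pow _ hj, ← ap_cd_inv g (pre_spec (cd g) (2 ^ j)).1,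
    (pre_spec (cd g) (2 ^ j)).2 ⟨_, ap_lt _ _, by simpa using ap_cd_inv g⁻¹ hj'⟩]

theorem ok_iff {m : ℕ} : ok m = true ↔ m < 33554432 ∧ mm m (mi m) = idm := by
  simp only [ok, Spor.force_eq, band_iff, blt_iff, nbeq_iff]

theorem ok_cd (g : L5) : ok (cd g) = true := ok_iff.2 ⟨cd_lt g, by rw [← cd_inv, ← cd_mul, mul_inv_cancel, cd_one]⟩

/-- The matrix with code `m`. -/
def el0 (m : ℕ) (h : ok m = true) : L5 := ⟨mat m, by
  have := congrArg (fun x => (mat x).det) (ok_iff.1 h).2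
  simp only [mat_mm, mat_idm, Matrix.det_mul, Matrix.det_one] at this
  revert this
  generalize (mat m).det = x
  generalize (mat (mi m)).det = y
  revert x y; decide⟩

/-- The matrix with code `m`, if `ok m`. -/
noncomputable def el (m : ℕ) : L5 := if h : ok m = true then el0 m h else 1

theorem cd_el {m : ℕ} (h : ok m = true) : cd (el m) = m :=
  mat_inj (cd_lt _) (ok_iff.1 h).1 (by rw [mat_cd, el, dif_pos h]; rfl)

theorem el_cd (g : L5) : el (cd g) = g := cd_inj (cd_el (ok_cd g))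

theorem ac_mul (g h : L5) {a : ℕ} (ha : a < 1024) : ac (cd (g * h)) a = ac (cd g) (ac (cd h) a) := by
  rw [cd_mul, ac_mm _ _ _ ha]

theorem ap_mul (g h : L5) {v : ℕ} (hv : v < 32) : ap (cd (g * h)) v = ap (cd g) (ap (cd h) v) := by
  rw [cd_mul, ap_mm _ _ _ hv]

theorem ac_one {a : ℕ} (ha : a < 1024) : ac (cd 1) a = a := by rw [cd_one, ac_idm _ ha]

theorem ac_inv_ac (g : L5) {a : ℕ} (ha : a < 1024) : ac (cd g⁻¹) (ac (cd g) a) = a := by
  rw [← ac_mul _ _ ha, inv_mul_cancel, ac_one ha]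

end Cfsg.Agent.R20
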