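import Mathlib
import Cfsg.Agent.R20.Bas

/-!
Calculus in an extension of the exterior square by `L5`.
-/

set_option autoImplicit false

namespace Cfsg.Agent.R20

variable {N : Type*} [Group N]

/-- The sum of the images of `a` under the first `k` powers of `m`. -/
noncomputable def nm (m a : ℕ) : ℕ → ℕ
  | 0 => 0
  | k + 1 => a ^^^ ac m (nm m a k)

theorem xl {a b : ℕ} (ha : a < 1024) (hb : b < 1024) : a ^^^ b < 1024 := Nat.xor_lt_two_pow (n := 10) ha hb

namespace Ex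

variable (X : Ex N) {a b : ℕ} {n m : N}

theorem σ_e (ha : a < 1024) : X.σ (X.e a) = 1 := (X.ker _).2 ⟨a, ha, rfl⟩

theorem e_zero : X.e 0 = 1 := by simpa using X.xor 0 (by norm_num) 0 (by norm_num)

theorem e_sq (ha : a < 1024) : X.e a * X.e a = 1 := by rw [← X.xor a ha a ha, Nat.xor_self, X.e_zero]

theorem e_inv (ha : a < 1024) : (X.e a)⁻¹ = X.e a := inv_eq_of_mul_eq_one_right (X.e_sq ha)

theorem e_comm (ha : a < 1024) (hb : b < 1024) : X.e a * X.e b = X.e b * X.e a := by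
  rw [← X.xor a ha b hb, ← X.xor b hb a ha, Nat.xor_comm]

theorem e_inj (ha : a < 1024) (hb : b < 1024) (h : X.e a = X.e b) : a = b :=
  Nat.xor_eq_zero_iff.1 (X.inj _ (xl ha hb) (by rw [X.xor a ha b hb, h, X.e_sq hb]))

theorem mul_e (n : N) (ha : a < 1024) : n * X.e a = X.e (ac (cd (X.σ n)) a) * n := by
  rw [← X.act n a ha, inv_mul_cancel_right]

theorem mul_e' (n : N) (ha : a < 1024) (y : N) : n * (X.e a * y) = X.e (ac (cd (X.σ n)) a) * (n * y) := by
  rw [← mul_assoc, X.mul_e n ha, mul_assoc]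

theorem e_e (ha : a < 1024) (hb : b < 1024) (y : N) : X.e a * (X.e b * y) = X.e (a ^^^ b) * y := by
  rw [X.xor a ha b hb, mul_assoc]

theorem σ_e_mul (ha : a < 1024) (n : N) : X.σ (X.e a * n) = X.σ n := by rw [map_mul, X.σ_e ha, one_mul]

theorem exists_e (h : X.σ n = X.σ m) : ∃ a < 1024, n = X.e a * m := by
  obtain ⟨a, ha, e⟩ := (X.ker (n * m⁻¹)).1 (by rw [map_mul, map_inv, h, mul_inv_cancel])
  exact ⟨a, ha, by rw [← e, inv_mul_cancel_right]⟩

theorem e_mul_inj (ha : a < 1024) (hb : b < 1024) (h : X.e a * n = X.e b * n) : a = b := X.e_inj ha hb (mul_right_cancel h)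

theorem e_mul_mul (ha : a < 1024) (hb : b < 1024) (n m : N) :
    X.e a * n * (X.e b * m) = X.e (a ^^^ ac (cd (X.σ n)) b) * (n * m) := by
  rw [mul_assoc, X.mul_e' n hb, X.e_e ha (ac_lt _ _)]

theorem conj_e_mul (n : N) (ha : a < 1024) (m : N) :
    n * (X.e a * m) * n⁻¹ = X.e (ac (cd (X.σ n)) a) * (n * m * n⁻¹) := by
  rw [X.mul_e' n ha, mul_assoc]

theorem e_conj (ha : a < 1024) (n : N) : X.e a * n * (X.e a)⁻¹ = X.e (a ^^^ ac (cd (X.σ n)) a) * n := by
  rw [X.e_inv ha, mul_assoc, X.mul_e n ha, X.e_e ha (ac_lt _ _)]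

theorem e_mul_pow (ha : a < 1024) (n : N) (k : ℕ) :
    nm (cd (X.σ n)) a k < 1024 ∧ (X.e a * n) ^ k = X.e (nm (cd (X.σ n)) a k) * n ^ k := by
  induction k with
  | zero => exact ⟨by simp [nm], by simp [nm, X.e_zero]⟩
  | succ k ih => exact ⟨xl ha (ac_lt _ _), by rw [pow_succ', ih.2, X.e_mul_mul ha ih.1, ← pow_succ']; rfl⟩

theorem fix_of_comm (ha : a < 1024) (h : n * X.e a = X.e a * n) : ac (cd (X.σ n)) a = a :=
  X.e_mul_inj (ac_lt _ _) ha ((X.mul_e n ha).symm.trans h)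

end Ex

end Cfsg.Agent.R20
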