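import Mathlib
import Cfsg.Agent.R20.Gen
import Cfsg.Agent.R20.Jk

/-! Elementary abelian subgroups of `T`. -/

set_option autoImplicit false

namespace Cfsg.Agent.R20

open Cfsg.Agent.Spor Cfsg.Agent.Inv.Fz Subgroup Jk

namespace Jk

theorem rr_mem_Ai {i : Fin 3} {ζ w u : ℕ} (hζ : ζ < 64) (hw : w < 16) (hu : u < 16) : rr ζ w u ∈ Ai i ↔ inA i w u := by
  rw [mem_Ai]
  constructor
  · rintro ⟨ζ', hζ', v, hv, e⟩
    obtain ⟨-, rfl, rfl⟩ := rr_inj hζ hw hu hζ' (wu_lt i hv).1 (wu_lt i hv).2 e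
    fin_cases i <;> rfl
  · intro h
    fin_cases i
    · exact ⟨ζ, hζ, w, hw, by rw [show u = 0 from h]; rfl⟩
    · exact ⟨ζ, hζ, u, hu, by rw [show w = 0 from h]; rfl⟩
    · exact ⟨ζ, hζ, u, hu, by rw [show w = u from h]; rfl⟩

theorem x6 {a b : ℕ} (ha : a < 64) (hb : b < 64) : a ^^^ b < 64 := Nat.xor_lt_two_pow (n := 6) ha hb
theorem x4 {a b : ℕ} (ha : a < 16) (hb : b < 16) : a ^^^ b < 16 := Nat.xor_lt_two_pow (n := 4) ha hb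

theorem rr_sq {ζ w u : ℕ} (hζ : ζ < 64) (hw : w < 16) (hu : u < 16) (h : rr ζ w u * rr ζ w u = 1) : wg w u = 0 := by
  rw [rr_mul hζ hw hu hζ hw hu, ← e_zero, ← rr_zero] at h
  simpa using (rr_inj (x6 (x6 hζ hζ) (wg_lt64 _ hw _ hu)) (x4 hw hw) (x4 hu hu) (by norm_num) (by norm_num)
    (by norm_num) h).1

theorem rr_div {ζ ζ' w u : ℕ} (hζ : ζ < 64) (hζ' : ζ' < 64) (hw : w < 16) (hu : u < 16) (h : rr ζ' w u * rr ζ' w u = 1) :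
    rr ζ w u * (rr ζ' w u)⁻¹ ∈ Z := by
  rw [inv_eq_of_mul_eq_one_right h, rr_mul hζ hw hu hζ' hw hu, Nat.xor_self, Nat.xor_self, rr_zero]
  exact mem_Z.2 ⟨_, x6 (x6 hζ hζ') (wg_lt64 _ hw _ hu), rfl⟩

theorem card_split {G : Type*} [Group G] (H K : Subgroup G) : Nat.card K = Nat.card ↥(H ⊓ K) * H.relIndex K := by
  rw [← inf_relIndex_right, card_mul_relIndex inf_le_right]

theorem conj_rr_P {b : M} (hb : b ∈ P) {ζ w u : ℕ} (hζ : ζ < 64) (hw : w < 16) (hu : u < 16) :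
    ∃ ζ' < 64, b * rr ζ w u * b⁻¹ = rr ζ' (ap (cd b.g) w) (ap (cd b.g) u) := by
  obtain ⟨y, hy, k, hk, rfl⟩ := exists_R_K hb
  obtain ⟨h1, h2⟩ := K_lt hk
  have a : ∀ v < 16, ap (cd (y * k).g) v = ap (cd k.g) v := fun v hv => by
    obtain ⟨t, ht, e⟩ := mem_EU.1 (mem_R'.1 hy)
    rw [mul_g, ap_mul _ _ (by omega), e, (ap_tu t ht).1 _ (h2 v hv)]
  obtain ⟨c, hc, e⟩ := comm_R hy (mem_R.2 ⟨_, h1 _ hζ, _, h2 _ hw, _, h2 _ hu, rfl⟩)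
  obtain ⟨d, hd, rfl⟩ := mem_Z.1 hc
  refine ⟨_, x6 hd (h1 _ hζ), ?_⟩
  rw [show y * k * rr ζ w u * (y * k)⁻¹ = y * (k * rr ζ w u * k⁻¹) * y⁻¹ by group, conj_rr hk hζ hw hu, e, mul_assoc,
    mul_inv_cancel_right, ← rr_zero, rr_mul hd (by norm_num) (by norm_num) (h1 _ hζ) (h2 _ hw) (h2 _ hu),
    wg_zero (ap_lt _ _), Nat.xor_zero, Nat.zero_xor, Nat.zero_xor, a w hw, a u hu]

theorem ac_fix {x : M} {a : ℕ} (ha : a < 1024) (h : e a * x = x * e a) : ac (cd x.g) a = a :=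
  e_inj (ac_lt _ _) ha (by rw [← conj_e x ha, ← h, mul_inv_cancel_right])

/-- The matrix `g` acts on the hyperplane like the matrix with number `n`. -/
def Ag (g : L5) (n : ℕ) : Prop := n < 64 ∧ ∃ l < 16, cd g = bb l n

theorem exists_Ag {g : L5} (hg : g ∈ pat kT) : ∃ n, Ag g n := by
  obtain ⟨n, hn, e⟩ := mem_UT.1 hg
  exact ⟨n % 64, by omega, n / 64, by omega, e.trans (ut_eq n hn)⟩

theorem cd_ut {n : ℕ} (hn : n < 64) : cd (el (ut n)) = ut n := cd_el (ok_ut n (by omega))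

theorem ut_lt {n : ℕ} (hn : n < 64) : (∀ ζ < 64, ac (ut n) ζ < 64) ∧ ∀ u < 16, ap (ut n) u < 16 :=
  cd_ut hn ▸ P_lt (pat_mono (k := kT) (by decide) (mem_UT.2 ⟨n, by omega, cd_ut hn⟩))

theorem Ag.eq {g : L5} {n : ℕ} (h : Ag g n) : ∃ l < 16, g = tu l * el (ut n) :=
  let ⟨l, hl, e⟩ := h.2
  ⟨l, hl, cd_inj (by rw [cd_mul, cd_tu hl, cd_ut h.1, e, bb])⟩

theorem Ag.ap {g : L5} {n : ℕ} (h : Ag g n) {u : ℕ} (hu : u < 16) : ap (cd g) u = ap (ut n) u := by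
  obtain ⟨l, hl, rfl⟩ := h.eq
  rw [ap_mul _ _ (by omega), cd_ut h.1, (ap_tu l hl).1 _ ((ut_lt h.1).2 u hu)]

theorem Ag.ac {g : L5} {n : ℕ} (h : Ag g n) {a : ℕ} (ha : a < 64) : ac (cd g) a = ac (ut n) a := by
  obtain ⟨l, hl, rfl⟩ := h.eq
  have := ac_tu hl ((ut_lt h.1).1 a ha) (show 0 < 16 by norm_num)
  rw [zero_wg (by omega)] at this
  rw [ac_mul _ _ (by omega), cd_ut h.1]
  simpa using this

theorem Ag.div {g g' : L5} {n : ℕ} (h : Ag g n) (h' : Ag g' n) : g * g'⁻¹ ∈ pat kE := by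
  obtain ⟨l, hl, rfl⟩ := h.eq
  obtain ⟨l', hl', rfl⟩ := h'.eq
  rw [mul_inv_rev, mul_assoc, mul_inv_cancel_left]
  exact mul_mem (mem_EU.2 ⟨l, hl, rfl⟩) (inv_mem (mem_EU.2 ⟨l', hl', rfl⟩))

theorem Ag.zero {g : L5} (h : Ag g 0) : g ∈ pat kE := by
  simpa using h.div (g' := 1) ⟨by norm_num, 0, by norm_num, by rw [cd_one]; decide +kernel⟩

theorem ap_E {g : L5} (h : g ∈ pat kE) {u : ℕ} (hu : u < 16) : ap (cd g) u = u := by
  obtain ⟨l, hl, rfl⟩ := mem_EU.1 h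
  exact (ap_tu l hl).1 u hu

theorem Ag.cT {g g' : L5} {n k : ℕ} (h : Ag g n) (h' : Ag g' k) (h1 : g * g ∈ pat kE) (h2 : g' * g' ∈ pat kE)
    (h3 : g * g' * (g * g') ∈ pat kE) : cT n k = true := by
  have l := (ut_lt h.1).2
  have l' := (ut_lt h'.1).2
  refine cT_of n h.1 (fun u hu => ?_) k h'.1 (fun u hu => ?_) fun u hu => ?_
  · rw [← h.ap (l u hu), ← h.ap hu, ← ap_mul _ _ (by omega), ap_E h1 hu]
  · rw [← h'.ap (l' u hu), ← h'.ap hu, ← ap_mul _ _ (by omega), ap_E h2 hu]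
  · rw [← h.ap (l' _ (l _ (l' u hu))), ← h'.ap (l _ (l' u hu)), ← h.ap (l' u hu), ← h'.ap hu, ← ap_mul _ _ (ap_lt _ _),
      ← ap_mul g g' (by omega), ← ap_mul _ _ (by omega), ap_E h3 hu]

theorem core {B : Subgroup M} (hB : B ≤ T) (h2 : ∀ b ∈ B, b * b ∈ R) : ∃ s a d : ℕ, R.relIndex B ≤ s ∧
    Nat.card ↥(Z ⊓ centralizer (B : Set M)) ≤ a ∧ (∀ i, Z.relIndex (Ai i ⊓ centralizer (B : Set M)) ≤ d) ∧
    (¬ B ≤ R → s * a ≤ 64 ∧ d ≤ 8) ∧ (8 < s → a ≤ 2 ∧ d ≤ 4) := by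
  classical
  have hS : ∀ n < 64, decide (∃ b ∈ B, Ag b.g n) = true → ∀ k < 64, decide (∃ b ∈ B, Ag b.g k) = true → cT n k = true := by
    simp only [decide_eq_true_eq]
    rintro n - ⟨b, hb, e⟩ k - ⟨b', hb', e'⟩
    exact e.cT e' (mem_R'.1 (h2 b hb)) (mem_R'.1 (h2 b' hb')) (mem_R'.1 (h2 _ (mul_mem hb hb')))
  have hZ : ∀ a < 64, decide (∀ b ∈ B, ac (cd b.g) a = a) = true → ∀ n < 64, decide (∃ b ∈ B, Ag b.g n) = true →
      fZ n a = true := by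
    simp only [decide_eq_true_eq]
    rintro a ha h n hn ⟨b, hb, e⟩
    exact fZ_of n hn a ha (e.ac ha ▸ h b hb)
  have hU : ∀ a < 16, decide (∀ b ∈ B, ap (cd b.g) a = a) = true → ∀ n < 64, decide (∃ b ∈ B, Ag b.g n) = true →
      fU n a = true := by
    simp only [decide_eq_true_eq]
    rintro a ha h n hn ⟨b, hb, e⟩
    exact fU_of n hn a ha (e.ap ha ▸ h b hb)
  refine ⟨cn 64 fun n => decide (∃ b ∈ B, Ag b.g n), cn 64 fun a => decide (∀ b ∈ B, ac (cd b.g) a = a),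
    cn 16 fun a => decide (∀ b ∈ B, ap (cd b.g) a = a),
    relIndex_le _ _ (fun b n => Ag b.g n) (fun b hb => ?_) fun b _ b' _ n e e' => mem_R'.2 (e.div e'),
    card_le _ _ (fun b a => b = e a) (fun x hx => ?_) fun b _ b' _ n e e' => e.trans e'.symm,
    fun i => relIndex_le _ _ (fun b v => v < 16 ∧ ∃ ζ < 64, b = rr ζ (wu i v).1 (wu i v).2) (fun x hx => ?_) ?_,
    fun hn => ?_, fun h => (big hS hZ hU h).2⟩
  · obtain ⟨n, e⟩ := exists_Ag (mem_T.1 (hB hb))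
    exact ⟨n, e.1, decide_eq_true ⟨b, hb, e⟩, e⟩
  · obtain ⟨a, ha, rfl⟩ := mem_Z.1 hx.1
    exact ⟨a, ha, decide_eq_true fun b hb => ac_fix (by omega) (hx.2 b hb).symm, rfl⟩
  · obtain ⟨ζ, hζ, v, hv, rfl⟩ := mem_Ai.1 hx.1
    refine ⟨v, hv, decide_eq_true fun b hb => ?_, hv, ζ, hζ, rfl⟩
    have hP := T_le_P (hB hb)
    obtain ⟨l1, l2⟩ := wu_lt i hv
    obtain ⟨ζ', hζ', e⟩ := conj_rr_P hP hζ l1 l2
    rw [hx.2 b hb, mul_inv_cancel_right] at e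
    obtain ⟨-, e1, e2⟩ := rr_inj hζ l1 l2 hζ' ((P_lt (mem_P.1 hP)).2 _ l1) ((P_lt (mem_P.1 hP)).2 _ l2) e
    fin_cases i
    exacts [e1.symm, e2.symm, e1.symm]
  · rintro _ - _ hb' v ⟨hv, ζ, hζ, rfl⟩ ⟨-, ζ', hζ', rfl⟩
    exact rr_div hζ hζ' (wu_lt i hv).1 (wu_lt i hv).2 (Ai_sq i _ hb'.1)
  · obtain ⟨b, hb, c⟩ := SetLike.not_le_iff_exists.1 hn
    obtain ⟨n, e⟩ := exists_Ag (mem_T.1 (hB hb))
    exact comb hS hZ hU e.1 (fun n0 => c (mem_R'.2 (n0 ▸ e).zero)) (decide_eq_true ⟨b, hb, e⟩)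

theorem card_Ai_inf (i : Fin 3) (C : Subgroup M) :
    Nat.card ↥(Ai i ⊓ C) = Nat.card ↥(Z ⊓ C) * Z.relIndex (Ai i ⊓ C) := by
  rw [card_split Z, ← inf_assoc, inf_eq_left.2 (Z_le_Ai i)]

end Jk

theorem inv_R {x : M} (hx : x ∈ R) (h2 : x * x = 1) : ∃ i, x ∈ Ai i := by
  obtain ⟨ζ, hζ, w, hw, u, hu, rfl⟩ := mem_R.1 hx
  obtain ⟨i, h⟩ := inA_of_sq w hw u hu (rr_sq hζ hw hu h2)
  exact ⟨i, (rr_mem_Ai hζ hw hu).2 h⟩

theorem ea_R' {B : Subgroup M} (hB : B ≤ R) (h2 : ∀ b ∈ B, b * b = 1) : (∃ i, B ≤ Ai i) ∨ Z.relIndex B ≤ 4 := by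
  refine or_iff_not_imp_left.2 fun c => ?_
  push Not at c
  obtain ⟨x, hx, xA⟩ := SetLike.not_le_iff_exists.1 (c 0)
  obtain ⟨i, hi⟩ := inv_R (hB hx) (h2 x hx)
  obtain ⟨y, hy, yA⟩ := SetLike.not_le_iff_exists.1 (c i)
  obtain ⟨ζ, hζ, w, hw, u, hu, rfl⟩ := mem_R.1 (hB hx)
  obtain ⟨ζ', hζ', w', hw', u', hu', rfl⟩ := mem_R.1 (hB hy)
  have pr : ∀ {ζ w u ζ' w' u' : ℕ}, ζ < 64 → w < 16 → u < 16 → ζ' < 64 → w' < 16 → u' < 16 → rr ζ w u ∈ B →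
      rr ζ' w' u' ∈ B → wg (w ^^^ w') (u ^^^ u') = 0 := fun hζ hw hu hζ' hw' hu' a b => by
    have := h2 _ (mul_mem a b)
    rw [rr_mul hζ hw hu hζ' hw' hu'] at this
    exact rr_sq (x6 (x6 hζ hζ') (wg_lt64 _ hw' _ hu)) (x4 hw hw') (x4 hu hu') this
  refine (relIndex_le 256 _ (fun b n => n < 256 ∧ ∃ ζ < 64, b = rr ζ (n / 16) (n % 16)) (fun b hb => ?_) ?_).trans
    (four i w hw u hu ((rr_mem_Ai hζ hw hu).1 hi) (fun e => xA ((rr_mem_Ai hζ hw hu).2 e)) w' hw' u' hu'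
      (fun e => yA ((rr_mem_Ai hζ' hw' hu').2 e)) (rr_sq hζ' hw' hu' (h2 _ hy)) (pr hζ hw hu hζ' hw' hu' hx hy))
  · obtain ⟨ζ1, hζ1, w1, hw1, u1, hu1, rfl⟩ := mem_R.1 (hB hb)
    have e1 : (16 * w1 + u1) / 16 = w1 := by omega
    have e2 : (16 * w1 + u1) % 16 = u1 := by omega
    refine ⟨16 * w1 + u1, by omega, ?_, by omega, ζ1, hζ1, by rw [e1, e2]⟩
    rw [e1, e2, rr_sq hζ1 hw1 hu1 (h2 _ hb), pr hζ hw hu hζ1 hw1 hu1 hx hb, pr hζ' hw' hu' hζ1 hw1 hu1 hy hb]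
    rfl
  · rintro _ - _ hb' n ⟨hn, ζ1, hζ1, rfl⟩ ⟨-, ζ2, hζ2, rfl⟩
    exact rr_div hζ1 hζ2 (by omega) (by omega) (h2 _ hb')

theorem ea_R {B : Subgroup M} (hB : B ≤ R) (h2 : ∀ b ∈ B, b * b = 1) : (∃ i, B ≤ Ai i) ∨ Nat.card B ≤ 256 :=
  (ea_R' hB h2).imp_right fun h => by
    rw [card_split Z B]
    exact Nat.mul_le_mul ((card_le_of_le inf_le_left).trans card_Z.le) h

theorem cent_Z : centralizer (Z : Set M) ≤ R := fun x hx => by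
  have k := fun i j (hij : i < j) (hj : j < 4) => (ac_basis (cd x.g) hij (by omega)).symm.trans
    (ac_fix (Nat.pow_lt_pow_right (n := 10) one_lt_two (by interval_cases j <;> omega)) (hx _ (mem_Z.2
      ⟨_, Nat.pow_lt_pow_right (n := 6) one_lt_two (by interval_cases j <;> omega), rfl⟩)))
  have p := col_pk (col_lt (cd x.g) 0) (col_lt (cd x.g) 1) (col_lt (cd x.g) 2) (col_lt (cd x.g) 3) (col_lt (cd x.g) 4)
  have e : cd x.g = pk (col (cd x.g) 0) (col (cd x.g) 1) (col (cd x.g) 2) (col (cd x.g) 3) (col (cd x.g) 4) :=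
    eq_of_col (cd_lt _) p.2.2.2.2.2 fun j hj => by
      interval_cases j
      exacts [p.1.symm, p.2.1.symm, p.2.2.1.symm, p.2.2.2.1.symm, p.2.2.2.2.1.symm]
  refine mem_R'.2 ((mem_pat (by decide +kernel)).2 ?_)
  rw [e]
  exact fix_Z _ (col_lt _ 0) _ (col_lt _ 1) (k 0 1 (by norm_num) (by norm_num)) _ (col_lt _ 2)
    (k 0 2 (by norm_num) (by norm_num)) (k 1 2 (by norm_num) (by norm_num)) _ (col_lt _ 3)
    (k 0 3 (by norm_num) (by norm_num)) (k 1 3 (by norm_num) (by norm_num)) _ (col_lt _ 4)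

theorem cent_Ai (i : Fin 3) : centralizer (Ai i : Set M) ≤ Ai i := fun x hx => by
  obtain ⟨ζ, hζ, w, hw, u, hu, rfl⟩ := mem_R.1 (cent_Z (centralizer_le (Z_le_Ai i) hx))
  refine (rr_mem_Ai hζ hw hu).2 (inA_of_comm i w hw u hu fun v hv => ?_)
  obtain ⟨l1, l2⟩ := wu_lt i hv
  have h0 : 0 < 64 := by norm_num
  have := hx _ (mem_Ai.2 ⟨0, h0, v, hv, rfl⟩)
  rw [rr_mul h0 l1 l2 hζ hw hu, rr_mul hζ hw hu h0 l1 l2] at this
  simpa using (rr_inj (x6 (x6 h0 hζ) (wg_lt64 _ hw _ l2)) (x4 l1 hw) (x4 l2 hu) (x6 (x6 hζ h0) (wg_lt64 _ l1 _ hu))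
    (x4 hw l1) (x4 hu l2) this).1.symm

theorem cent_T {s : M} (h : ∀ t ∈ T, t * s = s * t) : s = 1 ∨ s = z := by
  obtain ⟨a, ha, rfl⟩ := mem_A'.1 (cent_A fun t ht => h t (R_le_T (Ai_le_R 0 ht)))
  have k : ∀ i < 4, ac (idm + 2 ^ (5 * (i + 1) + i)) a = a := fun i hi => by
    have c := cd_E (i := i) (j := i + 1) (by omega) (by omega) (by omega)
    rw [← c]
    refine ac_fix (x := ι (E i (i + 1))) ha (h _ (mem_T.2 ((mem_pat (by decide +kernel)).2 ?_))).symm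
    rw [ι_g, c]
    exact (by decide +kernel : ∀ i < 4, (idm + 2 ^ (5 * (i + 1) + i)) &&& kT = 0) i hi
  rcases fix_T a ha k with rfl | rfl
  exacts [Or.inl rfl, Or.inr rfl]

/-- `B R / R` is elementary abelian and not trivial. -/
theorem off (i : Fin 3) {B : Subgroup M} (hB : B ≤ T) (h2 : ∀ b ∈ B, b * b ∈ R) (hn : ¬ B ≤ R) :
    R.relIndex B * Nat.card ↥(Ai i ⊓ centralizer (B : Set M)) ≤ 512 := by
  obtain ⟨s, a, d, h1, h3, h4, h5, -⟩ := core hB h2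
  rw [card_Ai_inf, ← mul_assoc]
  exact Nat.mul_le_mul ((Nat.mul_le_mul h1 h3).trans (h5 hn).1) ((h4 i).trans (h5 hn).2)

theorem off16 (i : Fin 3) {B : Subgroup M} (hB : B ≤ T) (h2 : ∀ b ∈ B, b * b ∈ R) (hn : 16 ≤ R.relIndex B) :
    Nat.card ↥(Ai i ⊓ centralizer (B : Set M)) ≤ 8 := by
  obtain ⟨s, a, d, h1, h3, h4, -, h5⟩ := core hB h2
  rw [card_Ai_inf]
  exact Nat.mul_le_mul (h3.trans (h5 (by omega)).1) ((h4 i).trans (h5 (by omega)).2)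

theorem eq_Ai {B : Subgroup M} (hB : B ≤ T) (h2 : ∀ b ∈ B, b * b = 1) (hc : 1024 ≤ Nat.card B) : ∃ i, B = Ai i := by
  by_cases hn : B ≤ R
  · obtain ⟨i, h⟩ := (ea_R hn h2).resolve_right (by omega)
    exact ⟨i, eq_of_le_of_card_ge h ((card_Ai i).le.trans hc)⟩
  have h2' : ∀ b ∈ B, b * b ∈ R := fun b hb => h2 b hb ▸ one_mem _
  have cm : B ≤ centralizer (B : Set M) := fun x hx y hy => by
    rw [← inv_eq_of_mul_eq_one_right (h2 _ (mul_mem hy hx)), mul_inv_rev, inv_eq_of_mul_eq_one_right (h2 _ hx),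
      inv_eq_of_mul_eq_one_right (h2 _ hy)]
  rw [card_split R B, mul_comm] at hc
  rcases ea_R' (B := R ⊓ B) inf_le_left fun b hb => h2 b hb.2 with ⟨i, h⟩ | h
  · have := (Nat.mul_le_mul_left _ (card_le_of_le (le_inf h (inf_le_right.trans cm)))).trans (off i hB h2' hn)
    omega
  · obtain ⟨s, a, d, h1, h3, -, h5, -⟩ := core hB h2'
    rw [card_split Z, ← mul_assoc] at hc
    have := Nat.mul_le_mul ((Nat.mul_le_mul h1 ((card_le_of_le (inf_le_inf_left Z (inf_le_right.trans cm) :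
      Z ⊓ (R ⊓ B) ≤ _)).trans h3)).trans (h5 hn).1) h
    omega

theorem transv {B : Subgroup L5} (hB : B ≤ pat kT) (h2 : ∀ b ∈ B, b * b = 1) (hc : 16 ≤ Nat.card B) :
    ∃ x ∈ B, IsConj (E 0 4) x := by
  classical
  by_cases c : ∃ x ∈ B, x ∈ pat kE ∧ x ≠ 1
  · obtain ⟨x, hx, h, h1⟩ := c
    obtain ⟨u, hu, rfl⟩ := mem_EU.1 h
    exact ⟨_, hx, tv_conj (cd_tu hu ▸ tv_tu u hu fun e => h1 (e ▸ tu_zero))⟩
  push Not at c
  have h2' : ∀ b ∈ B, b * b ∈ pat kE := fun b hb => h2 b hb ▸ one_mem _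
  have hS : ∀ n < 64, decide (∃ b ∈ B, Ag b n) = true → ∀ k < 64, decide (∃ b ∈ B, Ag b k) = true → cT n k = true := by
    simp only [decide_eq_true_eq]
    rintro n - ⟨b, hb, e⟩ k - ⟨b', hb', e'⟩
    exact e.cT e' (h2' b hb) (h2' b' hb') (h2' _ (mul_mem hb hb'))
  have h16 : 16 ≤ cn 64 fun n => decide (∃ b ∈ B, Ag b n) := hc.trans (card_le _ _ Ag (fun b hb => by
    obtain ⟨n, e⟩ := exists_Ag (hB hb)
    exact ⟨n, e.1, decide_eq_true ⟨b, hb, e⟩, e⟩) fun b hb b' hb' n e e' =>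
      mul_inv_eq_one.1 (c _ (mul_mem hb (inv_mem hb')) (e.div e')))
  obtain ⟨x, hx, -, a, ha, ex⟩ := of_decide_eq_true (mem_F hS h16 (k := 2) (by norm_num) (by decide))
  obtain ⟨y, hy, -, b, hb, ey⟩ := of_decide_eq_true (mem_F hS h16 (k := 8) (by norm_num) (by decide))
  obtain ⟨w, hw, -, d, hd, ew⟩ := of_decide_eq_true (mem_F hS h16 (k := 16) (by norm_num) (by decide))
  have sq : ∀ g ∈ B, mm (cd g) (cd g) = idm := fun g hg => by rw [← cd_mul, h2 g hg, cd_one]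
  have := tv_three a ha (ex ▸ sq x hx) b hb (ey ▸ sq y hy) (by rw [← ex, ← ey, ← cd_mul]; exact sq _ (mul_mem hx hy)) d hd
    (ew ▸ sq w hw) (by rw [← ex, ← ew, ← cd_mul]; exact sq _ (mul_mem hx hw))
  rw [← ex, ← ey, ← cd_mul] at this
  rcases this with h | h | h
  exacts [⟨_, hx, tv_conj h⟩, ⟨_, hy, tv_conj h⟩, ⟨_, mul_mem hx hy, tv_conj h⟩]

theorem inv_T {x : M} (hx : x ∈ T) (hA : x ∉ A) (h2 : x * x = 1) :
    IsConj (E 0 4) x.g ∨ Nat.card ↥(A ⊓ centralizer {x}) ≤ 64 := by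
  obtain ⟨n, hn, e⟩ := mem_UT.1 (mem_T.1 hx)
  rcases tv_or n hn (by rw [← e, ← cd_mul, ← mul_g, h2, one_g, cd_one]) with h | h | h
  · exact absurd (mem_A.2 (cd_inj (by rw [e, h, cd_one]))) hA
  · exact Or.inl (tv_conj (e ▸ h))
  · refine Or.inr ((card_le _ _ (fun b a => b = R20.e a) (fun b hb => ?_) fun b _ b' _ n e e' => e.trans e'.symm).trans h)
    obtain ⟨a, ha, rfl⟩ := mem_A'.1 hb.1
    exact ⟨a, ha, (nbeq_iff _ _).2 (e ▸ ac_fix ha (mem_centralizer_singleton_iff.1 hb.2)), rfl⟩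

end Cfsg.Agent.R20
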