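import Mathlib
import Cfsg.Agent.R20.Defs
import Cfsg.Agent.R24.Frm

/-! Labels for the elements of `V = 2 ^ 11`, and the possible fusion patterns. -/

set_option autoImplicit false

namespace Cfsg.Agent.R20.JN

open Cfsg.Agent.Spor

/-- The type of the element `rr (n % 64) (n / 64) (n / 64)` of `A2`. -/
def tc (n : ℕ) : ℕ := if n < 64 then (if n = 0 then 0 else if rk2 n then 1 else 2) else if rk2 n then 3 else 4
/-- The label of `e ζ * r`; `c` is the value of the cocycle. -/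
def oc (c ζ : ℕ) : ℕ := if c = 0 then 5 + tc ζ else if Nat.testBit 297238949830623240 ζ then 5 else 6
/-- The label of the element with number `n < 2048`. -/
def lb (c n : ℕ) : ℕ := if n < 1024 then tc n else oc c (n % 64)
/-- The number of elements with a label. -/
def sz (c l : ℕ) : ℕ := if c = 0 then [1, 35, 28, 120, 840, 16, 560, 448].getD l 0
  else [1, 35, 28, 120, 840, 128, 896, 0].getD l 0
/-- An element with a label. -/
def rep (c l : ℕ) : ℕ := if c = 0 then [0, 1, 12, 64, 68, 1024, 1025, 1036].getD l 0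
  else [0, 1, 12, 64, 68, 1027, 1024, 1024].getD l 0
/-- The number of elements with a label in the set `m`. -/
def sm (c m : ℕ) : ℕ := ∑ l ∈ Finset.range 8, if m.testBit l then sz c l else 0

variable {c : ℕ}

theorem lb_lt (hc : c = 0 ∨ c = 12) : ∀ n < 2048, lb c n < 8 ∧ lb c (rep c (lb c n)) = lb c n := by
  have : allRange 0 2048 (fun n => decide ((lb 0 n < 8 ∧ lb 0 (rep 0 (lb 0 n)) = lb 0 n) ∧
    lb 12 n < 8 ∧ lb 12 (rep 12 (lb 12 n)) = lb 12 n)) = true := by decide +kernel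
  intro n hn
  have h := of_decide_eq_true (allRange_zero this n hn)
  rcases hc with rfl | rfl
  exacts [h.1, h.2]

theorem rep_lt (hc : c = 0 ∨ c = 12) : ∀ l < 8, rep c l < 2048 ∧ (l < 5 ↔ rep c l < 1024) := by
  rcases hc with rfl | rfl <;> decide

theorem cnt_lb (hc : c = 0 ∨ c = 12) : ∀ l < 8, R24.cnt (fun n => Nat.beq (lb c n) l) = sz c l := by
  rcases hc with rfl | rfl <;> decide +kernel

theorem ncard_lb (hc : c = 0 ∨ c = 12) (m : ℕ) : {n | n < 2048 ∧ m.testBit (lb c n) = true}.ncard = sm c m := by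
  have h1 : {n | n < 2048 ∧ m.testBit (lb c n) = true} =
      ↑((Finset.range 2048).filter fun n => m.testBit (lb c n) = true) := by ext; simp
  rw [h1, Set.ncard_coe_finset, Finset.card_eq_sum_card_fiberwise (f := lb c) (t := Finset.range 8) fun n hn => by
    simp only [Finset.coe_filter, Finset.mem_range, Set.mem_ofPred_eq] at hn
    simpa using (lb_lt hc n hn.1).1]
  refine Finset.sum_congr rfl fun l hl => ?_
  rw [← cnt_lb hc l (Finset.mem_range.1 hl), ← R24.ncard_lt (fun n => lb c n = l) _ fun a _ => (nbeq_iff _ _).symm,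
    ← Set.ncard_coe_finset]
  split_ifs with h
  · congr 1
    ext n
    simp only [Finset.coe_filter, Finset.mem_filter, Finset.mem_range, Set.mem_ofPred_eq]
    exact ⟨fun k => ⟨k.1.1, k.2⟩, fun k => ⟨⟨k.1, k.2 ▸ h⟩, k.2⟩⟩
  · rw [Set.ncard_eq_zero]
    ext n
    simp only [Finset.coe_filter, Finset.mem_filter, Finset.mem_range, Set.mem_ofPred_eq, Set.mem_empty_iff_false]
    exact ⟨fun k => h (k.2 ▸ k.1.2), False.elim⟩

/-- Primes that do not divide the order of `GL(11, 2)`. -/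
def BP : List ℕ := [13, 19, 37, 41, 43, 47, 59, 61, 71, 83, 107, 149, 163, 181, 251, 283, 337, 359, 499, 1459]

theorem BP_spec : ∀ q ∈ BP, q.Prime ∧ q ≠ 2 ∧ ∀ j ≤ 11, 1 ≤ j → ¬ q ∣ 2 ^ j - 1 := by
  have h1 : ∀ q ∈ BP, q.Prime := by simp only [BP, List.forall_mem_cons]; norm_num
  have h2 : ∀ q ∈ BP, q ≠ 2 ∧ ∀ j ≤ 11, 1 ≤ j → ¬ q ∣ 2 ^ j - 1 := by decide +kernel
  exact fun q hq => ⟨h1 q hq, h2 q hq⟩

/-- `m` is the class of the label `i`. -/
def Cl (c m1 i m : ℕ) : Prop := m.testBit i = true ∧ m.testBit 0 = false ∧ (∀ q ∈ BP, ¬ q ∣ sm c m) ∧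
  (∀ q ∈ [11, 17, 23], q ∣ sm c m → q ∣ sm c m1) ∧ (c = 12 → m.testBit 7 = m.testBit 6)
/-- The class `m` of the label `i` is `m'` or disjoint from `m'`. -/
def Cp (i m m' : ℕ) : Prop := if m'.testBit i then m = m' else m &&& m' = 0

instance (c m1 i m : ℕ) : Decidable (Cl c m1 i m) := inferInstanceAs (Decidable (_ ∧ _))
instance (i m m' : ℕ) : Decidable (Cp i m m') := inferInstanceAs (Decidable (ite _ _ _))

/-- The conclusion. -/
def Cc (c m1 m2 m3 m4 : ℕ) : Prop :=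
  (32 ≤ m1 ∧ 32 ≤ m2 ∧ 32 ≤ m3 ∧ 32 ≤ m4 → sm c m1 = 1771 ∧ m1.testBit 4 = true ∧ m2.testBit 3 = true) ∧
    (m1 < 32 ∧ m2 < 32 ∧ m1 ≠ 2 ∧ m2 ≠ 4 → m1 = 10)

instance (c m1 m2 m3 m4 : ℕ) : Decidable (Cc c m1 m2 m3 m4) := inferInstanceAs (Decidable (_ ∧ _))

theorem num (hc : c = 0 ∨ c = 12) {m1 m2 m3 m4 : ℕ} (l1 : m1 < 256) (l2 : m2 < 256) (l3 : m3 < 256) (l4 : m4 < 256)
    (h1 : m1.testBit 2 = false ∧ Cl c m1 1 m1) (h2 : Cp 2 m2 m1 ∧ Cl c m1 2 m2)
    (h3 : Cp 3 m3 m1 ∧ Cp 3 m3 m2 ∧ Cl c m1 3 m3) (h4 : Cp 4 m4 m1 ∧ Cp 4 m4 m2 ∧ Cp 4 m4 m3 ∧ Cl c m1 4 m4) :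
    Cc c m1 m2 m3 m4 := by
  have k : allLt 256 (fun m1 => bor (!decide (m1.testBit 2 = false ∧ Cl c m1 1 m1)) (allLt 256 fun m2 =>
      bor (!decide (Cp 2 m2 m1 ∧ Cl c m1 2 m2)) (allLt 256 fun m3 =>
      bor (!decide (Cp 3 m3 m1 ∧ Cp 3 m3 m2 ∧ Cl c m1 3 m3)) (allLt 256 fun m4 =>
      bor (!decide (Cp 4 m4 m1 ∧ Cp 4 m4 m2 ∧ Cp 4 m4 m3 ∧ Cl c m1 4 m4)) (decide (Cc c m1 m2 m3 m4)))))) = true := by
    rcases hc with rfl | rfl <;> decide +kernel
  simp only [allLt_iff, bor_iff, Bool.not_eq_true', decide_eq_false_iff_not, decide_eq_true_eq] at k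
  exact ((((k m1 l1).resolve_left (not_not.2 h1) m2 l2).resolve_left (not_not.2 h2) m3 l3).resolve_left
    (not_not.2 h3) m4 l4).resolve_left (not_not.2 h4)

end Cfsg.Agent.R20.JN
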