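import Mathlib
import Cfsg.Agent.R20.Par
import Cfsg.Agent.Loc.BHBasic

set_option autoImplicit false

namespace Cfsg.Agent.R20

open Cfsg.Agent.Spor Cfsg.Agent.Inv.Fz Subgroup Cfsg.Agent.Loc

variable {V : Type*} [AddCommGroup V] [Module (ZMod 2) V] {ρ : Representation (ZMod 2) L5 V} {u : V}

namespace Mod1

/-- The action on vectors. -/
@[reducible] def act (ρ : Representation (ZMod 2) L5 V) : MulAction L5 V where
  smul g v := ρ g v
  one_smul := BH.rep_one ρ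
  mul_smul := BH.rep_mul ρ

/-- The stabiliser of a vector. -/
def St (ρ : Representation (ZMod 2) L5 V) (u : V) : Subgroup L5 := @MulAction.stabilizer L5 V _ (act ρ) u

theorem mem_St {g : L5} : g ∈ St ρ u ↔ ρ g u = u := Iff.rfl

theorem rep_eq {g h : L5} (e : g⁻¹ * h ∈ St ρ u) : ρ h u = ρ g u := by
  have := congrArg (ρ g) (mem_St.1 e)
  rwa [← BH.rep_mul, mul_inv_cancel_left] at this

theorem fin (h : Md ρ) : Finite V := Nat.finite_of_card_ne_zero (by rw [h.card]; norm_num)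

theorem index_St (h : Md ρ) : (St ρ u).index ≤ 1024 := by
  let _ := act ρ
  have := fin h
  rw [St, MulAction.index_stabilizer, ← h.card]
  exact Set.ncard_le_card _

theorem no_span (h : Md ρ) (w : Fin 5 → V) (hw : ∀ i < 4, ∀ k, ρ (E i (i + 1)) (w k) ∈ Submodule.span (ZMod 2) (Set.range w) ∧
    ρ (E (i + 1) i) (w k) ∈ Submodule.span (ZMod 2) (Set.range w)) : w 0 = 0 := by
  have a : ∀ t : L5, t * t = 1 → (∀ k, ρ t (w k) ∈ Submodule.span (ZMod 2) (Set.range w)) →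
      t ∈ BH.stab ρ (Submodule.span (ZMod 2) (Set.range w)) := fun t ht c => by
    have b := (Submodule.span_le (p := (Submodule.span (ZMod 2) (Set.range w)).comap (ρ t))).2 (Set.range_subset_iff.2 c)
    refine fun v => ⟨fun hv => ?_, fun hv => b hv⟩
    have := Submodule.mem_comap.1 (b hv)
    rwa [← BH.rep_mul, ht, BH.rep_one] at this
  have b := top_le_of_E fun i hi => ⟨a _ (E_sq (by omega) (by omega) (by omega)) fun k => (hw i hi k).1,
    a _ (E_sq (by omega) (by omega) (by omega)) fun k => (hw i hi k).2⟩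
  rcases h.irr _ fun g v hv => BH.apply_mem_of_le_stab b.ge (mem_top g) hv with c | c
  · exact Submodule.span_eq_bot.1 c _ ⟨0, rfl⟩
  · rw [← Fintype.range_linearCombination, LinearMap.range_eq_top] at c
    have := Nat.card_le_card_of_surjective _ c
    rw [h.card] at this
    simp at this

/-- Coset representatives of the Borel subgroup in a minimal parabolic subgroup. -/
noncomputable def cs (i : ℕ) : Fin 3 → L5 := ![1, E i (i - 1), E (i - 1) i * E i (i - 1)]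

/-- Their codes. -/
noncomputable def cc (i : ℕ) : Fin 3 → ℕ :=
  ![idm, idm + 2 ^ (5 * (i - 1) + i), mm (idm + 2 ^ (5 * i + (i - 1))) (idm + 2 ^ (5 * (i - 1) + i))]

theorem cd_cs {i : ℕ} (h1 : 1 ≤ i) (h4 : i ≤ 4) (k : Fin 3) : cd (cs i k) = cc i k := by
  have a := cd_E (i := i) (j := i - 1) (by omega) (by omega) (by omega)
  have b := cd_E (i := i - 1) (j := i) (by omega) (by omega) (by omega)
  fin_cases k
  exacts [cd_one, a, (cd_mul _ _).trans (congrArg₂ mm b a)]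

theorem sm_fix {i : ℕ} {g : L5} (σ : Equiv.Perm (Fin 3)) (h : ∀ k, (cs i (σ k))⁻¹ * (g * cs i k) ∈ St ρ u) :
    ρ g (sm ρ i u) = sm ρ i u := by
  have e : sm ρ i u = ∑ k, ρ (cs i k) u := by simp [Fin.sum_univ_three, cs, sm]
  rw [e, map_sum, ← Equiv.sum_comp σ fun k => ρ (cs i k) u]
  exact Finset.sum_congr rfl fun k _ => by rw [← rep_eq (h k), BH.rep_mul]

set_option synthInstance.maxSize 2000 in
theorem sm_E (hu : Hw ρ u) {i : ℕ} (h1 : 1 ≤ i) (h4 : i ≤ 4) {a b : ℕ} (ha : a < 5) (hb : b < 5) (h : a < b ∨ a = i ∧ b = i - 1) :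
    ρ (E a b) (sm ρ i u) = sm ρ i u := by
  obtain ⟨σ, e⟩ := (by decide +kernel : ∀ i < 5, 1 ≤ i → ∀ a < 5, ∀ b < 5, a < b ∨ a = i ∧ b = i - 1 → ∃ σ : Equiv.Perm (Fin 3),
    ∀ k, mm (mi (cc i (σ k))) (mm (idm + 2 ^ (5 * b + a)) (cc i k)) &&& kT = 0) i (by omega) h1 a ha b hb h
  refine sm_fix σ fun k => hu.fix _ ((mem_pat (by decide +kernel)).2 ?_)
  rw [cd_mul, cd_mul, cd_inv, cd_cs h1 h4, cd_cs h1 h4, cd_E ha hb (by omega), e]

/-- Cyclic permutation matrices. -/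
def cy (i : ℕ) : ℕ := pk (2 ^ (i % 5)) (2 ^ ((i + 1) % 5)) (2 ^ ((i + 2) % 5)) (2 ^ ((i + 3) % 5)) (2 ^ ((i + 4) % 5))

theorem cy_spec : ∀ i < 5, ok (cy i) = true ∧ ap (cy i) 1 = 2 ^ i ∧ (i < 4 → ap (cy i) 3 = 3 * 2 ^ i ∧ ap (cy i) 2 = 2 ^ (i + 1) ∧
    ∀ j < 5, (ap (idm + 2 ^ (5 * (i + 1) + i)) (2 ^ j) = 2 ^ j ∨ ap (idm + 2 ^ (5 * (i + 1) + i)) (2 ^ j) = 3 * 2 ^ i) ∧
      (ap (idm + 2 ^ (5 * i + (i + 1))) (2 ^ j) = 2 ^ j ∨ ap (idm + 2 ^ (5 * i + (i + 1))) (2 ^ j) = 3 * 2 ^ i)) := by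
  decide +kernel

end Mod1

open Mod1

theorem Md.exists_hw (h : Md ρ) : ∃ u, Hw ρ u := by
  have := fin h
  have : Nontrivial V := Finite.one_lt_card_iff_nontrivial.1 (by rw [h.card]; norm_num)
  obtain ⟨v, h0, hv⟩ := BH.exists_fixed_ne_zero syl_UT.isPGroup (ρ.comp (pat kT).subtype)
  exact ⟨v, h0, fun g hg => hv ⟨g, hg⟩⟩

theorem Hw.fix_of (hu : Hw ρ u) {J : ℕ} (h : ∀ i ≤ 4, 1 ≤ i → J.testBit i = false → Fx ρ i u) : ∀ g ∈ pat (kJ J), ρ g u = u :=
  kJ_le (H := St ρ u) hu.fix h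

theorem Md.types (h : Md ρ) (hu : Hw ρ u) :
    ¬ (Fx ρ 1 u ∧ Fx ρ 2 u ∧ Fx ρ 3 u ∧ Fx ρ 4 u) ∧ (Fx ρ 1 u ∨ Fx ρ 3 u) ∧ (Fx ρ 2 u ∨ Fx ρ 3 u) ∧ (Fx ρ 2 u ∨ Fx ρ 4 u) := by
  have a : ∀ i j, (i, j) = (1, 3) ∨ (i, j) = (2, 3) ∨ (i, j) = (2, 4) → Fx ρ i u ∨ Fx ρ j u := fun i j e => by
    by_contra c
    exact absurd ((index_ge (H := St ρ u) hu.fix (not_or.1 c).1 (not_or.1 c).2 e).trans (index_St h)) (by norm_num)
  refine ⟨fun ⟨a1, a2, a3, a4⟩ => hu.ne (no_span h (fun _ => u) fun i hi _ => ?_), a _ _ (by simp), a _ _ (by simp), a _ _ (by simp)⟩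
  have b : Fx ρ (i + 1) u := by interval_cases i <;> assumption
  rw [hu.fix _ (par_UT i.lt_succ_self (by omega)), show ρ (E (i + 1) i) u = u from b, and_self]
  exact Submodule.subset_span ⟨0, rfl⟩

theorem Hw.sm (hu : Hw ρ u) {i : ℕ} (h1 : 1 ≤ i) (h4 : i ≤ 4) : (∀ g ∈ pat kT, ρ g (sm ρ i u) = sm ρ i u) ∧ Fx ρ i (sm ρ i u) ∧
    ∀ j ≤ 4, 1 ≤ j → (j + 1 < i ∨ i + 1 < j) → Fx ρ j u → Fx ρ j (sm ρ i u) := by
  refine ⟨pat_le (H := St ρ (R20.sm ρ i u)) (by decide +kernel) fun a ha b hb hab hk => sm_E hu h1 h4 ha hb (Or.inl ?_),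
    sm_E hu h1 h4 (by omega) (by omega) (Or.inr ⟨rfl, rfl⟩), fun j hj _ c f => sm_fix 1 fun k => ?_⟩
  · exact (by decide +kernel : ∀ a < 5, ∀ b < 5, a ≠ b → kT.testBit (5 * b + a) = false → a < b) a ha b hb hab hk
  · have a : Commute (E j (j - 1)) (E i (i - 1)) := E_comm _ (by omega) _ (by omega) _ (by omega) _ (by omega)
      (by omega) (by omega) (by omega) (by omega)
    have b : Commute (E j (j - 1)) (E (i - 1) i) := E_comm _ (by omega) _ (by omega) _ (by omega) _ (by omega)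
      (by omega) (by omega) (by omega) (by omega)
    have : Commute (E j (j - 1)) (cs i k) := by
      fin_cases k
      exacts [Commute.one_right _, a, b.mul_right a]
    rw [this.eq, Equiv.Perm.one_apply, inv_mul_cancel_left]
    exact f

theorem Md.not_one (h : Md ρ) (hu : Hw ρ u) (h2 : Fx ρ 2 u) (h3 : Fx ρ 3 u) (h4 : Fx ρ 4 u) : sm ρ 1 u ≠ 0 := fun h0 => by
  have f := hu.fix_of (J := 2) fun i hi h1 c => by
    interval_cases i
    exacts [absurd c (by decide), h2, h3, h4]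
  have A : ∀ g g' : L5, ap (cd g) 1 = ap (cd g') 1 → ρ g u = ρ g' u := fun g g' e => rep_eq (f _ (by
    have a : ap (cd (g'⁻¹ * g)) (2 ^ 0) = 1 := by rw [ap_mul _ _ (by norm_num), pow_zero, e, ap_cd_inv _ (by norm_num)]
    rw [ap_pow _ (by norm_num)] at a
    rw [mem_pat (ok_kJ 2), show kJ 2 = 31 &&& 30 by decide +kernel, ← Nat.and_assoc, show cd (g'⁻¹ * g) &&& 31 = 1 from a]
    rfl))
  have c : ∀ j < 5, cd (el (cy j)) = cy j := fun j hj => cd_el (cy_spec j hj).1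
  set W := Submodule.span (ZMod 2) (Set.range fun j : Fin 5 => ρ (el (cy j)) u)
  have B : ∀ g : L5, ∀ j < 5, ap (cd g) 1 = 2 ^ j → ρ g u ∈ W := fun g j hj e =>
    Submodule.subset_span ⟨⟨j, hj⟩, A _ _ (by rw [c j hj, e, (cy_spec j hj).2.1])⟩
  have y : ap (cd (E 1 0)) 1 = 3 := by rw [cd_E (by norm_num) (by norm_num) (by norm_num)]; decide +kernel
  have x : ap (cd (E 0 1)) 3 = 2 := by rw [cd_E (by norm_num) (by norm_num) (by norm_num)]; decide +kernel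
  have C : ∀ g : L5, ∀ i < 4, ap (cd g) 1 = 3 * 2 ^ i → ρ g u ∈ W := fun g i hi e => by
    obtain ⟨-, s1, s2⟩ := cy_spec i (by omega)
    have a := congrArg (ρ (el (cy i))) h0
    rw [sm, map_add, map_add, map_zero, ← BH.rep_mul, ← BH.rep_mul, add_right_comm, add_eq_zero_iff_neg_eq] at a
    rw [A g (el (cy i) * E 1 0) (by rw [ap_mul _ _ (by norm_num), y, c i (by omega), (s2 hi).1, e]), ← a]
    exact neg_mem (add_mem (B _ i (by omega) (by rw [c i (by omega), s1])) (B _ (i + 1) (by omega) (by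
      rw [ap_mul _ _ (by norm_num), ap_mul _ _ (by norm_num), y, x, c i (by omega), (s2 hi).2.1])))
  have D : ∀ t : L5, ∀ i < 4, ∀ j < 5, ap (cd t) (2 ^ j) = 2 ^ j ∨ ap (cd t) (2 ^ j) = 3 * 2 ^ i → ρ t (ρ (el (cy j)) u) ∈ W :=
    fun t i hi j hj e => by
    rw [← BH.rep_mul]
    rw [← (cy_spec j hj).2.1, ← c j hj, ← ap_mul _ _ (by norm_num), c j hj, (cy_spec j hj).2.1] at e
    exact e.elim (B _ j hj) (C _ i hi)
  have := no_span h (fun j => ρ (el (cy j)) u) fun i hi k => by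
    obtain ⟨a, b⟩ := ((cy_spec i (by omega)).2.2 hi).2.2 k k.2
    exact ⟨D _ i hi k k.2 (by rwa [cd_E (by omega) (by omega) (by omega)]),
      D _ i hi k k.2 (by rwa [cd_E (by omega) (by omega) (by omega)])⟩
  exact hu.ne (BH.rep_injective ρ _ (this.trans (map_zero _).symm))

theorem Md.twist (h : Md ρ) (τ : L5 ≃* L5) : Md (ρ.comp τ.toMonoidHom) :=
  ⟨h.card, fun W hW => h.irr W fun g v hv => by simpa using hW (τ.symm g) v hv⟩

end Cfsg.Agent.R20
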