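import Mathlib
import Cfsg.Agent.R20.Mod1

/-! Two types of fixed vectors are excluded by eleven independent vectors. -/

set_option autoImplicit false
set_option linter.unusedVariables false

namespace Cfsg.Agent.R20

open Cfsg.Agent.Spor Cfsg.Agent.Inv.Fz Subgroup

variable {V : Type*} [AddCommGroup V] [Module (ZMod 2) V] {ρ : Representation (ZMod 2) L5 V} {u : V}

namespace Mod2

/-- The code of `E i (i - 1)`. -/
def yc (i : ℕ) : ℕ := idm + 2 ^ (5 * (i - 1) + i)
/-- The code of `E (i - 1) i`. -/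
def xc (i : ℕ) : ℕ := idm + 2 ^ (5 * i + (i - 1))

/-- The product of the maps `1 + ρ e`, applied from left to right. -/
noncomputable def D (ρ : Representation (ZMod 2) L5 V) : List ℕ → V →ₗ[ZMod 2] V
  | [] => LinearMap.id
  | e :: es => D ρ es ∘ₗ (LinearMap.id + ρ (el e))

/-- The value of `D` on `ρ w u`: `0` means zero, `2` means non-zero, `1` means unknown. -/
noncomputable def run (k : ℕ) (L : List (ℕ × ℕ)) : List ℕ → ℕ → ℕ
  | [], _ => 2
  | e :: es, w => Spor.force (mm (mi w) (mm e w)) fun t => if t &&& k = 0 then 0 else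
      match L.find? fun a => Nat.beq (mm (mm (yc a.2) (mi a.1)) t &&& k) 0 with
      | some a => run k L es (mm w (mm a.1 (mm (xc a.2) (mm (yc a.2) (xc a.2)))))
      | none => 1

theorem add_self (v : V) : v + v = 0 := by
  rw [← two_smul (ZMod 2) v, show (2 : ZMod 2) = 0 from rfl, zero_smul]

theorem app_mul (g h : L5) (v : V) : ρ (g * h) v = ρ g (ρ h v) := by rw [map_mul]; rfl

theorem ne_zero (hu : u ≠ 0) (g : L5) : ρ g u ≠ 0 := fun e => hu (by
  have := app_mul (ρ := ρ) g⁻¹ g u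
  rwa [inv_mul_cancel, map_one, e, map_zero] at this)

/-- The three-term relation. -/
theorem step {k i : ℕ} (hk : patOK k = true) (hP : ∀ g ∈ pat k, ρ g u = u) (h1 : 1 ≤ i) (h4 : i ≤ 4)
    (hx : xc i &&& k = 0) (hs : sm ρ i u = 0) {p t : L5} (hp : cd p &&& k = 0)
    (ht : mm (mm (yc i) (mi (cd p))) (cd t) &&& k = 0) :
    ∃ r : L5, cd r = mm (cd p) (mm (xc i) (mm (yc i) (xc i))) ∧ u + ρ t u = ρ r u := by
  have cy : cd (E i (i - 1)) = yc i := cd_E (by omega) (by omega) (by omega)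
  have cx : cd (E (i - 1) i) = xc i := cd_E (by omega) (by omega) (by omega)
  have y2 := E_sq (i := i) (j := i - 1) (by omega) (by omega) (by omega)
  refine ⟨p * (E (i - 1) i * (E i (i - 1) * E (i - 1) i)), by rw [cd_mul, cd_mul, cd_mul, cx, cy], ?_⟩
  have a1 := hP _ ((mem_pat hk).2 (show cd (E i (i - 1) * p⁻¹ * t) &&& k = 0 by rwa [cd_mul, cd_mul, cd_inv, cy]))
  have a2 := hP _ ((mem_pat hk).2 (show cd (E (i - 1) i) &&& k = 0 by rwa [cx]))
  have a3 := hP _ ((mem_pat hk).2 hp)
  have a4 : ρ t u = ρ p (ρ (E i (i - 1)) u) := by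
    conv_rhs => rw [← a1, ← app_mul, ← app_mul]
    rw [← mul_assoc, ← mul_assoc, mul_assoc p, y2, mul_one, mul_inv_cancel, one_mul]
  have a5 : u + ρ (E i (i - 1)) u = ρ (E (i - 1) i * E i (i - 1)) u := by
    rw [← add_zero (ρ (_ * _) u), ← hs, sm, add_comm _ (ρ (_ * _) u), ← add_assoc, add_self, zero_add]
  rw [a4, ← mul_assoc (E (i - 1) i), app_mul, app_mul, a2, ← a5, map_add, a3]

theorem run_spec {k : ℕ} {L : List (ℕ × ℕ)} (hk : patOK k = true) (hu : u ≠ 0) (hP : ∀ g ∈ pat k, ρ g u = u)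
    (hL : ∀ a ∈ L, ok a.1 = true ∧ a.1 &&& k = 0 ∧ 1 ≤ a.2 ∧ a.2 ≤ 4 ∧ xc a.2 &&& k = 0 ∧ sm ρ a.2 u = 0)
    (es : List ℕ) (he : ∀ e ∈ es, ok e = true) (g : L5) :
    (run k L es (cd g) = 0 → D ρ es (ρ g u) = 0) ∧ (run k L es (cd g) = 2 → D ρ es (ρ g u) ≠ 0) := by
  induction es generalizing g with
  | nil => exact ⟨fun h => absurd h (by simp [run]), fun _ => ne_zero hu g⟩
  | cons e es ih =>
    have ct : mm (mi (cd g)) (mm e (cd g)) = cd (g⁻¹ * (el e * g)) := by
      rw [cd_mul, cd_mul, cd_inv, cd_el (he e (by simp))]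
    have e0 : D ρ (e :: es) (ρ g u) = D ρ es (ρ g (u + ρ (g⁻¹ * (el e * g)) u)) := by
      rw [map_add (ρ g), ← app_mul, mul_inv_cancel_left, app_mul]; rfl
    rw [run, Spor.force_eq, ct, e0]
    split_ifs with c
    · rw [hP _ ((mem_pat hk).2 c), add_self, map_zero, map_zero]
      exact ⟨fun _ => rfl, fun h => absurd h (by simp)⟩
    · split
      · next a ha =>
        obtain ⟨o, b1, b2, b3, b4, b5⟩ := hL a (List.mem_of_find?_eq_some ha)
        have b6 := List.find?_some ha
        rw [nbeq_iff, ← cd_el o] at b6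
        obtain ⟨r, cr, er⟩ := step hk hP b2 b3 b4 b5 (p := el a.1) (by rwa [cd_el o]) b6
        rw [cd_el o] at cr
        rw [er, ← app_mul, ← cr, ← cd_mul]
        exact ih (fun e h => he e (List.mem_cons_of_mem _ h)) _
      · exact ⟨fun h => absurd h (by simp), fun h => absurd h (by simp)⟩

/-- Vectors that are separated by linear maps in a triangular way. -/
theorem le_finrank [Finite V] {N : ℕ} (v : ℕ → V) (φ : ℕ → V →ₗ[ZMod 2] V) (h0 : ∀ n < N, ∀ j < n, φ n (v j) = 0)
    (h1 : ∀ n < N, φ n (v n) ≠ 0) : N ≤ Module.finrank (ZMod 2) V := by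
  have key : ∀ n ≤ N, n ≤ Module.finrank (ZMod 2) (Submodule.span (ZMod 2) (v '' {j | j < n})) := fun n => by
    induction n with
    | zero => exact fun _ => Nat.zero_le _
    | succ n ih =>
      intro hn
      refine (ih (by omega)).trans_lt (Submodule.finrank_lt_finrank_of_lt (lt_of_le_of_ne
        (Submodule.span_mono (Set.image_mono fun j (hj : j < n) => hj.trans n.lt_succ_self)) fun e => h1 n hn ?_))
      refine (Submodule.span_le (p := LinearMap.ker (φ n))).2 ?_
        (e.ge (Submodule.subset_span ⟨n, n.lt_succ_self, rfl⟩))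
      rintro _ ⟨j, hj, rfl⟩
      exact h0 n hn j hj
  exact (key N le_rfl).trans (Submodule.finrank_le _)

/-- The check of eleven vectors. -/
noncomputable def chk (k : ℕ) (L : List (ℕ × ℕ)) (vs : List ℕ) (ws : List (List ℕ)) : Bool :=
  allLt 11 fun n => ok (vs.getD n 0) && (ws.getD n []).all ok && Nat.beq (run k L (ws.getD n []) (vs.getD n 0)) 2 &&
    allLt n fun j => Nat.beq (run k L (ws.getD n []) (vs.getD j 0)) 0

theorem false_of (h : Md ρ) {k : ℕ} {L : List (ℕ × ℕ)} (hk : patOK k = true) (hu : u ≠ 0) (hP : ∀ g ∈ pat k, ρ g u = u)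
    (hL : ∀ a ∈ L, ok a.1 = true ∧ a.1 &&& k = 0 ∧ 1 ≤ a.2 ∧ a.2 ≤ 4 ∧ xc a.2 &&& k = 0 ∧ sm ρ a.2 u = 0)
    {vs : List ℕ} {ws : List (List ℕ)} (hc : chk k L vs ws = true) : False := by
  simp only [chk, allLt_iff, Bool.and_eq_true, nbeq_iff, List.all_eq_true] at hc
  have : Finite V := Nat.finite_of_card_ne_zero (by rw [h.card]; norm_num)
  have h1 := le_finrank (N := 11) (fun n => ρ (el (vs.getD n 0)) u) (fun n => D ρ (ws.getD n []))
    (fun n hn j hj => (run_spec hk hu hP hL _ (hc n hn).1.1.2 _).1 (by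
      rw [cd_el (hc j (by omega)).1.1.1]; exact (hc n hn).2 j hj))
    fun n hn => (run_spec hk hu hP hL _ (hc n hn).1.1.2 _).2 (by rw [cd_el (hc n hn).1.1.1]; exact (hc n hn).1.2)
  have h2 := Module.natCard_eq_pow_finrank (K := ZMod 2) (V := V)
  rw [h.card, Nat.card_zmod] at h2
  have h3 := Nat.pow_le_pow_right two_pos h1
  omega

theorem chk12 : chk (kJ 6) [(17043521, 1), (17043521, 2), (16916545, 2), (4472897, 2)]
    [17043521, 17041537, 16910593, 8522241, 17043490, 17040514, 16909570, 8521218, 17041444, 16844036, 8455684]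
    [[], [17045569], [17109057], [19140673], [17043553], [17044545], [17076289], [18092097], [17044545, 17045569],
      [17076289, 17044545], [18092097, 17044545]] = true := by decide +kernel

theorem chk14 : chk (kJ 18) [(17043521, 1), (17041537, 1), (16847105, 1), (17043521, 4), (16916545, 4), (16847105, 4)]
    [2629761, 4726849, 8917057, 17043521, 1581186, 4726818, 8917026, 17043490, 1581124, 2629668, 8914980]
    [[], [17043649], [17043777], [17044033], [17044545], [17174593, 17043553], [17051713, 17043553],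
      [17059905, 17043553], [17076289, 17044545], [17109057, 17044545], [25432129, 17044545]] = true := by
  decide +kernel

end Mod2

theorem Md.not_12 (h : Md ρ) (hu : Hw ρ u) (h3 : Fx ρ 3 u) (h4 : Fx ρ 4 u) (n1 : ¬ Fx ρ 1 u) (n2 : ¬ Fx ρ 2 u) :
    sm ρ 1 u ≠ 0 ∨ sm ρ 2 u ≠ 0 := by
  by_contra c
  simp only [not_or, not_not] at c
  refine Mod2.false_of h (by decide +kernel) hu.ne (hu.fix_of (J := 6) fun i hi h1 hb => ?_) ?_ Mod2.chk12
  · interval_cases i <;> first | assumption | exact absurd hb (by decide)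
  · simp only [List.forall_mem_cons, List.not_mem_nil, false_imp_iff, implies_true, and_true, c.1, c.2]
    decide +kernel

theorem Md.not_14 (h : Md ρ) (hu : Hw ρ u) (h2 : Fx ρ 2 u) (h3 : Fx ρ 3 u) (n1 : ¬ Fx ρ 1 u) (n4 : ¬ Fx ρ 4 u) :
    sm ρ 1 u ≠ 0 ∨ sm ρ 4 u ≠ 0 := by
  by_contra c
  simp only [not_or, not_not] at c
  refine Mod2.false_of h (by decide +kernel) hu.ne (hu.fix_of (J := 18) fun i hi h1 hb => ?_) ?_ Mod2.chk14
  · interval_cases i <;> first | assumption | exact absurd hb (by decide)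
  · simp only [List.forall_mem_cons, List.not_mem_nil, false_imp_iff, implies_true, and_true, c.1, c.2]
    decide +kernel

end Cfsg.Agent.R20
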