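import Mathlib
import Cfsg.Agent.R20.Mod3
import Cfsg.Agent.GT.ElemAbRep

set_option autoImplicit false

namespace Cfsg.Agent.R20

open Cfsg.Agent.Spor Cfsg.Agent.Inv.Fz Subgroup

variable {V : Type*} [AddCommGroup V] [Module (ZMod 2) V] {ρ : Representation (ZMod 2) L5 V} {u : V}

namespace Mod4

theorem two (v : V) : v + v = 0 := by
  rw [← two_smul (ZMod 2) v, show (2 : ZMod 2) = 0 from rfl, zero_smul]

theorem ex_of {P : ℕ → Prop} {l : List ℕ} (h : ∃ m ∈ l, ok m = true ∧ P m) : ∃ g : L5, P (cd g) :=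
  let ⟨m, _, h1, h2⟩ := h
  ⟨el m, by rwa [cd_el h1]⟩

theorem tr1 : ∀ p < 32, p ≠ 0 → ∃ g : L5, ap (cd g) 1 = p := fun p hp h0 =>
  ex_of (P := fun m => ap m 1 = p)
    (l := [pk p 2 4 8 16, pk p 1 4 8 16, pk p 1 2 8 16, pk p 1 2 4 16, pk p 1 2 4 8]) (by
      revert p; decide +kernel)

theorem tr2 : ∀ q < 32, 2 ≤ q → ∃ g : L5, ap (cd g) 1 = 1 ∧ ap (cd g) 2 = q := fun q hq h0 =>
  ex_of (P := fun m => ap m 1 = 1 ∧ ap m 2 = q)
    (l := [pk 1 q 4 8 16, pk 1 q 2 8 16, pk 1 q 2 4 16, pk 1 q 2 4 8]) (by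
      revert q; decide +kernel)

theorem tr3 : ∀ r < 32, 4 ≤ r → ∃ g : L5, ap (cd g) 1 = 1 ∧ ap (cd g) 2 = 2 ∧ ap (cd g) 4 = r := fun r hr h0 =>
  ex_of (P := fun m => ap m 1 = 1 ∧ ap m 2 = 2 ∧ ap m 4 = r)
    (l := [pk 1 2 r 8 16, pk 1 2 r 4 16, pk 1 2 r 4 8]) (by
      revert r; decide +kernel)

theorem ap_surj (g : L5) {v : ℕ} (hv : v < 32) : ∃ w < 32, ap (cd g) w = v :=
  ⟨_, ap_lt _ _, by simpa using ap_cd_inv g⁻¹ hv⟩

/-- A function on decomposable bivectors that commutes with the action and satisfies one additive relation is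
additive. -/
theorem add_of {B : ℕ → V} (B0 : B 0 = 0)
    (hB : ∀ g, ∀ p < 32, ∀ q < 32, ρ g (B (wg p q)) = B (wg (ap (cd g) p) (ap (cd g) q)))
    (h3 : B 3 = B 1 + B 2) : ∀ p < 32, ∀ q < 32, ∀ r < 32, B (wg p (q ^^^ r)) = B (wg p q) + B (wg p r) := by
  have tr : ∀ g, ∀ p < 32, ∀ q < 32, ∀ r < 32, B (wg p (q ^^^ r)) = B (wg p q) + B (wg p r) →
      B (wg (ap (cd g) p) (ap (cd g) q ^^^ ap (cd g) r)) =
        B (wg (ap (cd g) p) (ap (cd g) q)) + B (wg (ap (cd g) p) (ap (cd g) r)) := by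
    intro g p hp q hq r hr e
    rw [← ap_xor, ← hB g p hp _ (Nat.xor_lt_two_pow (n := 5) hq hr), e, map_add, hB g p hp q hq, hB g p hp r hr]
  have z : ∀ p < 32, ∀ q < 32, ∀ r < 32, wg p q = 0 → B (wg p (q ^^^ r)) = B (wg p q) + B (wg p r) := by
    intro p hp q hq r hr e
    rw [wg_xor p hp q hq r hr, e, B0, Nat.zero_xor, zero_add]
  have w : wg 1 0 = 0 ∧ wg 1 1 = 0 ∧ wg 1 2 = 1 ∧ wg 1 3 = 1 ∧ wg 1 4 = 2 ∧ wg 1 6 = 3 := by decide +kernel
  obtain ⟨w0, w1, w2, w3, w4, w6⟩ := w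
  have a12 : ∀ r < 32, B (wg 1 (2 ^^^ r)) = B (wg 1 2) + B (wg 1 r) := by
    intro r hr
    by_cases h : 4 ≤ r
    · obtain ⟨g, e1, e2, e4⟩ := tr3 r hr h
      have := tr g 1 (by norm_num) 2 (by norm_num) 4 (by norm_num) (by
        rw [show 2 ^^^ 4 = 6 from rfl, w2, w4, w6, h3])
      rwa [e1, e2, e4] at this
    · have h : r < 4 := not_le.1 h
      interval_cases r
      · rw [show 2 ^^^ 0 = 2 from rfl, w0, B0, add_zero]
      · rw [show 2 ^^^ 1 = 3 from rfl, w1, w2, w3, B0, add_zero]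
      · rw [show 2 ^^^ 2 = 0 from rfl, w0, B0, two]
      · rw [show 2 ^^^ 3 = 1 from rfl, w1, w2, w3, B0, two]
  have a1 : ∀ q < 32, ∀ r < 32, B (wg 1 (q ^^^ r)) = B (wg 1 q) + B (wg 1 r) := by
    intro q hq r hr
    by_cases h : 2 ≤ q
    · obtain ⟨g, e1, e2⟩ := tr2 q hq h
      obtain ⟨r', hr', rfl⟩ := ap_surj g hr
      have := tr g 1 (by norm_num) 2 (by norm_num) r' hr' (a12 r' hr')
      rwa [e1, e2] at this
    · have h : q < 2 := not_le.1 h
      refine z 1 (by norm_num) q hq r hr ?_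
      interval_cases q
      exacts [w0, w1]
  intro p hp q hq r hr
  by_cases h : p = 0
  · exact z p hp q hq r hr (by rw [h, zero_wg hq])
  · obtain ⟨g, rfl⟩ := tr1 p hp h
    obtain ⟨q', hq', rfl⟩ := ap_surj g hq
    obtain ⟨r', hr', rfl⟩ := ap_surj g hr
    exact tr g 1 (by norm_num) q' hq' r' hr' (a1 q' hq' r' hr')

/-- The additive extension of the values on the basis. -/
def ext (B : ℕ → V) (a : ℕ) : V := ∑ k ∈ Finset.range 10, if a.testBit k then B (2 ^ k) else 0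

theorem ext_xor (B : ℕ → V) (a b : ℕ) : ext B (a ^^^ b) = ext B a + ext B b := by
  simp only [ext, ← Finset.sum_add_distrib, Nat.testBit_xor]
  refine Finset.sum_congr rfl fun k _ => ?_
  cases a.testBit k <;> cases b.testBit k <;> simp [two]

omit [Module (ZMod 2) V] in
theorem ext_zero (B : ℕ → V) : ext B 0 = 0 := by simp [ext]

omit [Module (ZMod 2) V] in
theorem ext_pow (B : ℕ → V) {k : ℕ} (hk : k < 10) : ext B (2 ^ k) = B (2 ^ k) := by
  rw [ext, Finset.sum_eq_single k (fun b _ hb => by simp [Nat.testBit_two_pow, hb.symm]) (by simp [hk])]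
  simp

theorem ext_wg {B : ℕ → V} (B0 : B 0 = 0)
    (hB : ∀ p < 32, ∀ q < 32, ∀ r < 32, B (wg p (q ^^^ r)) = B (wg p q) + B (wg p r)) :
    ∀ p < 32, ∀ q < 32, ext B (wg p q) = B (wg p q) := by
  refine xor_ind (n := 5) (fun v hv => by rw [zero_wg hv, ext_zero, B0]) (fun i hi => ?_)
    fun a ha b hb h1 h2 v hv => by
      rw [xor_wg hv ha hb, ext_xor, h1 v hv, h2 v hv, ← xor_wg hv ha hb,
        wg_comm _ (Nat.xor_lt_two_pow (n := 5) ha hb) _ hv, hB v hv a ha b hb, wg_comm _ hv _ ha,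
        wg_comm _ hv _ hb]
  have hi' : 2 ^ i < 32 := Nat.pow_lt_pow_right (m := i) (n := 5) one_lt_two hi
  refine xor_ind (n := 5) (by rw [wg_zero hi', ext_zero, B0]) (fun j hj => ?_)
    fun a ha b hb h1 h2 => by
      rw [hB _ hi' a ha b hb, wg_xor _ hi' _ ha _ hb, ext_xor, h1, h2]
  have hj' : 2 ^ j < 32 := Nat.pow_lt_pow_right (m := j) (n := 5) one_lt_two hj
  have lt : ∀ j < 5, ∀ i < j, j * (j - 1) / 2 + i < 10 := by decide
  rcases lt_trichotomy i j with h | rfl | h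
  · rw [wg_basis j hj i h, ext_pow _ (lt j hj i h)]
  · rw [wg_self _ hi', ext_zero, B0]
  · rw [wg_comm _ hi' _ hj', wg_basis i hi j h, ext_pow _ (lt i hi j h)]

end Mod4

open Mod4

theorem Md.coord (h : Md ρ) (hu : u ≠ 0) (hY : ∀ g ∈ pat kY, ρ g u = u) (h0 : sm ρ 2 u = 0) :
    ∃ f : ℕ → V, (∀ a < 1024, ∀ b < 1024, f (a ^^^ b) = f a + f b) ∧ (∀ a < 1024, f a = 0 → a = 0) ∧
      (∀ v, ∃ a < 1024, f a = v) ∧ ∀ g, ∀ a < 1024, ρ g (f a) = f (ac (cd g) a) := by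
  obtain ⟨U, U1, hU⟩ := exists_U hY
  let B : ℕ → V := fun a => if a = 0 then 0 else U a
  have B0 : B 0 = 0 := if_pos rfl
  have hB : ∀ g, ∀ p < 32, ∀ q < 32, ρ g (B (wg p q)) = B (wg (ap (cd g) p) (ap (cd g) q)) := by
    intro g p hp q hq
    rw [← ac_wg _ p hp q hq]
    by_cases e : wg p q = 0
    · rw [e, ac_zero, B0, map_zero]
    · have r : rk2 (wg p q) = true := rk2_iff.2 ⟨e, p, hp, q, hq, rfl⟩
      have e' : ac (cd g) (wg p q) ≠ 0 := (rk2_iff.1 ((rk2_ac g (wg_lt p hp q hq)).trans r)).1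
      simp only [B, if_neg e, if_neg e']
      exact hU g _ (wg_lt p hp q hq) r
  have h3 : B 3 = B 1 + B 2 := by
    have k : rk2 1 = true ∧ ac (idm + 2 ^ (5 * 1 + 2)) 1 = 3 ∧
        ac (mm (idm + 2 ^ (5 * 2 + 1)) (idm + 2 ^ (5 * 1 + 2))) 1 = 2 := by decide +kernel
    have e1 : ρ (E 2 1) u = U 3 := by
      rw [← U1, hU _ 1 (by norm_num) k.1, cd_E (by norm_num) (by norm_num) (by norm_num), k.2.1]
    have e2 : ρ (E 1 2 * E 2 1) u = U 2 := by
      rw [← U1, hU _ 1 (by norm_num) k.1, cd_mul, cd_E (by norm_num) (by norm_num) (by norm_num),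
        cd_E (by norm_num) (by norm_num) (by norm_num), k.2.2]
    have e3 : u + ρ (E 2 1) u + ρ (E 1 2 * E 2 1) u = 0 := h0
    rw [e1, e2, ← U1] at e3
    change U 3 = U 1 + U 2
    calc U 3 = U 1 + U 3 + U 2 + U 3 := by rw [e3, zero_add]
      _ = U 1 + U 2 + (U 3 + U 3) := by abel
      _ = _ := by rw [two, add_zero]
  have hA := add_of B0 hB h3
  have hW := ext_wg B0 hA
  have eqv : ∀ g, ∀ a < 1024, ρ g (ext B a) = ext B (ac (cd g) a) := fun g => by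
    refine xor_ind (n := 10) (by rw [ac_zero, ext_zero, map_zero]) (fun k hk => ?_) fun a _ b _ ha hb => by
      rw [ext_xor, map_add, ha, hb, ac_xor, ext_xor]
    obtain ⟨j, hj, i, hi, rfl⟩ := exists_pair k hk
    have hi' : 2 ^ i < 32 := Nat.pow_lt_pow_right (m := i) (n := 5) one_lt_two (hi.trans hj)
    have hj' : 2 ^ j < 32 := Nat.pow_lt_pow_right (m := j) (n := 5) one_lt_two hj
    rw [← wg_basis j hj i hi, hW _ hi' _ hj', hB g _ hi' _ hj', ac_wg _ _ hi' _ hj',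
      hW _ (ap_lt _ _) _ (ap_lt _ _)]
  let W : Submodule (ZMod 2) V :=
    { carrier := {v | ∃ a < 1024, ext B a = v}
      zero_mem' := ⟨0, by norm_num, ext_zero B⟩
      add_mem' := by
        rintro _ _ ⟨a, ha, rfl⟩ ⟨b, hb, rfl⟩
        exact ⟨_, Nat.xor_lt_two_pow (n := 10) ha hb, ext_xor B a b⟩
      smul_mem' := by
        rintro c _ ⟨a, ha, rfl⟩
        have : c = 0 ∨ c = 1 := by revert c; decide
        rcases this with rfl | rfl
        · exact ⟨0, by norm_num, by rw [ext_zero, zero_smul]⟩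
        · exact ⟨a, ha, by rw [one_smul]⟩ }
  have hT : W = ⊤ := by
    refine (h.irr W ?_).resolve_left fun e => hu ?_
    · rintro g _ ⟨a, ha, rfl⟩
      exact ⟨_, ac_lt _ _, (eqv g a ha).symm⟩
    · have : u ∈ W := ⟨2 ^ 0, by norm_num, by rw [ext_pow _ (by norm_num), ← U1]; rfl⟩
      rwa [e, Submodule.mem_bot] at this
  have sj : ∀ v, ∃ a < 1024, ext B a = v := fun v => hT.ge (Submodule.mem_top (x := v))
  refine ⟨ext B, fun a _ b _ => ext_xor B a b, fun a ha e => ?_, sj, eqv⟩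
  have bij : Function.Bijective fun a : Fin 1024 => ext B a :=
    (Nat.bijective_iff_surjective_and_card _).2 ⟨fun v => let ⟨a, ha, e⟩ := sj v; ⟨⟨a, ha⟩, e⟩, by
      rw [h.card, Nat.card_fin]⟩
  exact congrArg Fin.val (bij.1 (a₁ := ⟨a, ha⟩) (a₂ := ⟨0, by norm_num⟩) (e.trans (ext_zero B).symm))

theorem exists_ex {N : Type*} [Group N] [Finite N] {B : Subgroup N} (h2 : ∀ b ∈ B, b * b = 1) (hc : Nat.card B = 1024)
    {σ : N →* L5} (hs : Function.Surjective σ) (hk : σ.ker = B) (irr : ∀ W ≤ B, W.Normal → W = ⊥ ∨ W = B) :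
    ∃ X : Ex N, X.σ.ker = B := by
  have hn : B.Normal := hk ▸ σ.normal_ker
  have cm : ∀ a ∈ B, ∀ b ∈ B, a * b = b * a := fun a ha b hb => by
    rw [← inv_eq_of_mul_eq_one_right (h2 _ (mul_mem ha hb)), mul_inv_rev, inv_eq_of_mul_eq_one_right (h2 a ha),
      inv_eq_of_mul_eq_one_right (h2 b hb)]
  have hE : IsElementaryAbelian 2 B :=
    ⟨⟨⟨fun a b => Subtype.ext (cm _ a.2 _ b.2)⟩⟩, fun a ha => by rw [pow_two, h2 a ha]⟩
  have key : ∀ n n' : N, σ n = σ n' → ∀ b ∈ B, n * b * n⁻¹ = n' * b * n'⁻¹ := fun n n' e b hb => by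
    have h1 : n'⁻¹ * n ∈ B := by rw [← hk, MonoidHom.mem_ker, map_mul, map_inv, e, inv_mul_cancel]
    calc n * b * n⁻¹ = n' * (n'⁻¹ * n * b) * n⁻¹ := by group
      _ = _ := by rw [cm _ h1 _ hb]; group
  choose s hs' using hs
  let ρ0 := GT.eaRep hE (H := ⊤) (normalizer_eq_top B).ge
  let ρ : Representation (ZMod 2) L5 (GT.EAV hE) :=
    { toFun := fun g => ρ0 ⟨s g, mem_top _⟩
      map_one' := LinearMap.ext fun x => GT.EAV.ext (by
        refine (key (s 1) 1 (by rw [hs', map_one]) _ x.val_mem).trans ?_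
        simp)
      map_mul' := fun g h => by
        rw [← map_mul]
        exact LinearMap.ext fun x => GT.EAV.ext
          (key (s (g * h)) (s g * s h) (by rw [map_mul, hs', hs', hs']) _ x.val_mem) }
  have hρ : ∀ n x, (ρ (σ n) x).val = n * x.val * n⁻¹ := fun n x => key _ _ (hs' _) _ x.val_mem
  have hM : Md ρ := by
    refine ⟨GT.EAV.card_eq.trans hc, fun W hW => ?_⟩
    have : (GT.EAV.grp W).Normal := ⟨by
      intro y hy n
      obtain ⟨x, hx, rfl⟩ := GT.EAV.mem_grp.1 hy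
      exact GT.EAV.mem_grp.2 ⟨_, hW (σ n) x hx, hρ n x⟩⟩
    exact (irr _ (GT.EAV.grp_le W) this).imp (fun e => GT.EAV.grp_injective (e.trans GT.EAV.grp_bot.symm))
      fun e => GT.EAV.grp_injective (e.trans GT.EAV.grp_top.symm)
  obtain ⟨τ, u, hu, hY, h0⟩ := hM.hw
  obtain ⟨f, f1, f2, f3, f4⟩ := (hM.twist τ).coord hu hY h0
  have hker : ∀ n, τ.symm (σ n) = 1 ↔ n ∈ B := fun n => by
    rw [← hk, MonoidHom.mem_ker, MulEquiv.map_eq_one_iff]
  refine ⟨⟨τ.symm.toMonoidHom.comp σ, fun a => (f a).val, fun a ha b hb => ?_, fun a ha e => ?_, fun n => ?_,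
    fun g => ⟨s (τ g), by simp [hs']⟩, fun n a ha => ?_⟩, Subgroup.ext hker⟩
  · rw [f1 a ha b hb, GT.EAV.val_add]
  · exact f2 a ha (GT.EAV.val_eq_one_iff.1 e)
  · refine (hker n).trans ⟨fun hn => ?_, fun ⟨a, _, e⟩ => e ▸ (f a).val_mem⟩
    obtain ⟨a, ha, e⟩ := f3 (GT.EAV.mk hE n hn)
    exact ⟨a, ha, by rw [e, GT.EAV.val_mk]⟩
  · have := f4 (τ.symm (σ n)) a ha
    rw [← hρ]
    refine congrArg GT.EAV.val (Eq.trans ?_ this)
    simp

end Cfsg.Agent.R20
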