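import Mathlib
import Cfsg.Agent.O8.D
import Cfsg.Agent.S2607

/-!
Curtis–Tits recognition of `Ω⁺(10, 2)` for a group with trivial centre.
-/

set_option autoImplicit false

namespace Cfsg.Agent.R20

open Subgroup Cfsg.Agent.Chev Cfsg.Agent.Ch Cfsg.Agent.Cl Cfsg.Agent.Chev.CD

/-- The group `Ω⁺(10, 2)`. -/
abbrev Om10 : Type := Omega (ZMod 2) (quadFormPlus 5 (ZMod 2))

theorem center_om10 : center Om10 = ⊥ := by
  have := Spor.FL.center_omega_two (Cl.quad_plus_nondeg (m := 5) (F := ZMod 2)) (by simp)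
  rwa [Cl.coe_quad_plus] at this

/-- `Ω⁺(10, 2)` has trivial centre. -/
noncomputable def o10Equiv : POmega (ZMod 2) (quadFormPlus 5 (ZMod 2)) ≃* Om10 :=
  (QuotientGroup.quotientMulEquivOfEq center_om10).trans QuotientGroup.quotientBot

theorem card_om10 : Nat.card Om10 = 23499295948800 := by
  have := S0293.result (ZMod.card 2) 5 (by norm_num)
  rw [Nat.card_congr o10Equiv.toEquiv] at this
  simpa [Finset.prod_range_succ] using this

theorem simple_om10 : IsSimpleGroup Om10 :=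
  haveI := S0296.result (F := ZMod 2) 5 (by norm_num)
  o10Equiv.symm.isSimpleGroup

/-- The diagram `D₅`: the path `0, 1, 2, 3` and the edge `2, 4`. -/
def adj5 (i k : Fin 5) : Prop := (i, k) ∈ [((0 : Fin 5), (1 : Fin 5)), (1, 0), (1, 2), (2, 1), (2, 3), (3, 2), (2, 4), (4, 2)]

instance (i k : Fin 5) : Decidable (adj5 i k) := by unfold adj5; infer_instance

/-- A centreless group generated by a Curtis–Tits system of type `D₅` over the field with two elements. -/
theorem ct_D5 {H : Type*} [Group H] [Nontrivial H] (hZ : center H = ⊥) (X Y : Fin 5 → ZMod 2 → H)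
    (hE : ∀ i k, adj5 i k → Edge (X i) (Y i) (X k) (Y k))
    (L : Fin 5 → Subgroup H) (hX : ∀ i t, X i t ∈ L i) (hY : ∀ i t, Y i t ∈ L i)
    (hc : ∀ i k, i ≠ k → ¬ adj5 i k → ∀ a ∈ L i, ∀ b ∈ L k, a * b = b * a)
    (hgen : ∀ K : Subgroup H, (∀ i t, X i t ∈ K ∧ Y i t ∈ K) → K = ⊤) : Nonempty (H ≃* Om10) := by
  obtain ⟨e⟩ := nonempty_Omega_equiv_EG (quad_plus_nondeg (m := 3 + 2) (F := ZMod 2))
    (fun h => by have := h.2.1; simp at this) (by simp)
  have hs0 : IsSimpleGroup (Omega (ZMod 2) ⇑(quad_plus (3 + 2) (ZMod 2))) := simple_om10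
  have hs1 := e.symm.isSimpleGroup
  have h := isCD_bakO (quad_plus_nondeg (m := 3 + 2) (F := ZMod 2))
  have h₀ := h.isModel (framePlus _ (ZMod 2))
  have a1 : ∀ i k : Fin 5, (st false 3).A ((st false 3).sr i) ((st false 3).sr k) = -1 ↔ adj5 i k := fun i k => by
    simp only [st_A_sr, Fin.ext_iff, and_true]
    revert i k; decide
  have a2 : ∀ i k : Fin 5, (st false 3).A ((st false 3).sr i) ((st false 3).sr k) = 0 → i ≠ k ∧ ¬ adj5 i k := fun i k => by
    simp only [st_A_sr, Fin.ext_iff, and_true]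
    revert i k; decide
  have a3 : ∀ i k : Fin 5, adj5 i k → ∃ j : Fin 5, ¬ (3 : ℤ) ∣ (st false 3).A ((st false 3).sr i) ((st false 3).sr j) +
      2 * (st false 3).A ((st false 3).sr k) ((st false 3).sr j) := fun i k => by
    simp only [st_A_sr, Fin.ext_iff, and_true]
    revert i k; decide
  obtain ⟨y, h1, h2⟩ := h₀.exists_isSt_of_edges st_sl st_std
    (fun i => ((by decide : ∀ i : Fin 5, ∃ k, adj5 i k) i).imp fun k => (a1 i k).2)
    (fun i k h => by
      obtain ⟨j, hj⟩ := a3 i k ((a1 i k).1 h)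
      exact ⟨_, hj⟩) X Y (fun i k h => hE i k ((a1 i k).1 h)) L hX hY
    fun i k h => hc i k (a2 i k h).1 (a2 i k h).2
  have hg : XS y Set.univ = ⊤ := hgen _ fun i t => by
    rw [← (h1 i).1, ← (h1 i).2]
    exact ⟨x_mem_XS y (Set.mem_univ _) t, x_mem_XS y (Set.mem_univ _) t⟩
  obtain ⟨f, hf⟩ := h₀.exists_surj (h.XS_xE _ framePlus_V0 (sr false 0)) h2 hg
  let e1 := (QuotientGroup.quotientMulEquivOfEq hZ).trans QuotientGroup.quotientBot
  let f' : _ →* H := e1.toMonoidHom.comp f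
  have hs : Function.Surjective f' := by
    rw [← MonoidHom.range_eq_top, eq_top_iff, ← hg]
    exact XS_le fun r _ t => ⟨h.xE (framePlus _ (ZMod 2)) r t, by simp only [f', MonoidHom.comp_apply, hf]; rfl⟩
  have hi : Function.Injective f' := by
    rw [← MonoidHom.ker_eq_bot_iff]
    refine (Subgroup.Normal.eq_bot_or_eq_top (inferInstance : f'.ker.Normal)).resolve_right fun hk => ?_
    obtain ⟨a, ha⟩ := exists_ne (1 : H)
    obtain ⟨a, rfl⟩ := hs a
    exact ha (show a ∈ f'.ker from hk ▸ trivial)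
  exact ⟨(MulEquiv.ofBijective f' ⟨hi, hs⟩).symm.trans e.symm⟩

end Cfsg.Agent.R20
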