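import Mathlib
import Cfsg.Agent.R20.OmD5
import Cfsg.Agent.Spor.FOIso

/-!
A group with a self-centralising normal subgroup `Ω⁺(10, 2)`.
-/

set_option autoImplicit false

namespace Cfsg.Agent.R20

open Subgroup Cfsg.Agent.Cl

/-- The group `O⁺(10, 2)`. -/
abbrev GO10 : Type := isometryGroup (ZMod 2) (quadFormPlus 5 (ZMod 2))

section Act

variable {G Y : Type*} [Group G] [Group Y] {E : Subgroup G} [E.Normal] (e : E ≃* Y)

/-- The action by conjugation, transported along an isomorphism. -/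
def omAct : G →* MulAut Y := (MulAut.congr e).toMonoidHom.comp MulAut.conjNormal

theorem omAct_apply (g : G) (x : E) : ((e.symm (omAct e g (e x)) : E) : G) = g * x * g⁻¹ := by
  simp [omAct]

theorem omAct_inn (x : E) : omAct e x = MulAut.conj (e x) := MulEquiv.ext fun y => by
  obtain ⟨y, rfl⟩ := e.surjective y
  rw [MulAut.conj_apply, ← map_inv, ← map_mul, ← map_mul, ← e.symm_apply_eq]
  exact Subtype.ext (omAct_apply e x y)

theorem omAct_inj (hC : centralizer (E : Set G) = ⊥) : Function.Injective (omAct e) :=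
  (injective_iff_map_eq_one _).2 fun g h => mem_bot.1 (hC ▸ fun x hx => by
    have := omAct_apply e g ⟨x, hx⟩
    rw [h, MulAut.one_apply, e.symm_apply_apply] at this
    exact eq_mul_inv_iff_mul_eq.1 this)

include e in
theorem omAct_equiv (hC : centralizer (E : Set G) = ⊥) {t : G} (ht : t ∉ E) (h : Nat.card (Out Y) = 2) :
    Nonempty (G ≃* MulAut Y) := by
  refine ⟨MulEquiv.ofBijective (omAct e) ⟨omAct_inj e hC, fun α => ?_⟩⟩
  have k : ∀ β ∈ Inn Y, β ∈ (omAct e).range := fun β ⟨y, hy⟩ =>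
    ⟨e.symm y, by rw [omAct_inn, e.apply_symm_apply, hy]⟩
  have ho : omAct e t ∉ Inn Y := fun ⟨y, h⟩ => by
    obtain ⟨y, rfl⟩ := e.surjective y
    exact ht (omAct_inj e hC ((omAct_inn e y).trans h) ▸ y.2)
  by_cases h1 : α ∈ Inn Y
  · exact k α h1
  · exact (mul_mem_cancel_right (show omAct e t ∈ (omAct e).range from ⟨t, rfl⟩)).1
      (k _ ((mul_mem_iff_of_index_two h).2 (iff_of_false h1 ho)))

end Act

theorem card_out_pom10 : Nat.card (Out (POmega (ZMod 2) (quadFormPlus 5 (ZMod 2)))) = 2 := by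
  have h := S2607.result (F := ZMod 2) (f := 1) (m := 5) le_rfl (ZMod.card 2) (by norm_num)
  rw [if_neg (by norm_num)] at h
  obtain ⟨f⟩ := h
  rw [Nat.card_congr f.toEquiv]
  simp

theorem index_om10 : (Omega (ZMod 2) (quadFormPlus 5 (ZMod 2))).index = 2 := by
  have h := index_Omega_eq (P := quad_plus 5 (ZMod 2))
  rw [index_commutator_OG_of_two_eq_zero (quad_plus_nondeg (m := 5) (F := ZMod 2))
    (not_oExc_of_finrank (by simp)) (by decide) (by simp)] at h
  exact h

theorem center_go10 : center GO10 = ⊥ := by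
  have := Spor.TT.center_O_two (quad_plus_nondeg (m := 5) (F := ZMod 2)) (by simp)
    (quad_exists_singular _ (by simp))
  rwa [coe_quad_plus] at this

theorem centralizer_commutator_eq_bot {H : Type*} [Group H] (h1 : center H = ⊥) (h2 : center (commutator H) = ⊥) :
    centralizer (commutator H : Set H) = ⊥ := by
  rw [eq_bot_iff, ← h1]
  intro c hc
  rw [mem_center_iff]
  intro g
  have m : g * c * g⁻¹ * c⁻¹ ∈ commutator H := commutator_mem_commutator (mem_top g) (mem_top c)
  have m2 : g * c * g⁻¹ * c⁻¹ ∈ centralizer (commutator H : Set H) :=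
    mul_mem (Normal.conj_mem inferInstance c hc g) (inv_mem hc)
  have m3 : (⟨_, m⟩ : commutator H) ∈ center (commutator H) := mem_center_iff.2 fun y => Subtype.ext (m2 y y.2)
  rw [h2, mem_bot] at m3
  exact mul_inv_eq_iff_eq_mul.1 (mul_inv_eq_one.1 (congrArg Subtype.val m3))

theorem centralizer_om10 : centralizer (Omega (ZMod 2) (quadFormPlus 5 (ZMod 2)) : Set GO10) = ⊥ :=
  centralizer_commutator_eq_bot center_go10 center_om10

theorem card_go10 : Nat.card GO10 = 2 * 23499295948800 := by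
  rw [← card_om10, ← index_om10, mul_comm, card_mul_index]

/-- A group with a self-centralising normal subgroup `Ω⁺(10, 2)`. -/
theorem om_end {G : Type*} [Group G] {E : Subgroup G} [E.Normal] (e : E ≃* Om10)
    (hC : centralizer (E : Set G) = ⊥) : (E = ⊤ ∧ Nonempty (G ≃* Om10)) ∨ (E ≠ ⊤ ∧ Nonempty (G ≃* GO10)) := by
  by_cases h : E = ⊤
  · subst h
    exact Or.inl ⟨rfl, ⟨topEquiv.symm.trans e⟩⟩
  obtain ⟨t, ht⟩ : ∃ t, t ∉ E := by simpa [eq_top_iff'] using h
  obtain ⟨t', ht'⟩ : ∃ t, t ∉ Omega (ZMod 2) (quadFormPlus 5 (ZMod 2)) := by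
    by_contra! k
    have := index_om10
    rw [(eq_top_iff' _).2 k, index_top] at this
    omega
  obtain ⟨f⟩ := omAct_equiv (e.trans o10Equiv.symm) hC ht card_out_pom10
  obtain ⟨f'⟩ := omAct_equiv o10Equiv.symm centralizer_om10 ht' card_out_pom10
  exact Or.inr ⟨h, ⟨f.trans f'.symm⟩⟩

end Cfsg.Agent.R20
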