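import Mathlib
import Cfsg.Agent.R20.Bas

/-! The automorphism `th` of `P`. -/

set_option autoImplicit false

namespace Cfsg.Agent.R20

open Cfsg.Agent.Spor Cfsg.Agent.Inv.Fz Subgroup

namespace The

theorem cd_tu_mul {g : L5} (hg : g ∈ pat kK) {u : ℕ} (hu : u < 16) :
    cd (tu u * g) % 1048576 = cd g % 1048576 ∧ cd (tu u * g) / 1048576 = u + 16 := by
  have hP : g ∈ pat kP := pat_mono (by decide) hg
  have c : ∀ j < 4, col (cd (tu u * g)) j = col (cd g) j := fun j hj => by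
    have h5 : j < 5 := by omega
    have h16 : 2 ^ j < 16 := Nat.pow_lt_pow_right (m := j) (n := 4) one_lt_two hj
    rw [← ap_pow _ h5, ← ap_pow _ h5, ap_mul _ _ (by omega), (ap_tu u hu).1 _ ((P_lt hP).2 _ h16)]
  have c4 : col (cd (tu u * g)) 4 = u + 16 := by
    rw [← ap_pow _ (by norm_num), ap_mul _ _ (by norm_num), show 2 ^ 4 = 16 from rfl, (land_kK hP).1 hg, (ap_tu u hu).2.1]
    exact (by decide : ∀ u < 16, u ^^^ 16 = u + 16) u hu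
  have h0 := c 0 (by norm_num); have h1 := c 1 (by norm_num); have h2 := c 2 (by norm_num); have h3 := c 3 (by norm_num)
  have := cd_lt (tu u * g)
  simp only [col_eq, Nat.reducePow] at h0 h1 h2 h3 c4
  omega

theorem mul_K_a (y : M) {k : M} (hk : k ∈ K) : (y * k).a = y.a := by
  rw [mul_a, (mem_K.1 hk).1, ac_zero, Nat.xor_zero]

theorem xor_lt64 {ζ w u : ℕ} (hζ : ζ < 64) (hw : w < 16) (hu : u < 16) : ζ ^^^ wg u w < 64 :=
  Nat.xor_lt_two_pow (n := 6) hζ (wg_lt64 _ hu _ hw)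

theorem thc_rr {ζ w u : ℕ} (hζ : ζ < 64) (hw : w < 16) (hu : u < 16) {k : M} (hk : k ∈ K) :
    thc (rr ζ w u * k).c = (rr (ζ ^^^ wg u w) u w * k).c := by
  obtain ⟨h1, h2⟩ := cd_tu_mul (mem_K.1 hk).2 hu
  obtain ⟨h3, h4⟩ := cd_tu_mul (mem_K.1 hk).2 hw
  have e1 : uu (cd (tu u * k.g)) = u := by
    change cd _ >>> 20 &&& (2 ^ 4 - 1) = u
    rw [Nat.and_two_pow_sub_one_eq_mod, Nat.shiftRight_eq_div_pow, h2]
    omega
  have e2 : Nat.shiftRight (ζ + 64 * w) 6 = w := by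
    change (ζ + 64 * w) >>> 6 = w
    rw [Nat.shiftRight_eq_div_pow]
    omega
  have e3 : Nat.land (rr ζ w u * k).c 63 = ζ := by
    change M.c _ &&& (2 ^ 6 - 1) = ζ
    rw [Nat.and_two_pow_sub_one_eq_mod, M.c, mul_K_a _ hk, rr_a hζ hw]
    omega
  have e4 : cd (tu u * k.g) ^^^ 1048576 * (u ^^^ w) = cd (tu w * k.g) := by
    have a1 := Nat.xor_div_two_pow (a := cd (tu u * k.g)) (b := 1048576 * (u ^^^ w)) (n := 20)
    have a2 := Nat.xor_mod_two_pow (a := cd (tu u * k.g)) (b := 1048576 * (u ^^^ w)) (n := 20)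
    have a3 : ∀ u < 16, ∀ w < 16, (u + 16) ^^^ (u ^^^ w) = w + 16 := by decide
    rw [show 2 ^ 20 = 1048576 from rfl] at a1 a2
    rw [h2, Nat.mul_div_cancel_left _ (by norm_num), a3 u hu w hw] at a1
    rw [Nat.mul_mod_right, Nat.xor_zero] at a2
    omega
  rw [c_eq (rr _ u w * k), mul_K_a _ hk, rr_a (xor_lt64 hζ hw hu) hu, mul_g, rr_g, ← e4]
  simp only [thc, Spor.force_eq, e3, ea_c, em_c, mul_K_a _ hk, rr_a hζ hw, mul_g, rr_g, e1, e2]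
  rfl

theorem th_rr_K {ζ w u : ℕ} (hζ : ζ < 64) (hw : w < 16) (hu : u < 16) {k : M} (hk : k ∈ K) :
    th (rr ζ w u * k) = rr (ζ ^^^ wg u w) u w * k := by rw [th, thc_rr hζ hw hu hk, ofc_c]

theorem ty_rr {ζ w u : ℕ} (hζ : ζ < 64) (hw : w < 16) (hu : u < 16) : ty (rr ζ w u) =
    if w = 0 ∧ u = 0 then (if ζ = 0 then 0 else if rk2 ζ then 1 else 2) else if rk2 (ζ + 64 * (w ||| u)) then 3 else 4 := by
  have h : (ζ + 64 * w < 64 ∧ tu u = 1) ↔ w = 0 ∧ u = 0 :=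
    ⟨fun h => ⟨by omega, by rw [← uu_tu hu, h.2, ← tu_zero, uu_tu (by norm_num)]⟩,
      fun h => ⟨by omega, by rw [h.2, tu_zero]⟩⟩
  simp only [ty, rr_a hζ hw, rr_g, uu_tu hu, h, show (ζ + 64 * w) % 64 = ζ by omega, show (ζ + 64 * w) / 64 = w by omega]
  split_ifs with h1 <;> simp_all

end The

open The

theorem c_th {x : M} (hx : x ∈ P) : (th x).c = thc x.c := by
  obtain ⟨y, hy, k, hk, rfl⟩ := exists_R_K hx
  obtain ⟨ζ, hζ, w, hw, u, hu, rfl⟩ := mem_R.1 hy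
  rw [th_rr_K hζ hw hu hk, thc_rr hζ hw hu hk]

theorem th_rr {ζ w u : ℕ} (hζ : ζ < 64) (hw : w < 16) (hu : u < 16) : th (rr ζ w u) = rr (ζ ^^^ wg u w) u w := by
  simpa only [mul_one] using th_rr_K hζ hw hu (one_mem K)

theorem th_mul_K {y k : M} (hy : y ∈ R) (hk : k ∈ K) : th (y * k) = th y * k := by
  obtain ⟨ζ, hζ, w, hw, u, hu, rfl⟩ := mem_R.1 hy
  rw [th_rr_K hζ hw hu hk, th_rr hζ hw hu]

theorem th_R {x : M} (hx : x ∈ R) : th x ∈ R := by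
  obtain ⟨ζ, hζ, w, hw, u, hu, rfl⟩ := mem_R.1 hx
  exact mem_R.2 ⟨_, xor_lt64 hζ hw hu, u, hu, w, hw, th_rr hζ hw hu⟩

theorem The.th_mul_R {x y : M} (hx : x ∈ R) (hy : y ∈ R) : th (x * y) = th x * th y := by
  obtain ⟨ζ, hζ, w, hw, u, hu, rfl⟩ := mem_R.1 hx
  obtain ⟨ζ', hζ', w', hw', u', hu', rfl⟩ := mem_R.1 hy
  have l : ∀ {a : ℕ}, a < 16 → a < 32 := fun h => h.trans (by norm_num)
  have hww := Nat.xor_lt_two_pow (n := 4) hw hw'
  rw [rr_mul hζ hw hu hζ' hw' hu', th_rr (xor_lt64 (Nat.xor_lt_two_pow (n := 6) hζ hζ') hu hw') hww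
    (Nat.xor_lt_two_pow (n := 4) hu hu'), th_rr hζ hw hu, th_rr hζ' hw' hu',
    rr_mul (xor_lt64 hζ hw hu) hu hw (xor_lt64 hζ' hw' hu') hu' hw', xor_wg (l hww) (l hu) (l hu'),
    wg_xor _ (l hu) _ (l hw) _ (l hw'), wg_xor _ (l hu') _ (l hw) _ (l hw'), wg_comm _ (l hw') _ (l hu)]
  simp only [Nat.xor_assoc, Nat.xor_left_comm, Nat.xor_comm, Nat.xor_xor_cancel_left]

theorem The.th_conj_K {y k : M} (hy : y ∈ R) (hk : k ∈ K) : th (k * y * k⁻¹) = k * th y * k⁻¹ := by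
  obtain ⟨ζ, hζ, w, hw, u, hu, rfl⟩ := mem_R.1 hy
  obtain ⟨h1, h2⟩ := K_lt hk
  rw [conj_rr hk hζ hw hu, th_rr (h1 _ hζ) (h2 _ hw) (h2 _ hu), th_rr hζ hw hu, conj_rr hk (xor_lt64 hζ hw hu) hu hw,
    ac_xor, ac_wg _ _ (by omega) _ (by omega)]

theorem th_mul {x y : M} (hx : x ∈ P) (hy : y ∈ P) : th (x * y) = th x * th y := by
  obtain ⟨a, ha, k, hk, rfl⟩ := exists_R_K hx
  obtain ⟨b, hb, l, hl, rfl⟩ := exists_R_K hy
  have hb' : k * b * k⁻¹ ∈ R := (mem_normalizer_iff.1 (P_le_nR (K_le_P hk)) b).1 hb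
  calc _ = th (a * (k * b * k⁻¹) * (k * l)) := by congr 1; group
    _ = _ := by
      rw [th_mul_K (mul_mem ha hb') (mul_mem hk hl), th_mul_R ha hb', th_conj_K hb hk, th_mul_K ha hk, th_mul_K hb hl]
      group

theorem th_one : th 1 = 1 := by simpa using th_mul (one_mem P) (one_mem P)

theorem th_inv {x : M} (hx : x ∈ P) : th x⁻¹ = (th x)⁻¹ :=
  eq_inv_of_mul_eq_one_left (by rw [← th_mul (inv_mem hx) hx, inv_mul_cancel, th_one])

theorem th_mem {x : M} (hx : x ∈ P) : th x ∈ P := by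
  obtain ⟨y, hy, k, hk, rfl⟩ := exists_R_K hx
  exact th_mul_K hy hk ▸ mul_mem (T_le_P (R_le_T (th_R hy))) (K_le_P hk)

theorem th_th {x : M} (hx : x ∈ P) : th (th x) = x := by
  obtain ⟨y, hy, k, hk, rfl⟩ := exists_R_K hx
  obtain ⟨ζ, hζ, w, hw, u, hu, rfl⟩ := mem_R.1 hy
  rw [th_rr_K hζ hw hu hk, th_rr_K (xor_lt64 hζ hw hu) hu hw hk, wg_comm w (by omega) u (by omega), Nat.xor_xor_cancel_right]

theorem th_K {k : M} (hk : k ∈ K) : th k = k := by simpa only [one_mul, th_one] using th_mul_K (one_mem R) hk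

theorem th_A2 {x : M} (hx : x ∈ A2) : th x = x := by
  obtain ⟨ζ, hζ, u, hu, rfl⟩ := mem_A2.1 hx
  rw [th_rr hζ hu hu, wg_self _ (by omega), Nat.xor_zero]

theorem th_A {x : M} (hx : x ∈ A) : th x ∈ A1 := by
  obtain ⟨ζ, hζ, w, hw, rfl⟩ := mem_A''.1 hx
  exact mem_A1.2 ⟨_, xor_lt64 hζ hw (by norm_num), w, hw, th_rr hζ hw (by norm_num)⟩

theorem th_A1 {x : M} (hx : x ∈ A1) : th x ∈ A := by
  obtain ⟨ζ, hζ, u, hu, rfl⟩ := mem_A1.1 hx
  exact mem_A''.2 ⟨_, xor_lt64 hζ (by norm_num) hu, u, hu, th_rr hζ (by norm_num) hu⟩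

theorem th_T {x : M} (hx : x ∈ T) : th x ∈ T := by
  obtain ⟨y, hy, k, hk, rfl⟩ := exists_R_K (T_le_P hx)
  exact th_mul_K hy hk ▸ mul_mem (R_le_T (th_R hy)) ((mul_mem_cancel_left (R_le_T hy)).1 hx)

theorem th_Q {x : M} (hx : x ∈ Q) : th x ∈ Q := by
  obtain ⟨y, hy, k, hk, rfl⟩ := exists_R_K (T_le_P (T0_le_T (Q_le_T0 hx)))
  obtain ⟨ζ, hζ, w, hw, u, hu, rfl⟩ := mem_R.1 hy
  obtain ⟨h1, h2⟩ := mem_Q.1 hx
  have h3 := congrArg (· / 2 ^ 20) h2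
  simp only [Nat.and_div_two_pow, mul_g, rr_g] at h3
  rw [mul_K_a _ hk, rr_a hζ hw] at h1
  rw [show 2 ^ 20 = 1048576 from rfl, (cd_tu_mul (mem_K.1 hk).2 hu).2] at h3
  have key : allLt 64 (fun ζ => allLt 16 fun w => allLt 16 fun u =>
      bor (blt 0 ((ζ + 64 * w) &&& 800)) (bor (blt 0 ((u + 16) &&& 12)) (band (Nat.beq ((idm + 1048576 * u) &&& kQ) 0)
        (band (Nat.beq (((ζ ^^^ wg u w) + 64 * u) &&& 800) 0) (Nat.beq ((idm + 1048576 * w) &&& kQ) 0))))) = true := by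
    decide +kernel
  simp only [allLt_iff, bor_iff, band_iff, blt_iff, nbeq_iff] at key
  obtain ⟨a1, a2, a3⟩ := ((key ζ hζ w hw u hu).resolve_left (by omega)).resolve_left (h3.not_gt)
  rw [th_rr_K hζ hw hu hk]
  refine mul_mem (mem_Q.2 ?_) ((mul_mem_cancel_left (mem_Q.2 ?_)).1 hx)
  · rw [rr_a (xor_lt64 hζ hw hu) hu, rr_g, cd_tu hw]; exact ⟨a2, a3⟩
  · rw [rr_a hζ hw, rr_g, cd_tu hu]; exact ⟨h1, a1⟩

theorem th_e {u : ℕ} (hu : u < 16) : th (e (64 * u)) = ι (tu u) := by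
  have := th_rr (ζ := 0) (u := 0) (by norm_num) hu (by norm_num)
  rwa [zero_wg (by omega), rr, rr, tu_zero, map_one, mul_one, zero_add, show 0 ^^^ 0 + 64 * 0 = 0 from rfl, e_zero,
    one_mul] at this

theorem ty_th (i : Fin 3) {x : M} (hx : x ∈ Ai i) : ty (th x) = ty x := by
  obtain ⟨ζ, hζ, v, hv, rfl⟩ := mem_Ai.1 hx
  obtain ⟨h1, h2⟩ := wu_lt i hv
  have h : wg (wu i v).2 (wu i v).1 = 0 := by
    fin_cases i
    exacts [zero_wg (by omega), wg_zero (by omega), wg_self _ (by omega)]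
  rw [th_rr hζ h1 h2, h, Nat.xor_zero, ty_rr hζ h1 h2, ty_rr hζ h2 h1, Nat.or_comm]
  simp only [and_comm]

/-- `th` as a homomorphism. -/
theorem exists_th : ∃ θ : P ≃* P, ∀ x : P, (θ x : M) = th x :=
  ⟨{ toFun x := ⟨th x, th_mem x.2⟩
     invFun x := ⟨th x, th_mem x.2⟩
     left_inv x := Subtype.ext (th_th x.2)
     right_inv x := Subtype.ext (th_th x.2)
     map_mul' x y := Subtype.ext (th_mul x.2 y.2) }, fun _ => rfl⟩

end Cfsg.Agent.R20
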