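import Mathlib
import Cfsg.Agent.R20.The
import Cfsg.Agent.R20.OmT

/-!
The action of the centraliser of `z` on `Q / ⟨z⟩` in coordinates.
-/

set_option autoImplicit false

namespace Cfsg.Agent.R20.OmT

open Cfsg.Agent.Spor Cfsg.Agent.Inv.Fz Subgroup

/-- The element of `Q` with number `n`. -/
noncomputable def qq (n : ℕ) : M := ⟨wa n % 1024, Nat.mod_lt _ (by norm_num), el (qm (n >>> 7))⟩

/-- The generators in `M`. -/
noncomputable def gm (k : ℕ) : M := ofc (gc k)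

variable {n n' a b a' b' m m' k : ℕ}

theorem qq_a (h : n < 8192) : (qq n).a = wa n := Nat.mod_eq_of_lt (ck_wa n h).1

theorem qq_g (h : n < 8192) : cd (qq n).g = qm (n >>> 7) := cd_el (ck_qm _ (ck_wa n h).2.2.2.2).1

theorem qq_c (h : n < 8192) : (qq n).c = qe n := by rw [c_eq, qq_a h, qq_g h]; rfl

theorem qq_mem (h : n < 8192) : qq n ∈ Q :=
  mem_Q.2 ⟨qq_a h ▸ (ck_wa n h).2.1, qq_g h ▸ (ck_qm _ (ck_wa n h).2.2.2.2).2.1⟩

theorem exists_qq {x : M} (h : x ∈ Q) : ∃ n < 8192, x = qq n := by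
  obtain ⟨w, hw, e1⟩ := ck_a _ x.lt (mem_Q.1 h).1
  obtain ⟨u, hu, e2⟩ := mem_UT.1 (mem_T.1 (T0_le_T (Q_le_T0 h)))
  obtain ⟨k, hk, e3⟩ := ck_ut u hu (e2 ▸ (mem_Q.1 h).2)
  have l : w + 128 * k < 8192 := by omega
  exact ⟨_, l, M.ext (by rw [qq_a l, (ck_wk w hw k hk).1, e1])
    (cd_inj (by rw [qq_g l, (ck_wk w hw k hk).2, e2, e3]))⟩

theorem lt13 (h : n < 8192) (h' : n' < 8192) : n ^^^ n' < 8192 := Nat.xor_lt_two_pow (n := 13) h h'

theorem lt12 (h : a < 4096) (h' : b < 4096) : a ^^^ b < 4096 := Nat.xor_lt_two_pow (n := 12) h h'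

theorem z_qq (h : n < 8192) : z * qq n = qq (n ^^^ 1) := by
  have l := lt13 h (n' := 1) (by norm_num)
  refine M.ext ?_ ?_
  · rw [mul_a, qq_a l, qq_a h, wa_xor, z, e_g, ac_one (ck_wa n h).1, e_a (by norm_num), Nat.xor_comm]
    rfl
  · rw [mul_g, z, e_g, one_mul]
    exact cd_inj (by rw [qq_g l, qq_g h, Nat.shiftRight_xor_distrib]; simp)

theorem qq_mul (h : n < 8192) (h' : n' < 8192) : Eqv z (qq n * qq n') (qq (n ^^^ n')) := by
  have l := lt13 h h'
  have hg : cd (qq n * qq n').g = qm ((n ^^^ n') >>> 7) := by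
    rw [mul_g, cd_mul, qq_g h, qq_g h', ck_mm _ (ck_wa n h).2.2.2.2 _ (ck_wa n' h').2.2.2.2, Nat.shiftRight_xor_distrib]
  have ha := ck_ac _ (ck_wa n h).2.2.2.2 _ (ck_wa n' h').2.2.2.1
  rw [← (ck_wa n' h').2.2.1] at ha
  rcases ha with ha | ha
  · exact Or.inl (M.ext (by rw [mul_a, qq_a l, qq_a h, qq_a h', qq_g h, ha, wa_xor]) (cd_inj (by rw [hg, qq_g l])))
  · refine Or.inr (M.ext ?_ (cd_inj (by rw [hg, mul_g, z, e_g, one_mul, qq_g l])))
    rw [z_qq l, qq_a (lt13 l (by norm_num)), mul_a, qq_a h, qq_a h', qq_g h, ha, wa_xor, wa_xor, Nat.xor_assoc]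
    rfl

theorem qq_half (h : n < 8192) : Eqv z (qq n) (qq (2 * (n / 2))) := by
  rcases Nat.mod_two_eq_zero_or_one n with e | e
  · exact Or.inl (congrArg qq (by omega))
  · refine Or.inr ?_
    rw [z_qq (by omega), Nat.xor_one_of_even (even_two_mul _)]
    exact congrArg qq (by omega)

theorem qq_zero : qq 0 = 1 := c_inj (by rw [qq_c (by norm_num), c_one]; rfl)

theorem c_z : z.c = pr 1 idm := c_e (by norm_num)

theorem two_xor (a b : ℕ) : 2 * a ^^^ 2 * b = 2 * (a ^^^ b) := by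
  simpa only [Nat.shiftLeft_eq, pow_one, mul_comm] using (Nat.shiftLeft_xor_distrib (a := a) (b := b) (i := 1)).symm

theorem z_comm_qq (h : n < 8192) : z * qq n = qq n * z := by
  have h1 := conj_e (qq n) (a := 1) (by norm_num)
  rw [qq_g h] at h1
  rcases ck_ac _ (ck_wa n h).2.2.2.2 1 (by norm_num) with e | e
  · exact (mul_inv_eq_iff_eq_mul.1 (h1.trans (congrArg R20.e e))).symm
  · exact absurd (conj_eq_one_iff.1 ((h1.trans (congrArg R20.e e)).trans e_zero)) z_ne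

theorem qq_uniq (ha : a < 4096) (hb : b < 4096) (h : Eqv z (qq (2 * a)) (qq (2 * b))) : a = b := by
  have h1 := qq_mul (n := 2 * a) (n' := 2 * b) (by omega) (by omega)
  have h2 := qq_mul (n := 2 * b) (n' := 2 * b) (by omega) (by omega)
  rw [Nat.xor_self, qq_zero] at h2
  rw [two_xor] at h1
  have l := lt12 ha hb
  have h3 := ((h1.symm z_sq).trans z_sq (h.mul_right _)).trans z_sq h2
  have := ck_inj (2 * (a ^^^ b)) (by omega) (by
    rw [← qq_c (by omega), ← c_one, ← c_z]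
    exact h3.imp (congrArg M.c) fun e => congrArg M.c (e.trans (mul_one z)))
  exact Nat.xor_eq_zero_iff.1 (by omega)

theorem eqv_of_ov {x : M} (hm : m < 4096) (h : ov x.c m = true) : Eqv z x (qq (2 * m)) := by
  simp only [ov, Spor.force_eq, bor_iff, nbeq_iff] at h
  refine h.imp (fun e => c_inj (e.trans (qq_c (n := 2 * m) (by omega)).symm)) fun e => c_inj ?_
  rw [z_qq (by omega), qq_c (lt13 (by omega) (by norm_num))]
  exact e

theorem gm_c (h : k < 8) : (gm k).c = gc k := c_ofc (ck_gen k h).1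

theorem gm_sq (h : k < 8) : gm k * gm k = 1 := c_inj (by rw [c_mul, gm_c h, c_one, (ck_gen k h).2.1])

theorem gm_inv (h : k < 8) : (gm k)⁻¹ = gm k := inv_eq_self_of_sq (gm_sq h)

theorem z_gm (h : k < 8) : z * gm k = gm k * z := c_inj (by rw [c_mul, c_mul, gm_c h, c_z, (ck_gen k h).2.2.1])

theorem Q_le_P : Q ≤ P := Q_le_T0.trans (T0_le_T.trans T_le_P)

variable {G : Type*} [Group G] {F F' : Fr G} {c d : G}

theorem eqv_map {x y : M} (h : Eqv z x y) : Eqv F.z (F.φ x) (F.φ y) :=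
  h.imp (congrArg F.φ) fun e => by rw [e, map_mul]

theorem eqv_of_map {x y : M} (h : Eqv F.z (F.φ x) (F.φ y)) : Eqv z x y :=
  h.imp (fun e => F.inj e) fun e => F.inj (by rw [e, map_mul])

theorem zz (F : Fr G) : F.z * F.z = 1 := by rw [← map_mul, z_sq, map_one]

theorem z_qφ (h : n < 8192) : F.z * F.φ (qq n) = F.φ (qq n) * F.z := by rw [← map_mul, z_comm_qq h, map_mul]

variable (F) in
/-- Conjugation by `c` maps the point `a` of `Q / ⟨z⟩` to `b`. -/
def Mp (c : G) (a b : ℕ) : Prop := Eqv F.z (c * F.φ (qq (2 * a)) * c⁻¹) (F.φ (qq (2 * b)))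

theorem Mp.zero (c : G) : Mp F c 0 0 := Or.inl (by simp [qq_zero])

theorem Mp.xor (hc : F.z * c = c * F.z) (ha : a < 4096) (hb : b < 4096) (ha' : a' < 4096) (hb' : b' < 4096)
    (h : Mp F c a a') (h' : Mp F c b b') : Mp F c (a ^^^ b) (a' ^^^ b') := by
  have h1 := (eqv_map (F := F) (qq_mul (n := 2 * a) (n' := 2 * b) (by omega) (by omega))).conj hc
  have h2 := eqv_map (F := F) (qq_mul (n := 2 * a') (n' := 2 * b') (by omega) (by omega))
  rw [two_xor, map_mul] at h1 h2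
  refine (h1.symm (zz F)).trans (zz F) (Eqv.trans (zz F) ?_ h2)
  rw [← conj_mul]
  exact ((Eqv.mul_right h _).trans (zz F) (Eqv.mul_left h' (z_qφ (by omega))))

theorem Mp.comp (hd : F.z * d = d * F.z) (h : Mp F c a b) (h' : Mp F d b m) : Mp F (d * c) a m := by
  have := (Eqv.conj h hd).trans (zz F) h'
  rwa [show d * (c * F.φ (qq (2 * a)) * c⁻¹) * d⁻¹ = d * c * F.φ (qq (2 * a)) * (d * c)⁻¹ by group] at this

theorem Mp.uniq (hb : b < 4096) (hb' : b' < 4096) (h : Mp F c a b) (h' : Mp F c a b') : b = b' :=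
  qq_uniq hb hb' (eqv_of_map ((Eqv.symm (zz F) h).trans (zz F) h'))

theorem Mp.of_eqv (hc : F.z * c = c * F.z) (hn : n < 8192) (h : Mp F c (n / 2) b) :
    Eqv F.z (c * F.φ (qq n) * c⁻¹) (F.φ (qq (2 * b))) := ((eqv_map (qq_half hn)).conj hc).trans (zz F) h

theorem exists_Mp (lx : F.Lx) (hc : F.z * c = c * F.z) (ha : a < 4096) : ∃ b < 4096, Mp F c a b := by
  obtain ⟨x, hx, e⟩ := lx.lg.norm c hc _ ⟨_, qq_mem (n := 2 * a) (by omega), rfl⟩
  obtain ⟨n, hn, rfl⟩ := exists_qq hx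
  exact ⟨n / 2, by omega, by rw [Mp, ← e]; exact eqv_map (qq_half hn)⟩

theorem Mp.all (hc : F.z * c = c * F.z) (h : ∀ i < 12, Mp F c (2 ^ i) (act k (2 ^ i))) : ∀ m < 4096, Mp F c m (act k m) :=
  xor_ind (n := 12) (by rw [act_zero]; exact Mp.zero c) h fun a ha b hb h1 h2 => by
    rw [act_xor]; exact h1.xor hc ha hb (act_lt _ _) (act_lt _ _) h2

theorem mem_of_Mp (lx : F.Lx) (hc : F.z * c = c * F.z) (h : ∀ m < 4096, Mp F c m m) : c ∈ F.m Q :=
  lx.lg.triv c hc (by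
    rintro _ ⟨x, hx, rfl⟩
    obtain ⟨n, hn, rfl⟩ := exists_qq hx
    exact ((h _ (by omega)).of_eqv hc hn).trans (zz F) ((eqv_map (qq_half hn)).symm (zz F)))

variable (F F') in
/-- The nine generators. -/
noncomputable def gen (k : ℕ) : G := if k < 8 then F.φ (gm k) else F'.φ (gm 5)

theorem gen_mem (k : ℕ) : gen F F' k ∈ F.G0 F' := by
  unfold gen
  split_ifs
  exacts [mem_sup_left ⟨_, rfl⟩, mem_sup_right ⟨_, rfl⟩]

theorem z_eq (om : F.Om F') : F'.z = F.z := by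
  rw [Fr.z, om z (Q_le_P z_mem_Q), th_A2 (Z_le_Ai 2 z_mem_Z)]

theorem z_gen (om : F.Om F') (k : ℕ) : F.z * gen F F' k = gen F F' k * F.z := by
  unfold gen
  split_ifs with h
  · rw [← map_mul, z_gm h, map_mul]
  · rw [← z_eq om, ← map_mul, z_gm (by norm_num), map_mul]

theorem Mp_gen (om : F.Om F') (hk : k < 9) : ∀ m < 4096, Mp F (gen F F' k) m (act k m) :=
  Mp.all (z_gen om k) fun i hi => by
    have l : 2 * 2 ^ i < 8192 := by have := Nat.pow_lt_pow_right one_lt_two hi; omega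
    unfold Mp gen
    split_ifs with h
    · rw [← map_inv, ← map_mul, ← map_mul, gm_inv h]
      exact eqv_map (eqv_of_ov (act_lt _ _) (by rw [c_mul, c_mul, gm_c h, qq_c l]; exact (ck_gen k h).2.2.2 i hi))
    · obtain rfl : k = 8 := by omega
      have hq := Q_le_P (qq_mem l)
      have hc : (gm 5 * th (qq (2 * 2 ^ i)) * gm 5).c = mu (mu (gc 5) (thc (qe (2 * 2 ^ i)))) (gc 5) := by
        rw [c_mul, c_mul, gm_c (by norm_num), c_th hq, qq_c l]
      have hP : gm 5 * th (qq (2 * 2 ^ i)) * gm 5 ∈ P :=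
        subset_closure ⟨Nat.and_zero _, by rw [← em_c, hc]; exact (ck_y i hi).1⟩
      rw [← th_th hq, ← om _ (th_mem hq), ← map_inv, ← map_mul, ← map_mul, gm_inv (by norm_num), om _ hP]
      exact eqv_map (eqv_of_ov (act_lt _ _) (by rw [c_th hP, hc]; exact (ck_y i hi).2))

end Cfsg.Agent.R20.OmT
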