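import Mathlib
import Cfsg.Agent.R20.OmQ
import Cfsg.Agent.R20.OmD5
import Cfsg.Agent.R20.Orb

/-!
Two frames that differ by `th` generate `Ω⁺(10, 2)`.
-/

set_option autoImplicit false

namespace Cfsg.Agent.R20.OmT

open Cfsg.Agent.Spor Cfsg.Agent.Inv.Fz Subgroup Cfsg.Agent.Chev Cfsg.Agent.Ch Cfsg.Agent.O8

theorem c_ιE {i j : ℕ} (hi : i < 5) (hj : j < 5) (h : i ≠ j) : (ι (E i j)).c = pr 0 (idm + 2 ^ (5 * j + i)) := by
  rw [c_ι, cd_E hi hj h]

theorem gm0 : gm 0 = ι (E 0 1) := c_inj (by rw [gm_c (by decide), c_ιE (by decide) (by decide) (by decide)]; decide +kernel)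
theorem gm1 : gm 1 = ι (E 1 0) := c_inj (by rw [gm_c (by decide), c_ιE (by decide) (by decide) (by decide)]; decide +kernel)
theorem gm5 : gm 5 = ι (E 4 3) := c_inj (by rw [gm_c (by decide), c_ιE (by decide) (by decide) (by decide)]; decide +kernel)

theorem ιE_mem_K {i j : ℕ} (hi : i < 4) (hj : j < 4) (h : i ≠ j) : ι (E i j) ∈ K :=
  mem_K.2 ⟨rfl, subset_closure (by
    rw [Set.mem_ofPred_eq, ι_g, cd_E (by omega) (by omega) h]
    exact (by decide +kernel : ∀ i < 4, ∀ j < 4, i ≠ j → (idm + 2 ^ (5 * j + i)) &&& kK = 0) i hi j hj h)⟩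

theorem ι34_mem : ι (E 3 4) ∈ P :=
  subset_closure ⟨Nat.and_zero _, by rw [ι_g, cd_E (by decide) (by decide) (by decide)]; decide +kernel⟩

theorem e512_mem : e 512 ∈ P := subset_closure ⟨Nat.and_zero _, by rw [e_g, cd_one]; decide +kernel⟩

theorem th34 : th (ι (E 3 4)) = e 512 :=
  c_inj (by rw [c_th ι34_mem, c_ιE (by decide) (by decide) (by decide), c_e (by decide)]; decide +kernel)

theorem th512 : th (e 512) = ι (E 3 4) := by rw [← th34, th_th ι34_mem]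

theorem comm_512 : Commute (ι (E 3 4)) (e 512) ∧ Commute (ι (E 4 3)) (e 512) := by
  constructor <;> refine c_inj ?_ <;> rw [c_mul, c_mul, c_ιE (by decide) (by decide) (by decide), c_e (by decide)] <;>
    decide +kernel

theorem z_21 : ¬ Commute z (ι (E 2 1)) := fun h => by
  have := congrArg M.c h.eq
  rw [c_mul, c_mul, c_ιE (by decide) (by decide) (by decide), c_z] at this
  revert this
  decide +kernel

theorem genM {H : Subgroup M} (h : ∀ i < 4, ι (E i (i + 1)) ∈ H ∧ ι (E (i + 1) i) ∈ H) (h' : e 512 ∈ H) : H = ⊤ := by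
  have h1 : ∀ g, ι g ∈ H := fun g => (top_le_of_E (H := H.comap ι) h ▸ mem_top g : g ∈ H.comap ι)
  have h2 : ∀ a < 1024, e a ∈ H := xor_ind (n := 10) (e_zero ▸ one_mem H) (fun k hk => by
    have l : 2 ^ k < 1024 := Nat.pow_lt_pow_right (m := k) (n := 10) one_lt_two hk
    obtain ⟨g, hg⟩ := conj_A (a := 512) (by norm_num) l (by norm_num) (by positivity) (by revert k; decide +kernel)
    rw [← hg, ← ι_g g, ← conj_e _ (by norm_num)]
    exact mul_mem (mul_mem (h1 g) h') (inv_mem (h1 g))) fun a ha b hb h1 h2 => e_xor ha hb ▸ mul_mem h1 h2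
  exact eq_top_iff.2 fun x _ => e_mul_ι x ▸ mul_mem (h2 _ x.lt) (h1 _)

theorem edgeE {H : Type*} [Group H] (f : L5 →* H) (a b : RtA 5) (h : (stA 4).A a b = -1) :
    Edge (op (f (E a.1.1 a.1.2))) (op (f (E a.1.2 a.1.1))) (op (f (E b.1.1 b.1.2))) (op (f (E b.1.2 b.1.1))) := by
  have k : ∀ (r : RtA 5) t, f (xA (ZMod 2) r t) = op (f (E r.1.1 r.1.2)) t := fun r t => by
    rcases LX.z2_cases t with rfl | rfl
    · rw [op_zero, xA, Matrix.SpecialLinearGroup.transvection_coeff_zero, map_one]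
    · rw [op_one, E_eq_xA]
  obtain ⟨Φ, h1, h2, h3, h4⟩ := StRoot.SL.edge (stA_sl (m := 4)) stA_std (isModel_xA (K := ZMod 2)) h
  exact ⟨f.comp Φ, fun t => by rw [MonoidHom.comp_apply, h1, k], fun t => by rw [MonoidHom.comp_apply, h2, k]; rfl,
    fun t => by rw [MonoidHom.comp_apply, h3, k], fun t => by rw [MonoidHom.comp_apply, h4, k]; rfl⟩

theorem adj5_cases : ∀ i k : Fin 5, i ≠ k → ¬ adj5 i k →
    (i, k) ∈ [((0 : Fin 5), (2 : Fin 5)), (0, 3), (0, 4), (1, 3), (1, 4), (3, 4)] ∨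
      (k, i) ∈ [((0 : Fin 5), (2 : Fin 5)), (0, 3), (0, 4), (1, 3), (1, 4), (3, 4)] := by decide

theorem ct_op {H : Type*} [Group H] [Nontrivial H] (hZ : center H = ⊥) (x y : Fin 5 → H)
    (hE : ∀ i k, adj5 i k → Edge (op (x i)) (op (y i)) (op (x k)) (op (y k)))
    (hc : ∀ i k, i ≠ k → ¬ adj5 i k → ∀ a ∈ closure {x i, y i}, ∀ b ∈ closure {x k, y k}, a * b = b * a)
    (hgen : ∀ K : Subgroup H, (∀ i, x i ∈ K) → (∀ i, y i ∈ K) → K = ⊤) : Nonempty (H ≃* Om10) :=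
  by
  have k : ∀ {K : Subgroup H} {g : H} (t : ZMod 2), g ∈ K → op g t ∈ K := fun t h => by
    unfold op
    exact pow_mem h _
  refine ct_D5 hZ (fun i => op (x i)) (fun i => op (y i)) hE (fun i => closure {x i, y i})
    (fun _ t => k t (subset_closure (Set.mem_insert _ _)))
    (fun _ t => k t (subset_closure (Set.mem_insert_of_mem _ rfl))) hc fun K h => hgen K (fun i => ?_) fun i => ?_
  · simpa only [op_one] using (h i 1).1
  · simpa only [op_one] using (h i 1).2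

theorem commE {H : Type*} [Group H] (f : L5 →* H) {i j k l : ℕ}
    (h : i < 5 ∧ j < 5 ∧ k < 5 ∧ l < 5 ∧ i ≠ j ∧ k ≠ l ∧ i ≠ k ∧ i ≠ l ∧ j ≠ k ∧ j ≠ l) :
    ∀ u ∈ closure {f (E i j), f (E j i)}, ∀ v ∈ closure {f (E k l), f (E l k)}, u * v = v * u := by
  obtain ⟨hi, hj, hk, hl, h1, h2, h3, h4, h5, h6⟩ := h
  exact comm_closure (Commute.map (E_comm i hi j hj k hk l hl h1 h2 h5 h4) f)
    (Commute.map (E_comm i hi j hj l hl k hk h1 h2.symm h6 h3) f)
    (Commute.map (E_comm j hj i hi k hk l hl h1.symm h2 h3 h6) f)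
    (Commute.map (E_comm j hj i hi l hl k hk h1.symm h2.symm h4 h5) f)

variable {G : Type*} [Group G] {F F' : Fr G} {c : G}

theorem om_K (om : F.Om F') {k : M} (hk : k ∈ K) : F'.φ k = F.φ k := by rw [om k (K_le_P hk), th_K hk]

theorem eq_one_of (om : F.Om F') (hc : c ∈ F.m Q) (h0 : Commute c (F.φ (ι (E 0 1)))) (h1 : Commute c (F.φ (ι (E 1 0))))
    (h2 : Commute c (F.φ (ι (E 2 1)))) : c = 1 := by
  obtain ⟨x, hx, rfl⟩ := hc
  obtain ⟨n, hn, rfl⟩ := exists_qq hx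
  have key : ∀ k < 8, Commute (F.φ (qq n)) (F.φ (gm k)) → act k (n / 2) = n / 2 := fun k hk h => by
    have h3 := (Mp_gen om (k := k) (by omega) (n / 2) (by omega)).of_eqv (z_gen om k) hn
    rw [gen, if_pos hk, ← h.eq, mul_inv_cancel_right] at h3
    exact qq_uniq (act_lt _ _) (by omega) (((eqv_of_map h3).symm z_sq).trans z_sq (qq_half hn))
  have h3 := qq_half hn
  rw [ck_01 _ (by omega) (key 0 (by decide) (gm0 ▸ h0)) (key 1 (by decide) (gm1 ▸ h1)), qq_zero] at h3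
  rcases h3 with e | e
  · rw [e, map_one]
  · rw [e, mul_one] at h2
    exact absurd (F.inj (by rw [map_mul, map_mul, h2.eq])) z_21

theorem cent_G0 (om : F.Om F') (lx : F.Lx) : centralizer (F.G0 F' : Set G) = ⊥ := by
  refine eq_bot_iff.2 fun c hc => ?_
  have h : ∀ x, Commute c (F.φ x) := fun x => (hc _ (mem_sup_left ⟨x, rfl⟩)).symm
  exact eq_one_of om (lx.lg.centralizer_le (by rintro _ ⟨x, -, rfl⟩; exact (h x).symm)) (h _) (h _) (h _)

theorem comm_y (om : F.Om F') (lx : F.Lx) : Commute (F.φ (ι (E 4 3))) (F'.φ (ι (E 4 3))) := by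
  have e5 : gen F F' 5 = F.φ (ι (E 4 3)) := by rw [gen, if_pos (by decide), gm5]
  have e8 : gen F F' 8 = F'.φ (ι (E 4 3)) := by rw [gen, if_neg (by decide), gm5]
  have z5 := z_gen om 5
  have z8 := z_gen om 8
  have s : ∀ F : Fr G, F.φ (ι (E 4 3)) * F.φ (ι (E 4 3)) = 1 := fun F => by
    rw [← map_mul, ← map_mul, E_sq (by decide) (by decide) (by decide), map_one, map_one]
  have cm : ∀ i < 3, ∀ j < 3, i ≠ j → Commute (gen F F' 5 * (gen F F' 8 * (gen F F' 5 * gen F F' 8))) (F.φ (ι (E i j))) :=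
    fun i hi j hj h => by
      have c0 := E_comm 4 (by decide) 3 (by decide) i (by omega) j (by omega) (by decide) h (by omega) (by omega)
      have c5 : Commute (gen F F' 5) (F.φ (ι (E i j))) := by
        rw [e5]
        exact Commute.map (Commute.map c0 ι) F.φ
      have c8 : Commute (gen F F' 8) (F.φ (ι (E i j))) := by
        rw [e8, ← om_K om (ιE_mem_K (by omega) (by omega) h)]
        exact Commute.map (Commute.map c0 ι) F'.φ
      exact c5.mul_left (c8.mul_left (c5.mul_left c8))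
  have h := eq_one_of om (mem_of_Mp lx (Commute.mul_right z5 (Commute.mul_right z8 (Commute.mul_right z5 z8))) fun m hm => by
    have := ((((Mp_gen om (k := 8) (by decide) m hm).comp z5 (Mp_gen om (k := 5) (by decide) _ (act_lt _ _))).comp z8
      (Mp_gen om (k := 8) (by decide) _ (act_lt _ _))).comp z5 (Mp_gen om (k := 5) (by decide) _ (act_lt _ _)))
    rwa [ck_58 m hm] at this) (cm 0 (by decide) 1 (by decide) (by decide)) (cm 1 (by decide) 0 (by decide) (by decide))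
    (cm 2 (by decide) 1 (by decide) (by decide))
  rw [e5, e8, ← mul_assoc, mul_eq_one_iff_eq_inv, mul_inv_rev, inv_eq_self_of_sq (s F), inv_eq_self_of_sq (s F')] at h
  exact h

attribute [local irreducible] E e ι in
theorem iso_G0 (om : F.Om F') (lx : F.Lx) : Nonempty (F.G0 F' ≃* Om10) := by
  let ψ : L5 →* F.G0 F' := (F.φ.comp ι).codRestrict _ fun g => mem_sup_left ⟨_, rfl⟩
  let ψ' : L5 →* F.G0 F' := (F'.φ.comp ι).codRestrict _ fun g => mem_sup_right ⟨_, rfl⟩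
  have ee : ∀ i < 4, ∀ j < 4, i ≠ j → ψ (E i j) = ψ' (E i j) := fun i hi j hj h =>
    Subtype.ext (om_K om (ιE_mem_K hi hj h)).symm
  have e4 : F'.φ (ι (E 3 4)) = F.φ (e 512) := by rw [om _ ι34_mem, th34]
  have e3 : F.φ (ι (E 3 4)) = F'.φ (e 512) := by rw [om _ e512_mem, th512]
  let x : Fin 5 → F.G0 F' := ![ψ (E 0 1), ψ (E 1 2), ψ (E 2 3), ψ (E 3 4), ψ' (E 3 4)]
  let y : Fin 5 → F.G0 F' := ![ψ (E 1 0), ψ (E 2 1), ψ (E 3 2), ψ (E 4 3), ψ' (E 4 3)]
  have e01 : Edge (op (x 0)) (op (y 0)) (op (x 1)) (op (y 1)) := edgeE ψ ⟨(0, 1), by decide⟩ ⟨(1, 2), by decide⟩ (by decide)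
  have e12 : Edge (op (x 1)) (op (y 1)) (op (x 2)) (op (y 2)) := edgeE ψ ⟨(1, 2), by decide⟩ ⟨(2, 3), by decide⟩ (by decide)
  have e23 : Edge (op (x 2)) (op (y 2)) (op (x 3)) (op (y 3)) := edgeE ψ ⟨(2, 3), by decide⟩ ⟨(3, 4), by decide⟩ (by decide)
  have e24 : Edge (op (x 2)) (op (y 2)) (op (x 4)) (op (y 4)) := by
    change Edge (op (ψ (E 2 3))) (op (ψ (E 3 2))) _ _
    rw [ee 2 (by decide) 3 (by decide) (by decide), ee 3 (by decide) 2 (by decide) (by decide)]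
    exact edgeE ψ' ⟨(2, 3), by decide⟩ ⟨(3, 4), by decide⟩ (by decide)
  have c02 := commE ψ (i := 0) (j := 1) (k := 2) (l := 3) (by decide)
  have c03 := commE ψ (i := 0) (j := 1) (k := 3) (l := 4) (by decide)
  have c13 := commE ψ (i := 1) (j := 2) (k := 3) (l := 4) (by decide)
  have c04 := commE ψ' (i := 0) (j := 1) (k := 3) (l := 4) (by decide)
  have c14 := commE ψ' (i := 1) (j := 2) (k := 3) (l := 4) (by decide)
  rw [← ee 0 (by decide) 1 (by decide) (by decide), ← ee 1 (by decide) 0 (by decide) (by decide)] at c04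
  rw [← ee 1 (by decide) 2 (by decide) (by decide), ← ee 2 (by decide) 1 (by decide) (by decide)] at c14
  have c34 : ∀ u ∈ closure {x 3, y 3}, ∀ v ∈ closure {x 4, y 4}, u * v = v * u :=
    comm_closure (Subtype.ext (e4 ▸ (comm_512.1.map F.φ).eq :))
      (Subtype.ext (e3 ▸ (comm_512.2.map F'.φ).symm.eq :)) (Subtype.ext (e4 ▸ (comm_512.2.map F.φ).eq :))
      (Subtype.ext (comm_y om lx).eq)
  have : Nontrivial (F.G0 F') := ⟨⟨⟨F.z, mem_sup_left ⟨_, rfl⟩⟩, 1, fun e => lx.lg.aes.z_ne (congrArg Subtype.val e)⟩⟩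
  have hZ : center (F.G0 F') = ⊥ := eq_bot_iff.2 fun c hc => by
    have : c.1 ∈ centralizer (F.G0 F' : Set G) := fun g hg => congrArg Subtype.val (mem_center_iff.1 hc ⟨g, hg⟩)
    rw [cent_G0 om lx] at this
    exact Subtype.ext this
  refine ct_op hZ x y (fun i k h => ?_) (fun i k h h' => ?_) fun H h h' => ?_
  · simp only [adj5, List.mem_cons, Prod.mk.injEq, List.not_mem_nil, or_false] at h
    rcases h with ⟨rfl, rfl⟩ | ⟨rfl, rfl⟩ | ⟨rfl, rfl⟩ | ⟨rfl, rfl⟩ | ⟨rfl, rfl⟩ | ⟨rfl, rfl⟩ | ⟨rfl, rfl⟩ | ⟨rfl, rfl⟩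
    exacts [e01, e01.symm, e12, e12.symm, e23, e23.symm, e24, e24.symm]
  · have : (i, k) ∈ [((0 : Fin 5), (2 : Fin 5)), (0, 3), (0, 4), (1, 3), (1, 4), (3, 4)] ∨
        (k, i) ∈ [((0 : Fin 5), (2 : Fin 5)), (0, 3), (0, 4), (1, 3), (1, 4), (3, 4)] := adj5_cases i k h h'
    have key : ∀ i k, (i, k) ∈ [((0 : Fin 5), (2 : Fin 5)), (0, 3), (0, 4), (1, 3), (1, 4), (3, 4)] →
        ∀ u ∈ closure {x i, y i}, ∀ v ∈ closure {x k, y k}, u * v = v * u := fun i k h => by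
      simp only [List.mem_cons, Prod.mk.injEq, List.not_mem_nil, or_false] at h
      rcases h with ⟨rfl, rfl⟩ | ⟨rfl, rfl⟩ | ⟨rfl, rfl⟩ | ⟨rfl, rfl⟩ | ⟨rfl, rfl⟩ | ⟨rfl, rfl⟩
      exacts [c02, c03, c04, c13, c14, c34]
    exact this.elim (key i k) fun h u hu v hv => (key k i h v hv u hu).symm
  · have hx : ∀ i, (x i).1 ∈ H.map (F.G0 F').subtype := fun i => ⟨_, h i, rfl⟩
    have hy : ∀ i, (y i).1 ∈ H.map (F.G0 F').subtype := fun i => ⟨_, h' i, rfl⟩
    have h1 := genM (H := (H.map (F.G0 F').subtype).comap F.φ) (fun i hi => by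
      interval_cases i
      exacts [⟨hx 0, hy 0⟩, ⟨hx 1, hy 1⟩, ⟨hx 2, hy 2⟩, ⟨hx 3, hy 3⟩]) (by rw [mem_comap, ← e4]; exact hx 4)
    have h2 := genM (H := (H.map (F.G0 F').subtype).comap F'.φ) (fun i hi => by
      have k : ∀ i < 4, ∀ j < 4, i ≠ j → ι (E i j) ∈ (H.map (F.G0 F').subtype).comap F'.φ := fun i hi j hj h => by
        rw [mem_comap, om_K om (ιE_mem_K hi hj h), ← mem_comap, h1]
        trivial
      by_cases h3 : i = 3
      · subst h3
        exact ⟨hx 4, hy 4⟩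
      · exact ⟨k _ hi _ (by omega) (by omega), k _ (by omega) _ hi (by omega)⟩) (by rw [mem_comap, ← e3]; exact hx 3)
    have h3 : F.G0 F' ≤ H.map (F.G0 F').subtype := sup_le (by
      rintro _ ⟨g, rfl⟩
      exact (h1 ▸ mem_top g : g ∈ (H.map (F.G0 F').subtype).comap F.φ)) (by
      rintro _ ⟨g, rfl⟩
      exact (h2 ▸ mem_top g : g ∈ (H.map (F.G0 F').subtype).comap F'.φ))
    refine eq_top_iff.2 fun g _ => ?_
    obtain ⟨g', hg', e⟩ := h3 g.2
    exact (Subtype.ext e : g' = g) ▸ hg'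

end Cfsg.Agent.R20.OmT
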