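import Mathlib
import Cfsg.Agent.R20.Gen

/-! The extraspecial group `Q` in `M`. -/

set_option autoImplicit false
set_option maxRecDepth 100000

namespace Cfsg.Agent.R20

open Cfsg.Agent.Spor Cfsg.Agent.Inv.Fz Subgroup

namespace QmK

/-- A test on the codes of the generators of `sb j k`. -/
noncomputable def gen (j k : ℕ) (P : ℕ → Bool) : Bool := allLt 10 (fun b => j.testBit b || P (pr (2 ^ b) idm)) &&
  allLt 5 fun i => allLt 5 fun l => Nat.beq i l || k.testBit (5 * l + i) || P (pr 0 (idm + 2 ^ (5 * l + i)))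

theorem sb_le_c {j k : ℕ} (h : sbOK j k = true) {H : Subgroup M} {P : ℕ → Bool} (hP : ∀ x : M, P x.c = true → x ∈ H)
    (hc : gen j k P = true) : sb j k ≤ H := by
  simp only [gen, Bool.and_eq_true, allLt_iff, Bool.or_eq_true, nbeq_iff] at hc
  refine sb_le h (fun b hb hj => hP _ ?_) fun i hi l hl hne hk => hP _ ?_
  · rw [c_e (Nat.pow_lt_pow_right (n := 10) one_lt_two hb)]
    exact (hc.1 b hb).resolve_left (by simp [hj])
  · rw [c_ι, cd_E hi hl hne]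
    exact (hc.2 i hi l hl).resolve_left (by simp [hk, hne])

/-- The test for `Q`. -/
def inQ (c : ℕ) : Bool := Nat.beq (ea c &&& 800) 0 && Nat.beq (em c &&& kQ) 0

theorem mem_Q_c {x : M} : x ∈ Q ↔ inQ x.c = true := by
  simp only [inQ, ea_c, em_c, Bool.and_eq_true, nbeq_iff, mem_Q]

theorem exists_ut {g : L5} (h : cd g &&& kQ = 0) : ∃ n < 1024, cd g = ut n :=
  mem_UT.1 ((mem_pat (by decide +kernel)).2 (land_mono h (by decide)))

theorem xor_lt_two {a b : ℕ} (h : a ^^^ b < 2) : a = b ∨ a = 1 ^^^ b := by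
  have e : a = a ^^^ b ^^^ b := by simp
  rcases Nat.lt_succ_iff_lt_or_eq.1 h with c | c
  · left; rw [e, Nat.lt_one_iff.1 c, Nat.zero_xor]
  · right; rw [e, c]

theorem ac_W {g : L5} (h : cd g &&& kQ = 0) {b : ℕ} (hb : b < 1024) (h' : b &&& 800 = 0) :
    ac (cd g) b = b ∨ ac (cd g) b = 1 ^^^ b := by
  have : allLt 1024 (fun n => Spor.force (ut n) fun g => !Nat.beq (g &&& kQ) 0 || Spor.force (mx g) fun G =>
    allLt 1024 fun b => !Nat.beq (b &&& 800) 0 || blt (apm G b ^^^ b) 2) = true := by decide +kernel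
  simp only [allLt_iff, Spor.force_eq, Bool.or_eq_true, nbeq_iff, blt_iff, Bool.not_eq_true', ← Bool.not_eq_true,
    ← imp_iff_not_or] at this
  obtain ⟨n, hn, e⟩ := exists_ut h
  rw [e] at h ⊢
  exact xor_lt_two (this n hn h b hb h')

theorem comm_g {g k : L5} (h : cd g &&& kQ = 0) (h' : cd k &&& kQ = 0) : g * k = k * g := by
  have : allLt 1024 (fun n => Spor.force (ut n) fun g => !Nat.beq (g &&& kQ) 0 || allLt 1024 fun m =>
    Spor.force (ut m) fun k => !Nat.beq (k &&& kQ) 0 || Nat.beq (mm g k) (mm k g)) = true := by decide +kernel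
  simp only [allLt_iff, Spor.force_eq, Bool.or_eq_true, nbeq_iff, Bool.not_eq_true', ← Bool.not_eq_true,
    ← imp_iff_not_or] at this
  obtain ⟨n, hn, e⟩ := exists_ut h
  obtain ⟨m, hm, e'⟩ := exists_ut h'
  exact cd_inj (by rw [cd_mul, cd_mul, e, e']; exact this n hn (e ▸ h) m hm (e' ▸ h'))

theorem ac_of_comm {x : M} {a : ℕ} (ha : a < 1024) (h : e a * x = x * e a) : ac (cd x.g) a = a :=
  e_inj (ac_lt _ _) ha (by rw [← conj_e x ha, ← h, mul_inv_cancel_right])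

theorem comm_of_ac {x : M} {a : ℕ} (ha : a < 1024) (h : ac (cd x.g) a = a) : e a * x = x * e a := by
  rw [eq_comm, ← mul_inv_eq_iff_eq_mul, conj_e x ha, h]

theorem e_mem_Q {a : ℕ} (ha : a < 1024) (h : a &&& 800 = 0) : e a ∈ Q :=
  mem_Q.2 ⟨by rwa [e_a ha], by rw [e_g, cd_one]; decide⟩

theorem eq_one_of_W {g : L5} (h : ∀ a < 1024, a &&& 800 = 0 → ac (cd g) a = a) : g = 1 := by
  have k := fun i j (hij : i < j) (hj : j < 5) (hi : i < 2) => (ac_basis (cd g) hij hj).symm.trans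
    (h _ (Nat.pow_lt_pow_right (n := 10) one_lt_two (by interval_cases j <;> omega))
      (by interval_cases j <;> interval_cases i <;> decide))
  have : allLt 32 (fun a => allLt 32 fun b => !Nat.beq (wg a b) 1 || allLt 32 fun c => !Nat.beq (wg a c) 2 || !Nat.beq (wg b c) 4 ||
      allLt 32 fun d => !Nat.beq (wg a d) 8 || !Nat.beq (wg b d) 16 || allLt 32 fun e => !Nat.beq (wg a e) 64 ||
        !Nat.beq (wg b e) 128 || Nat.beq (pk a b c d e) idm) = true := by decide +kernel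
  simp only [allLt_iff, Bool.or_eq_true, nbeq_iff, Bool.not_eq_true', ← Bool.not_eq_true, or_assoc] at this
  simp only [← imp_iff_not_or] at this
  have e := this _ (col_lt (cd g) 0) _ (col_lt (cd g) 1) (k 0 1 (by norm_num) (by norm_num) (by norm_num)) _ (col_lt (cd g) 2)
    (k 0 2 (by norm_num) (by norm_num) (by norm_num)) (k 1 2 (by norm_num) (by norm_num) (by norm_num)) _ (col_lt (cd g) 3)
    (k 0 3 (by norm_num) (by norm_num) (by norm_num)) (k 1 3 (by norm_num) (by norm_num) (by norm_num)) _ (col_lt (cd g) 4)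
    (k 0 4 (by norm_num) (by norm_num) (by norm_num)) (k 1 4 (by norm_num) (by norm_num) (by norm_num))
  have p := col_pk (col_lt (cd g) 0) (col_lt (cd g) 1) (col_lt (cd g) 2) (col_lt (cd g) 3) (col_lt (cd g) 4)
  refine cd_inj (by
    rw [cd_one, ← e]
    exact eq_of_col (cd_lt _) p.2.2.2.2.2 fun j hj => by
      interval_cases j
      exacts [p.1.symm, p.2.1.symm, p.2.2.1.symm, p.2.2.2.1.symm, p.2.2.2.2.1.symm])

theorem ac_one_iff {g : L5} : ac (cd g) 1 = 1 ↔ cd g &&& kY = 0 := by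
  have h0 : ac (cd g) 1 ≠ 0 := fun c => by
    have := ac_inv_ac g (a := 1) (by norm_num)
    rw [c, ac_zero] at this
    exact absurd this (by decide)
  have : allLt 1024 (fun n => Spor.force (wg (n % 32) (n / 32)) fun w =>
    (!Nat.beq w 1 || Nat.beq (n &&& 924) 0) && (!Nat.beq (n &&& 924) 0 || blt w 2)) = true := by decide +kernel
  simp only [allLt_iff, Spor.force_eq, Bool.or_eq_true, Bool.and_eq_true, nbeq_iff, blt_iff, Bool.not_eq_true',
    ← Bool.not_eq_true, ← imp_iff_not_or] at this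
  have e1 : ac (cd g) 1 = wg (cd g % 1024 % 32) (cd g % 1024 / 32) := by
    rw [show ac (cd g) 1 = _ from ac_basis (cd g) (i := 0) (j := 1) (by norm_num) (by norm_num), col_eq, col_eq]
    congr 1 <;> omega
  have e2 : cd g &&& kY = cd g % 1024 &&& 924 := by
    rw [← Nat.and_two_pow_sub_one_eq_mod (cd g) 10, Nat.and_assoc]; rfl
  obtain ⟨h1, h2⟩ := this (cd g % 1024) (Nat.mod_lt _ (by norm_num))
  rw [← e1, ← e2] at h1 h2
  exact ⟨h1, fun c => by have := h2 c; omega⟩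

theorem rr_mem_Q {ζ w u : ℕ} (hζ : ζ < 64) (hw : w < 16) (hu : u < 16) : rr ζ w u ∈ Q ↔ ζ < 32 ∧ w < 4 ∧ u < 4 := by
  rw [mem_Q, rr_a hζ hw, rr_g, cd_tu hu, ← and_assoc]
  exact and_congr ((by decide +kernel : ∀ ζ < 64, ∀ w < 16, (ζ + 64 * w) &&& 800 = 0 ↔ ζ < 32 ∧ w < 4) ζ hζ w hw)
    ((by decide +kernel : ∀ u < 16, (idm + 1048576 * u) &&& kQ = 0 ↔ u < 4) u hu)

theorem mem_W {i : Fin 3} {x : M} : x ∈ Ai i ⊓ Q ↔ ∃ ζ < 32, ∃ v < 4, x = rr ζ (wu i v).1 (wu i v).2 := by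
  have k : ∀ i, ∀ v < 16, ((wu i v).1 < 4 ∧ (wu i v).2 < 4 ↔ v < 4) := by decide +kernel
  refine ⟨fun h => ?_, fun ⟨ζ, hζ, v, hv, e⟩ => ⟨mem_Ai.2 ⟨ζ, by omega, v, by omega, e⟩, ?_⟩⟩
  · obtain ⟨ζ, hζ, v, hv, rfl⟩ := mem_Ai.1 h.1
    have := (rr_mem_Q hζ (wu_lt i hv).1 (wu_lt i hv).2).1 h.2
    exact ⟨ζ, this.1, v, (k i v hv).1 this.2, rfl⟩
  · have hv' : v < 16 := by omega
    exact e ▸ (rr_mem_Q (by omega) (wu_lt i hv').1 (wu_lt i hv').2).2 ⟨hζ, (k i v hv').2 hv⟩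

theorem cd_x3 : cd x3.g = 17043554 := by
  rw [x3, ι_g, cd_mul, cd_E (by norm_num) (by norm_num) (by norm_num), cd_E (by norm_num) (by norm_num) (by norm_num)]
  decide +kernel

theorem cd_x3' : cd x3.g⁻¹ = 17043491 := by rw [cd_inv, cd_x3]; decide +kernel

theorem c_x3 : x3.c = pr 0 17043554 := by rw [c_eq, cd_x3]; rfl

end QmK

open QmK

theorem cent_z : centralizer {z} = Y := Subgroup.ext fun x => by
  rw [mem_centralizer_singleton_iff, mem_Y, mem_pat (by decide +kernel), ← ac_one_iff]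
  exact ⟨fun h => ac_of_comm (by norm_num) h.symm, fun h => (comm_of_ac (by norm_num) h).symm⟩

theorem Y_le_nQ : Y ≤ normalizer (Q : Set M) :=
  sb_le_c (by decide +kernel) (P := fun c => Spor.force (iv c) fun d => gen 800 kQ fun s => inQ (mu (mu c s) d))
    (fun x hx => mem_normalizer_of_conj_mem fun q hq =>
      sb_le_c (j := 800) (k := kQ) (H := Q.comap (MulAut.conj x).toMonoidHom) (P := fun s => inQ (mu (mu x.c s) (iv x.c)))
        (by decide +kernel) (fun s hs => mem_Q_c.2 (by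
          change inQ (x * s * x⁻¹).c = true
          rwa [c_mul, c_mul, c_inv])) hx hq) (by decide +kernel)

theorem cent_W : centralizer (A ⊓ Q : Subgroup M) ≤ A := fun _ hx =>
  mem_A.2 (eq_one_of_W fun a ha h => ac_of_comm ha (hx _ ⟨e_mem_A a, e_mem_Q ha h⟩))

theorem QmK.cent_Q' {x : M} (hx : ∀ q ∈ Q, x * q = q * x) : x = 1 ∨ x = z := by
  obtain ⟨a, ha, rfl⟩ := mem_A'.1 (cent_W fun q hq => (hx q hq.2).symm)
  have k : ∀ i < 2, ∀ l < 5, 2 ≤ l → ac (idm + 2 ^ (5 * l + i)) a = a := fun i hi l hl h2 => by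
    have e := cd_E (i := i) (by omega) hl (by omega)
    rw [← e]
    refine ac_of_comm (x := ι (E i l)) ha (hx _ (mem_Q.2 ⟨Nat.zero_and _, ?_⟩))
    rw [ι_g, e]
    interval_cases i <;> interval_cases l <;> decide
  have : (Spor.force (mx (idm + 2 ^ 10)) fun a => Spor.force (mx (idm + 2 ^ 11)) fun b => Spor.force (mx (idm + 2 ^ 15)) fun c =>
    Spor.force (mx (idm + 2 ^ 16)) fun d => Spor.force (mx (idm + 2 ^ 20)) fun e => Spor.force (mx (idm + 2 ^ 21)) fun f =>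
      allLt 1024 fun x => !Nat.beq (apm a x) x || (!Nat.beq (apm b x) x || (!Nat.beq (apm c x) x || (!Nat.beq (apm d x) x ||
        (!Nat.beq (apm e x) x || (!Nat.beq (apm f x) x || blt x 2)))))) = true := by decide +kernel
  simp only [allLt_iff, Spor.force_eq, Bool.or_eq_true, nbeq_iff, blt_iff, Bool.not_eq_true', ← Bool.not_eq_true,
    ← imp_iff_not_or] at this
  have := this a ha (k 0 (by norm_num) 2 (by norm_num) le_rfl) (k 1 (by norm_num) 2 (by norm_num) le_rfl)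
    (k 0 (by norm_num) 3 (by norm_num) (by norm_num)) (k 1 (by norm_num) 3 (by norm_num) (by norm_num))
    (k 0 (by norm_num) 4 (by norm_num) (by norm_num)) (k 1 (by norm_num) 4 (by norm_num) (by norm_num))
  interval_cases a
  exacts [Or.inl rfl, Or.inr rfl]

theorem es_Q : ES2 Q z where
  z_mem := z_mem_Q
  z_ne := z_ne
  z_sq := z_sq
  z_comm := fun _ hq => (mem_centralizer_singleton_iff.1 (cent_z.ge (T_le_Y (T0_le_T (Q_le_T0 hq))))).symm
  comm := fun x hx y hy => by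
    obtain ⟨x1, x2⟩ := mem_Q.1 hx
    obtain ⟨y1, y2⟩ := mem_Q.1 hy
    have g := comm_g x2 y2
    have l : ∀ {_ : (x * y).a = (y * x).a}, x * y = y * x := fun {h} => M.ext h g
    have r : ∀ {_ : (x * y).a = 1 ^^^ (y * x).a}, x * y = z * (y * x) := fun {h} =>
      M.ext (h.trans (mul_a_of (e_g 1) _).symm) (by rw [mul_g z, z, e_g, one_mul]; exact g)
    rcases ac_W x2 y.lt y1 with a | a <;> rcases ac_W y2 x.lt x1 with b | b
    · exact Or.inl (@l (by rw [mul_a, mul_a, a, b, Nat.xor_comm]))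
    · exact Or.inr (@r (by rw [mul_a, mul_a, a, b]; simp [Nat.xor_comm, Nat.xor_left_comm]))
    · exact Or.inr (@r (by rw [mul_a, mul_a, a, b]; ac_rfl))
    · exact Or.inl (@l (by rw [mul_a, mul_a, a, b]; simp [Nat.xor_comm, Nat.xor_left_comm]))
  center := fun _ _ h => cent_Q' h
  nonab := by
    by_contra c
    push Not at c
    rcases cent_Q' (c _ (e_mem_Q (a := 2) (by norm_num) (by decide))) with h | h <;>
      exact absurd (congrArg M.a h) (by decide)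

theorem hv_Q : ∀ x ∈ Q, ∀ y ∈ Q, x * x = z → ∃ v ∈ T, ∃ w, w = x * v * x⁻¹ * v⁻¹ ∧ w ≠ 1 ∧ w ≠ z ∧ w * w = 1 ∧ w * y = y * w := by
  intro x hx y hy h
  have : allLt 1024 (fun n => Spor.force (ut n) fun g => !Nat.beq (g &&& kQ) 0 || (Nat.beq g idm ||
    Spor.force (mx g) fun G => allLt 1024 fun m => Spor.force (ut m) fun k => !Nat.beq (k &&& kQ) 0 ||
      Spor.force (mx k) fun K => !allLt 8 fun s => Spor.force (32 * (s % 2) + 256 * (s / 2)) fun b =>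
        Spor.force (apm G b ^^^ b) fun w => blt w 2 || !Nat.beq (apm K w) w)) = true := by decide +kernel
  simp only [allLt_iff, Spor.force_eq, Bool.or_eq_true, nbeq_iff, blt_iff, Bool.not_eq_true', ← Bool.not_eq_true,
    ← imp_iff_not_or, not_forall, not_or, not_not, not_lt] at this
  obtain ⟨n, hn, e1⟩ := exists_ut (mem_Q.1 hx).2
  obtain ⟨m, hm, e2⟩ := exists_ut (mem_Q.1 hy).2
  obtain ⟨s, hs, h1, h2⟩ := (this n hn (e1 ▸ (mem_Q.1 hx).2)).resolve_left (fun c => z_ne (by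
    rw [← h, eq_e (cd_inj (e1.trans (c.trans cd_one.symm))), e_sq])) m hm (e2 ▸ (mem_Q.1 hy).2)
  have hb : 32 * (s % 2) + 256 * (s / 2) < 1024 := by omega
  generalize 32 * (s % 2) + 256 * (s / 2) = b at hb h1 h2
  rw [← e1] at h1 h2
  rw [← e2] at h2
  have hw : ac (cd x.g) b ^^^ b < 1024 := Nat.xor_lt_two_pow (n := 10) (ac_lt _ _) hb
  refine ⟨e b, R_le_T (Ai_le_R 0 (e_mem_A b)), e (ac (cd x.g) b ^^^ b), by rw [conj_e x hb, e_inv, e_xor (ac_lt _ _) hb],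
    fun c => ?_, fun c => ?_, e_sq _, comm_of_ac hw h2⟩
  · have := e_inj hw (by norm_num) (c.trans e_zero.symm)
    rw [ac] at this; omega
  · have := e_inj hw (by norm_num) c
    rw [ac] at this; omega

theorem cent_Q : centralizer (Q : Set M) ≤ Q := fun x hx => by
  rcases cent_Q' (x := x) fun q hq => (hx q hq).symm with rfl | rfl
  exacts [one_mem _, z_mem_Q]

theorem card_W (i : Fin 3) : Nat.card ↥(Ai i ⊓ Q) = 128 := by
  have k : ∀ i, ∀ v < 4, ∀ v' < 4, (wu i v).1 = (wu i v').1 ∧ (wu i v).2 = (wu i v').2 → v = v' := by decide +kernel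
  refine (Nat.card_eq_of_bijective (fun p : Fin 32 × Fin 4 =>
    (⟨rr p.1 (wu i p.2).1 (wu i p.2).2, mem_W.2 ⟨_, p.1.2, _, p.2.2, rfl⟩⟩ : ↥(Ai i ⊓ Q))) ⟨fun p q h => ?_, fun x => ?_⟩).symm.trans
    (by simp)
  · have p2 : (p.2 : ℕ) < 16 := by omega
    have q2 : (q.2 : ℕ) < 16 := by omega
    have := rr_inj (by omega) (wu_lt i p2).1 (wu_lt i p2).2 (by omega) (wu_lt i q2).1 (wu_lt i q2).2 (congrArg Subtype.val h)
    exact Prod.ext (Fin.ext this.1) (Fin.ext (k i _ p.2.2 _ q.2.2 this.2))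
  · obtain ⟨ζ, hζ, v, hv, e⟩ := mem_W.1 x.2
    exact ⟨(⟨ζ, hζ⟩, ⟨v, hv⟩), Subtype.ext e.symm⟩

theorem max_W (i : Fin 3) : Q ⊓ centralizer (Ai i ⊓ Q : Subgroup M) ≤ Ai i := fun x hx => by
  have h1 : ∀ b < 32, ac (cd x.g) b = b := fun b hb => ac_of_comm (by omega)
    (hx.2 _ ⟨Z_le_Ai i (mem_Z.2 ⟨b, by omega, rfl⟩), e_mem_Q (by omega) (by revert b; decide +kernel)⟩)
  have : allLt 1024 (fun n => Spor.force (ut n) fun g => !Nat.beq (g &&& kQ) 0 || Spor.force (mx g) fun G =>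
    !(allLt 32 fun b => Nat.beq (apm G b) b) || Nat.beq (g &&& kE) 0) = true := by decide +kernel
  simp only [allLt_iff, Spor.force_eq, Bool.or_eq_true, nbeq_iff, Bool.not_eq_true', ← Bool.not_eq_true,
    ← imp_iff_not_or] at this
  obtain ⟨n, hn, e1⟩ := exists_ut (mem_Q.1 hx.1).2
  obtain ⟨ζ, hζ, w, hw, u, hu, rfl⟩ := mem_R.1 (mem_R'.2 ((mem_pat (by decide +kernel)).2
    (e1 ▸ this n hn (e1 ▸ (mem_Q.1 hx.1).2) (e1 ▸ h1))))
  obtain ⟨v, hv, e2, e3⟩ := (by decide +kernel : ∀ i, ∀ w < 16, ∀ u < 16,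
      (∀ v < 4, wg w (wu i v).2 = wg (wu i v).1 u) → ∃ v < 16, w = (wu i v).1 ∧ u = (wu i v).2) i w hw u hu fun v hv => by
    obtain ⟨l1, l2⟩ := wu_lt i (show v < 16 by omega)
    have c := hx.2 _ (mem_W.2 ⟨0, by norm_num, v, hv, rfl⟩)
    rw [rr_mul (by norm_num) l1 l2 hζ hw hu, rr_mul hζ hw hu (by norm_num) l1 l2, Nat.zero_xor, Nat.xor_zero] at c
    simpa using (rr_inj (Nat.xor_lt_two_pow (n := 6) hζ (wg_lt64 _ hw _ l2)) (Nat.xor_lt_two_pow (n := 4) l1 hw)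
      (Nat.xor_lt_two_pow (n := 4) l2 hu) (Nat.xor_lt_two_pow (n := 6) hζ (wg_lt64 _ l1 _ hu))
      (Nat.xor_lt_two_pow (n := 4) hw l1) (Nat.xor_lt_two_pow (n := 4) hu l2) c).1
  exact mem_Ai.2 ⟨ζ, hζ, v, hv, by rw [← e2, ← e3]⟩

theorem W_ne : ¬ A ⊓ Q ≤ A1 := fun h =>
  absurd ((mem_sb (by decide +kernel)).1 (h ⟨e_mem_A 64, e_mem_Q (by norm_num) (by decide)⟩)).1 (by decide)

theorem x3_pow : x3 ^ 3 = 1 := c_inj (by
  rw [pow_succ, pow_two, c_mul, c_mul, c_x3, c_one]; decide +kernel)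

theorem x3_mem : x3 ∈ K ∧ x3 ∈ Y :=
  ⟨mem_K.2 ⟨rfl, (mem_pat (by decide +kernel)).2 (by rw [cd_x3]; decide)⟩,
    mem_Y.2 ((mem_pat (by decide +kernel)).2 (by rw [cd_x3]; decide))⟩

theorem QmK.conj_Q {y q : M} (hy : y ∈ Y) (hq : q ∈ Q) : y * q * y⁻¹ ∈ Q := (mem_normalizer_iff.1 (Y_le_nQ hy) q).1 hq

/-- The centraliser of `x3` modulo `Q`. -/
def QmK.CQ : Subgroup M where
  carrier := {t | t ∈ Y ∧ t * x3 * t⁻¹ * x3⁻¹ ∈ Q}
  one_mem' := ⟨one_mem _, by simp⟩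
  mul_mem' := fun {s t} hs ht => ⟨mul_mem hs.1 ht.1, by
    have := mul_mem (conj_Q hs.1 ht.2) hs.2
    convert this using 1; group⟩
  inv_mem' := fun {t} ht => ⟨inv_mem ht.1, by
    have := conj_Q (inv_mem ht.1) (inv_mem ht.2)
    convert this using 1; group⟩

theorem QmK.T0_le : T0 ≤ CQ :=
  sb_le_c (by decide +kernel)
    (P := fun c => Nat.beq (em c &&& kY) 0 && inQ (mu (mu (mu c (pr 0 17043554)) (iv c)) (iv (pr 0 17043554))))
    (fun x hx => by
      rw [Bool.and_eq_true, nbeq_iff, em_c, ← c_x3, ← c_inv, ← c_inv, ← c_mul, ← c_mul, ← c_mul] at hx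
      exact ⟨mem_Y.2 ((mem_pat (by decide +kernel)).2 hx.1), mem_Q_c.2 hx.2⟩) (by decide +kernel)

theorem QmK.inv_x3 {t : M} (ht : t ∈ T) (h : t ∉ T0) : t * x3 * t⁻¹ * x3 ∈ Q := by
  have : allLt 1024 (fun n => Spor.force (ut n) fun g => Nat.beq (g &&& 549822) 0 ||
    Nat.beq (mm g (idm + 2 ^ 5) &&& 549822) 0) = true := by decide +kernel
  simp only [allLt_iff, Spor.force_eq, Bool.or_eq_true, nbeq_iff] at this
  obtain ⟨n, hn, e1⟩ := mem_UT.1 (mem_T.1 ht)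
  have e2 : cd (E 0 1) = idm + 2 ^ 5 := cd_E (by norm_num) (by norm_num) (by norm_num)
  have h1 : t * ι (E 0 1) ∈ T0 := mem_T0.2 (by
    rw [mul_g, ι_g, cd_mul, e1, e2]
    exact (this n hn).resolve_left fun c => h (mem_T0.2 (e1 ▸ c)))
  have h2 : ι (E 0 1) * x3 * (ι (E 0 1))⁻¹ = x3⁻¹ := c_inj (by
    rw [c_mul, c_mul, c_inv, c_inv, c_ι, e2, c_x3]; decide +kernel)
  have := inv_mem (conj_Q (inv_mem x3_mem.2) (T0_le h1).2)
  rw [show t * ι (E 0 1) * x3 * (t * ι (E 0 1))⁻¹ = t * (ι (E 0 1) * x3 * (ι (E 0 1))⁻¹) * t⁻¹ by group, h2] at this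
  convert this using 1; group

theorem x3_T0 {t : M} (ht : t ∈ T) : t * x3 * t⁻¹ * x3⁻¹ ∈ Q ↔ t ∈ T0 := by
  refine ⟨fun h => by_contra fun c => ?_, fun h => (T0_le h).2⟩
  have := mul_mem (inv_mem h) (inv_x3 ht c)
  rw [show (t * x3 * t⁻¹ * x3⁻¹)⁻¹ * (t * x3 * t⁻¹ * x3) = x3 * x3 by group, mem_Q_c, c_mul, c_x3] at this
  exact absurd this (by decide +kernel)

theorem x3_T {t : M} (ht : t ∈ T) : t * x3 * t⁻¹ * x3⁻¹ ∈ Q ∨ t * x3 * t⁻¹ * x3 ∈ Q :=
  (em' (t ∈ T0)).symm.imp (x3_T0 ht).2 (inv_x3 ht)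

theorem x3_fpf {q : M} (hq : q ∈ Q) : Eqv z (q * (x3 * q * x3⁻¹) * (x3⁻¹ * q * x3)) 1 := by
  have : (Spor.force (mx 17043554) fun X => Spor.force (mx 17043491) fun X' => allLt 1024 (fun n => Spor.force (ut n) fun g =>
    !Nat.beq (g &&& kQ) 0 || Spor.force (mm g (mm (mm 17043554 g) 17043491)) fun k =>
      Nat.beq (mm k (mm (mm 17043491 g) 17043554)) idm && Spor.force (mx g) fun G => Spor.force (mx k) fun K =>
        allLt 1024 fun a => !Nat.beq (a &&& 800) 0 || blt (a ^^^ apm G (apm X a) ^^^ apm K (apm X' a)) 2)) = true := by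
    decide +kernel
  simp only [allLt_iff, Spor.force_eq, Bool.or_eq_true, Bool.and_eq_true, nbeq_iff, blt_iff, Bool.not_eq_true',
    ← Bool.not_eq_true, ← imp_iff_not_or] at this
  obtain ⟨n, hn, e1⟩ := exists_ut (mem_Q.1 hq).2
  obtain ⟨h1, h2⟩ := this n hn (e1 ▸ (mem_Q.1 hq).2)
  have a0 : x3.a = 0 := rfl
  have g1 : (q * (x3 * q * x3⁻¹) * (x3⁻¹ * q * x3)).g = 1 := cd_inj (by
    simp only [mul_g, inv_g, cd_mul, cd_x3, cd_x3', e1, h1, cd_one])
  have g2 : (q * (x3 * q * x3⁻¹) * (x3⁻¹ * q * x3)).a < 2 := by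
    simp only [mul_a, mul_g, inv_a, inv_g, a0, ac_zero, Nat.zero_xor, Nat.xor_zero, cd_mul, cd_x3, cd_x3', e1]
    exact h2 _ q.lt (mem_Q.1 hq).1
  rw [eq_e g1]
  generalize (q * (x3 * q * x3⁻¹) * (x3⁻¹ * q * x3)).a = a at g2
  interval_cases a
  exacts [Or.inl rfl, Or.inr (mul_one _).symm]

/-- The largest normal 2-subgroup of `Y` is `A Q`. -/
theorem le_AQ {H : Subgroup M} (hH : H ≤ Y) (hn : Y ≤ normalizer (H : Set M)) (h2 : IsPGroup 2 H) : H ≤ sb 0 kQ := by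
  obtain ⟨y, hy, hT⟩ := (syl_T.mono T_le_Y le_top).exists_cj_le h2 hH
  rw [cj_eq_iff.2 (hn hy)] at hT
  intro x hx
  have : allLt 1024 (fun n => Spor.force (ut n) fun g =>
    !Nat.beq (mm (mm (idm + 2 ^ 1) g) (idm + 2 ^ 1) &&& kT) 0 || (!Nat.beq (mm (mm (idm + 2 ^ 13) g) (idm + 2 ^ 13) &&& kT) 0 ||
      (!Nat.beq (mm (mm (idm + 2 ^ 19) g) (idm + 2 ^ 19) &&& kT) 0 || (!Nat.beq (mm (mm (idm + 2 ^ 14) g) (idm + 2 ^ 14) &&& kT) 0 ||
        Nat.beq (g &&& kQ) 0)))) = true := by decide +kernel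
  simp only [allLt_iff, Spor.force_eq, Bool.or_eq_true, nbeq_iff, Bool.not_eq_true', ← Bool.not_eq_true,
    ← imp_iff_not_or] at this
  obtain ⟨n, hn', e1⟩ := mem_UT.1 (mem_T.1 (hT hx))
  have k : ∀ i < 5, ∀ j < 5, i ≠ j → (idm + 2 ^ (5 * j + i)) &&& kY = 0 →
      mm (mm (idm + 2 ^ (5 * j + i)) (ut n)) (idm + 2 ^ (5 * j + i)) &&& kT = 0 := fun i hi j hj hij c => by
    have e := cd_E hi hj hij
    have := (mem_pat (by decide +kernel)).1 (mem_T.1 (hT ((mem_normalizer_iff.1 (hn (x := ι (E i j))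
      (mem_Y.2 ((mem_pat (by decide +kernel)).2 (by rwa [ι_g, e])))) x).1 hx)))
    rwa [mul_g, mul_g, inv_g, ι_g, inv_eq_of_mul_eq_one_right (E_sq hi hj hij), cd_mul, cd_mul, e, e1] at this
  exact (mem_sb_zero (by decide +kernel)).2 ((mem_pat (by decide +kernel)).2 (e1 ▸ this n hn'
    (k 1 (by norm_num) 0 (by norm_num) (by norm_num) (by decide)) (k 3 (by norm_num) 2 (by norm_num) (by norm_num) (by decide))
    (k 4 (by norm_num) 3 (by norm_num) (by norm_num) (by decide)) (k 4 (by norm_num) 2 (by norm_num) (by norm_num) (by decide))))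

end Cfsg.Agent.R20
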