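import Mathlib
import Cfsg.Agent.R20.Gen
import Cfsg.Agent.R20.Spl3k
import Cfsg.Agent.Chev.CTA2

/-!
Every extension of the exterior square by `L5` splits.
-/

set_option autoImplicit false
set_option synthInstance.maxSize 100000
set_option linter.unusedSectionVars false

namespace Cfsg.Agent.R20

open Cfsg.Agent.Spor Cfsg.Agent.Inv.Fz Subgroup

variable {N : Type*} [Group N] [Finite N]

namespace Sp

/-- The pair of words is one of the relations. -/
noncomputable def has (u v : List ℕ) : Bool :=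
  !allLt 200 fun k => !band (beqL (sd (2 * k)) u) (beqL (sd (2 * k + 1)) v)

omit [Finite N] in
theorem of_has {x : ℕ → N} (h : ∀ k < 200, evalW x (sd (2 * k)) = evalW x (sd (2 * k + 1))) {u v : List ℕ}
    (e : has u v = true) : evalW x u = evalW x v := by
  by_contra n
  rw [has, (allLt_iff _ _).2 fun k hk => ?_] at e
  · exact absurd e (by decide)
  rw [Bool.not_eq_true', ← Bool.not_eq_true, band_iff]
  exact fun l => n (eq_of_beqL l.1 ▸ eq_of_beqL l.2 ▸ h k hk)

theorem has_sq : ∀ i < 5, ∀ j < 5, i ≠ j → has [5 * j + i, 5 * j + i] [] = true := by decide +kernel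

theorem has_comm : ∀ i < 5, ∀ j < 5, ∀ k < 5, ∀ l < 5, i ≠ j → k ≠ l → i ≠ l → j ≠ k → 5 * j + i = 5 * l + k ∨
    has [5 * j + i, 5 * l + k] [5 * l + k, 5 * j + i] = true ∨
      has [5 * l + k, 5 * j + i] [5 * j + i, 5 * l + k] = true := by decide +kernel

theorem has_rel : ∀ i < 5, ∀ j < 5, ∀ l < 5, i ≠ j → j ≠ l → i ≠ l →
    has [5 * j + i, 5 * l + j] [5 * l + i, 5 * l + j, 5 * j + i] = true := by decide +kernel

theorem lc_eq : ∀ i < 5, ∀ j < 5, i ≠ j → lc (5 * j + i) = idm + 2 ^ (5 * j + i) := by decide +kernel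

omit [Finite N] in
theorem exists_sec (X : Ex N) : ∃ Φ : L5 →* N, ∀ g, X.σ (Φ g) = g := by
  obtain ⟨x, h1, h2⟩ := exists_rel X
  let g : Ch.RtA 5 → N := fun r => x (5 * r.1.2 + r.1.1)
  have ne : ∀ r : Ch.RtA 5, (r.1.1 : ℕ) ≠ r.1.2 := fun r e => r.2 (Fin.ext e)
  have sq : ∀ r, g r * g r = 1 := fun r => by simpa using of_has h2 (has_sq _ r.1.1.2 _ r.1.2.2 (ne r))
  have z : ∀ t : ZMod 2, t = 0 ∨ t = 1 := by decide
  have v0 : (0 : ZMod 2).val = 0 := rfl
  have v1 : (1 : ZMod 2).val = 1 := rfl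
  obtain ⟨Φ, hΦ⟩ := Chev.slRel_exists_hom (K := ZMod 2) (by norm_num) (y := fun r t => g r ^ t.val)
    ⟨fun a t u => by
      rcases z t with rfl | rfl <;> rcases z u with rfl | rfl
      · simp
      · simp
      · simp
      · rw [v1, pow_one, sq, show (1 : ZMod 2) + 1 = 0 from rfl, v0, pow_zero],
    fun a b t u e1 e2 => Commute.pow_pow (by
      rcases has_comm _ a.1.1.2 _ a.1.2.2 _ b.1.1.2 _ b.1.2.2 (ne a) (ne b) (fun e => e1 (Fin.ext e))
        (fun e => e2 (Fin.ext e)) with e | e | e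
      · rw [show g a = g b from congrArg x e]
      · simpa [commute_iff_eq, g] using of_has h2 e
      · simpa [commute_iff_eq, g] using (of_has h2 e).symm) _ _,
    fun a b e1 t u e2 => by
      rcases z t with rfl | rfl <;> rcases z u with rfl | rfl
      · simp
      · simp
      · simp
      · have := of_has h2 (has_rel _ a.1.1.2 _ a.1.2.2 _ b.1.2.2 (ne a) (e2 ▸ ne b) fun e => e1 (Fin.ext e))
        simp only [evalW_cons, evalW_nil, mul_one] at this
        simp only [mul_one, v1, pow_one, g, ← e2, this]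
        group⟩
  refine ⟨Φ, fun y => ?_⟩
  have k : ∀ i < 5, ∀ j < 5, i ≠ j → E i j ∈ (X.σ.comp Φ).eqLocus (MonoidHom.id _) := fun i hi j hj e => by
    have := hΦ ⟨(⟨i, hi⟩, ⟨j, hj⟩), fun l => e (congrArg Fin.val l)⟩ 1
    rw [← E_eq_xA, v1, pow_one] at this
    exact cd_inj ((congrArg (fun n => cd (X.σ n)) this).trans (((h1 _).trans (lc_eq i hi j hj e)).trans
      (cd_E hi hj e).symm))
  exact (top_le_of_E fun i hi => ⟨k _ (by omega) _ (by omega) (by omega), k _ (by omega) _ (by omega) (by omega)⟩).ge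
    (mem_top y)

end Sp

theorem Ex.split (X : Ex N) : ∃ ψ : M ≃* N, (∀ a < 1024, ψ (R20.e a) = X.e a) ∧ ∀ x, X.σ (ψ x) = x.g := by
  obtain ⟨Φ, hΦ⟩ := Sp.exists_sec X
  let f : M →* N := MonoidHom.mk' (fun x => X.e x.a * Φ x.g) fun x y => by
    rw [mul_a, mul_g, map_mul, X.xor _ x.lt _ (ac_lt _ _), mul_assoc (X.e x.a) (Φ x.g), ← mul_assoc (Φ x.g),
      Sp.mul_e X _ y.lt, hΦ]
    simp only [mul_assoc]
  have hf : ∀ x, f x = X.e x.a * Φ x.g := fun _ => rfl
  have hσ : ∀ x, X.σ (f x) = x.g := fun x => by rw [hf, map_mul, Sp.σ_e X x.lt, one_mul, hΦ]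
  refine ⟨MulEquiv.ofBijective f ⟨(injective_iff_map_eq_one f).2 fun x hx => ?_, fun n => ?_⟩, fun a ha => ?_, hσ⟩
  · have h1 : x.g = 1 := by rw [← hσ, hx, map_one]
    rw [hf, h1, map_one, mul_one] at hx
    exact M.ext (X.inj _ x.lt hx) h1
  · obtain ⟨a, ha, e⟩ := (X.ker (n * (Φ (X.σ n))⁻¹)).1 (by rw [map_mul, map_inv, hΦ, mul_inv_cancel])
    exact ⟨⟨a, ha, X.σ n⟩, (mul_inv_eq_iff_eq_mul.1 e).symm⟩
  · change X.e (R20.e a).a * Φ (R20.e a).g = _
    rw [e_a ha, e_g, map_one, mul_one]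

end Cfsg.Agent.R20
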